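import Cfsg.Agent.GeomClasses.Aschbacher.Rel.OrthOddMain
import Cfsg.Agent.GeomClasses.OrthTools

/-! # A quadratic form as form data, and operator algebras as matrix algebras -/

set_option autoImplicit false

namespace Cfsg.Agent.GeomClasses.EvenTen

open Matrix Cfsg.Geo
open Cfsg.Agent.GeomClasses.AschRel
open Cfsg.Agent.GeomClasses.Asch (Normalises)

variable {ι : Type} [Fintype ι] [DecidableEq ι] {F : Type*} [Field F]

/-- The Gram matrix of the polar form. -/
def qgram (Q : QuadraticForm F (ι → F)) : Matrix ι ι F := gram (QuadraticMap.polar ⇑Q)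

variable (Q : QuadraticForm F (ι → F))

local notation "Bq" => qgram Q
local notation "fq" => matForm (RingEquiv.refl F) (qgram Q)

theorem polar_eq (u v : ι → F) : QuadraticMap.polar (⇑Q) u v = fq u v :=
  eq_matForm (fun x y v => QuadraticMap.polar_add_left Q x y v)
    (fun c x v => by rw [QuadraticMap.polar_smul_left, smul_eq_mul])
    (fun v x y => QuadraticMap.polar_add_right Q v x y)
    (fun c v x => by rw [QuadraticMap.polar_smul_right, smul_eq_mul]; rfl) u v

theorem formData (hQ : (QuadraticMap.polarBilin Q).Nondegenerate) :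
    FormData (RingEquiv.refl F) Bq 1 := by
  refine ⟨fun a => rfl, isUnit_of_nondeg (σ := RingEquiv.refl F) fun v hv => ?_, one_ne_zero, fun u v => ?_⟩
  · have h : ∃ x, QuadraticMap.polar (⇑Q) x v ≠ 0 := by
      by_contra hc
      push Not at hc
      exact hv (hQ.2 v hc)
    obtain ⟨x, hx⟩ := h
    exact ⟨⟨x, by rwa [← polar_eq]⟩, ⟨x, by rwa [← polar_eq, QuadraticMap.polar_comm]⟩⟩
  · rw [one_mul, ← polar_eq, ← polar_eq]
    exact QuadraticMap.polar_comm _ v u

theorem quad_of_mem {g : GL ι F} (hg : g ∈ isometryGroup F ⇑Q) (v : ι → F) :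
    Q ((g : Matrix ι ι F) *ᵥ v) = Q v := hg v v

theorem iso_of_mem {g : GL ι F} (hg : g ∈ isometryGroup F ⇑Q) (u v : ι → F) :
    fq ((g : Matrix ι ι F) *ᵥ u) ((g : Matrix ι ι F) *ᵥ v) = fq u v := by
  rw [← polar_eq, ← polar_eq]
  simp only [QuadraticMap.polar, ← Matrix.mulVec_add, quad_of_mem Q hg]

theorem omega_le_isometry : omegaGL ⇑Q ≤ isometryGroup F ⇑Q := Subgroup.map_subtype_le _

theorem sim_sup {H : Subgroup (GL ι F)} (hI : H ≤ isometryGroup F ⇑Q) :
    ∀ g ∈ H ⊔ scalars ι F, IsSim (RingEquiv.refl F) Bq g := by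
  intro g hg
  rw [← SetLike.mem_coe, Subgroup.mul_normal] at hg
  obtain ⟨a, ha, z, hz, rfl⟩ := hg
  obtain ⟨c, hc⟩ := (mem_scalars_iff z).mp hz
  refine ⟨(c : F) * c, mul_ne_zero c.ne_zero c.ne_zero, fun u v => ?_⟩
  rw [Units.val_mul, hc, Matrix.mul_smul, mul_one, Matrix.smul_mulVec, Matrix.smul_mulVec, mf_smul_left,
    mf_smul_right, iso_of_mem Q (hI ha), RingEquiv.refl_apply, mul_assoc]

variable {Q}

/-- An operator algebra as a matrix algebra. -/
noncomputable def opAlg (L : Subalgebra F (Module.End F (ι → F))) : Subalgebra F (Matrix ι ι F) :=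
  L.map (LinearMap.toMatrixAlgEquiv' : Module.End F (ι → F) ≃ₐ[F] Matrix ι ι F).toAlgHom

theorem mem_opAlg {L : Subalgebra F (Module.End F (ι → F))} {x : Matrix ι ι F} :
    x ∈ opAlg L ↔ Matrix.toLin' x ∈ L := by
  constructor
  · rintro ⟨y, hy, rfl⟩
    show Matrix.toLin' (LinearMap.toMatrix' y) ∈ L
    rwa [Matrix.toLin'_toMatrix']
  · exact fun h => ⟨_, h, LinearMap.toMatrix'_toLin' x⟩

theorem opAlg_field {L : Subalgebra F (Module.End F (ι → F))} {r : ℕ}
    (hcomm : ∀ x ∈ L, ∀ y ∈ L, x * y = y * x) (hinv : ∀ x ∈ L, x ≠ 0 → ∃ y ∈ L, x * y = 1)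
    (hfin : Module.finrank F L = r) : IsFieldSubalgebra r (opAlg L) := by
  refine ⟨?_, ?_, ?_⟩
  · rintro _ ⟨x, hx, rfl⟩ _ ⟨y, hy, rfl⟩
    rw [← map_mul, ← map_mul, hcomm x hx y hy]
  · rintro _ ⟨x, hx, rfl⟩ h0
    obtain ⟨y, hy, hxy⟩ := hinv x hx fun h => h0 (by rw [h, map_zero])
    exact ⟨_, ⟨y, hy, rfl⟩, by rw [← map_mul, hxy, map_one]⟩
  · rw [← hfin]
    exact (L.equivMapOfInjective _ (AlgEquiv.injective _)).toLinearEquiv.finrank_eq.symm

theorem opAlg_selfAdjoint (hQ : (QuadraticMap.polarBilin Q).Nondegenerate)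
    {L : Subalgebra F (Module.End F (ι → F))} :
    IsSelfAdjointFor (QuadraticMap.polar ⇑Q) (opAlg L) ↔ ∀ x ∈ L, st (RingEquiv.refl F) Bq x = x := by
  constructor
  · intro h x hx
    refine st_unique (formData Q hQ) fun u v => ?_
    have := h (LinearMap.toMatrix' x) (mem_opAlg.mpr (by rwa [Matrix.toLin'_toMatrix'])) u v
    rw [LinearMap.toMatrix'_mulVec, LinearMap.toMatrix'_mulVec, polar_eq, polar_eq] at this
    exact this
  · intro h k hk u v
    have e := adjoint (formData Q hQ) (Matrix.toLin' k) u v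
    rw [h _ (mem_opAlg.mp hk)] at e
    rw [polar_eq, polar_eq]
    exact e

theorem le_normalizer {K : Subgroup (GL ι F)} {L : Subalgebra F (Module.End F (ι → F))}
    (h : ∀ g ∈ K, Normalises L (gu g)) : K ≤ subalgebraNormalizer (opAlg L) := by
  intro g hg k
  rw [mem_opAlg, mem_opAlg, h g hg, Matrix.toLin'_mul, Matrix.toLin'_mul, ← map_inv]
  rfl

end Cfsg.Agent.GeomClasses.EvenTen
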