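import Cfsg.Agent.GeomClasses.EvenTen.Basic
import Cfsg.Agent.GeomClasses.OrthEven.Exclusions
import Cfsg.Agent.GeomClasses.FrameRefine

/-! # Transitive orthogonal decompositions in dimension ten, minus type -/

set_option autoImplicit false
set_option maxHeartbeats 600000

namespace Cfsg.Agent.GeomClasses.EvenTen

open Matrix Cfsg.Geo Module
open Cfsg.Agent.GeomClasses.AschRel

variable {F : Type*} [Field F] [Fintype F]

section Lemmas

variable {ι : Type} [Fintype ι] [DecidableEq ι] {Q : QuadraticForm F (ι → F)}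

local notation "fq" => matForm (RingEquiv.refl F) (qgram Q)

/-- Non-degenerate subspaces have even dimension when `2 = 0`. -/
theorem even_finrank_of_two_eq_zero (h20 : (2 : F) = 0) {W : Submodule F (ι → F)}
    (hW : IsNondegenerateOn fq W) : Even (finrank F W) := by
  have halt : (LinearMap.BilinForm.restrict (QuadraticMap.polarBilin Q) W).IsAlt := fun w => by
    show QuadraticMap.polarBilin Q (w : ι → F) (w : ι → F) = 0
    rw [QuadraticMap.polarBilin_apply_apply, Forms.polar_self_two_mul, h20, zero_mul]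
  have hl : ∀ u : W, (∀ v : W, QuadraticMap.polar (⇑Q) (u : ι → F) (v : ι → F) = 0) → u = 0 := by
    intro u hu
    by_contra h0
    obtain ⟨-, x, hx, hne⟩ := hW u u.2 fun h => h0 (Subtype.ext h)
    exact hne (by rw [← polar_eq]; exact hu ⟨x, hx⟩)
  have hI := Forms.isForm_alt (LinearMap.BilinForm.restrict (QuadraticMap.polarBilin Q) W)
    ⟨fun u hu => hl u fun v => hu v, fun u hu => hl u fun v => by
      rw [QuadraticMap.polar_comm]; exact hu v⟩ halt
  obtain ⟨k, -, hk, -⟩ := Forms.exists_symp_family hI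
  exact ⟨k, by omega⟩

/-- An even number of blocks, translates of one another, has a totally singular half when `-1` is a square. -/
theorem singular_of_pairs {H : Subgroup (GL ι F)} (hI : H ≤ isometryGroup F ⇑Q) {t k : ℕ}
    {D : Fin t → Submodule F (ι → F)} (hD : IsNondegenerateMDecomposition fq k D)
    (htr : ∀ i j, ∃ g ∈ H, ∀ v ∈ D i, (g : Matrix ι ι F) *ᵥ v ∈ D j) (ht : Even t) {s : F} (hs : s * s = -1) :
    ∃ U : Submodule F (ι → F), IsTotallySingularQuad (⇑Q) U ∧ 2 * finrank F U = Fintype.card ι := by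
  classical
  have hd := hD.decomp
  let i₀ : Fin t := ⟨0, by have := hd.two_le; omega⟩
  choose g hgH hgD using fun i => htr i₀ i
  let b₀ := Module.finBasisOfFinrankEq F (D i₀) (hd.finrank_eq i₀)
  let L : ∀ i, D i₀ →ₗ[F] D i := fun i =>
    { toFun := fun v => ⟨(g i : Matrix ι ι F) *ᵥ (v : ι → F), hgD i v v.2⟩
      map_add' := fun a c => Subtype.ext (by simp [Matrix.mulVec_add])
      map_smul' := fun c a => Subtype.ext (by simp [Matrix.mulVec_smul]) }
  have hLinj : ∀ i, Function.Injective (L i) := fun i a c hac => by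
    have := congrArg ((g i)⁻¹.val *ᵥ ·) (congrArg Subtype.val hac)
    exact Subtype.ext (by simpa [L, Matrix.mulVec_mulVec] using this)
  let bi : ∀ i, Basis (Fin k) F (D i) := fun i => basisOfLinearIndependentOfCardEqFinrank'
    (fun j => L i (b₀ j)) (b₀.linearIndependent.map' (L i) (LinearMap.ker_eq_bot.mpr (hLinj i)))
    (by rw [Fintype.card_fin, hd.finrank_eq i])
  have hint := DirectSum.isInternal_submodule_of_iSupIndep_of_iSup_eq_top hd.indep hd.iSup_eq_top
  let b : Basis (Fin t × Fin k) F (ι → F) := (hint.collectedBasis bi).reindex (Equiv.sigmaEquivProd _ _)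
  have hb : ∀ i j, b (i, j) = (g i : Matrix ι ι F) *ᵥ (b₀ j : ι → F) := fun i j => by
    simp [b, bi, L, DirectSum.IsInternal.collectedBasis_coe]
  have hbf : ∀ x y : Fin t × Fin k,
      fq (b x) (b y) = if x.1 = y.1 then fq (b₀ x.2 : ι → F) (b₀ y.2 : ι → F) else 0 := by
    rintro ⟨i, j⟩ ⟨i', l⟩
    rw [hb, hb]
    dsimp only
    split_ifs with h
    · subst h; exact iso_of_mem Q (hI (hgH i)) _ _
    · exact hD.orthogonal i i' h _ (hgD i _ (b₀ j).2) _ (hgD i' _ (b₀ l).2)
  obtain ⟨t', rfl⟩ := ht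
  let E : Fin t' × Fin 2 ≃ Fin (t' + t') := finProdFinEquiv.trans (finCongr (by ring))
  let w : Fin t' × Fin k → (ι → F) := fun p => b (E (p.1, 0), p.2) + s • b (E (p.1, 1), p.2)
  have hli : LinearIndependent F w := by
    rw [Fintype.linearIndependent_iff]
    intro cc hcc p
    have := congrArg (fun v => b.repr v (E (p.1, 0), p.2)) hcc
    simp only [w, map_sum, map_smul, map_add, map_zero, Finsupp.finset_sum_apply, Finsupp.smul_apply,
      Finsupp.add_apply, Finsupp.zero_apply, Module.Basis.repr_self, Finsupp.single_apply, Prod.mk.injEq,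
      E.injective.eq_iff] at this
    rw [Finset.sum_eq_single p (fun q _ hq => ?_) (by simp)] at this
    · simpa using this
    · have : ¬ (q.1 = p.1 ∧ q.2 = p.2) := fun h => hq (Prod.ext h.1 h.2)
      simp [this]
  obtain ⟨U, hU, hUd⟩ := OrthEven.singular_span Q hli (fun p => by
      have hQb : ∀ i, Q (b (i, p.2)) = Q (b₀ p.2 : ι → F) := fun i => by
        rw [hb]; exact quad_of_mem Q (hI (hgH i)) _
      simp only [w]
      rw [QuadraticMap.map_add Q, QuadraticMap.map_smul, QuadraticMap.polar_smul_right, hQb, hQb, polar_eq, hbf,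
        if_neg (fun h => by simpa using E.injective h), smul_zero, add_zero, smul_eq_mul, hs]
      ring) fun p q => by
      simp only [w]
      rw [polar_eq, mf_add_left, mf_add_right, mf_add_right, mf_smul_left, mf_smul_right, mf_smul_right,
        mf_smul_left, RingEquiv.refl_apply, hbf, hbf, hbf, hbf]
      simp only [E.injective.eq_iff, Prod.mk.injEq]
      by_cases h : p.1 = q.1
      · simp only [h, and_self, zero_ne_one, one_ne_zero, and_false, if_true, if_false, add_zero, zero_add, mul_zero]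
        linear_combination (fq (b₀ p.2 : ι → F) (b₀ q.2 : ι → F)) * hs
      · simp [h]
  refine ⟨U, hU, ?_⟩
  rw [hUd, ← Module.finrank_fintype_fun_eq_card F (η := ι), Module.finrank_eq_card_basis b]
  simp
  ring

/-- Transitive blocks of dimension one over a field with a proper subfield give a rational structure. -/
theorem rational_of_lines {H : Subgroup (GL ι F)} (hI : H ≤ isometryGroup F ⇑Q) (h2 : (2 : F) ≠ 0) {t : ℕ}
    {D : Fin t → Submodule F (ι → F)} (hD : IsNondegenerateMDecomposition fq 1 D)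
    (hK : H ≤ decompositionStabilizer D) (htr : ∀ i j, ∃ g ∈ H, ∀ v ∈ D i, (g : Matrix ι ι F) *ᵥ v ∈ D j)
    (F₁ : Subfield F) :
    ∃ (P : GL ι F) (z : F), z ≠ 0 ∧ IsQuadFormRationalStructure (fun v : ι → F => z * Q v) F₁ P ∧
      H ≤ subfieldSubgroup F₁ P := by
  classical
  have ht := hD.decomp.two_le
  let i₀ : Fin t := ⟨0, by omega⟩
  obtain ⟨v₀, hv₀, hv₀0⟩ := (Submodule.ne_bot_iff (D i₀)).mp fun e => by
    have := hD.decomp.finrank_eq i₀; rw [e, finrank_bot] at this; omega
  choose g hgH hgi using fun j => htr i₀ j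
  let v : Fin t → (ι → F) := fun j => (g j : Matrix ι ι F) *ᵥ v₀
  have hv : ∀ j, v j ∈ D j := fun j => hgi j v₀ hv₀
  have hv0 : ∀ j, v j ≠ 0 := fun j e => hv₀0 (by
    have := congrArg (((g j)⁻¹ : GL ι F).val *ᵥ ·) e
    simpa [v, Matrix.mulVec_mulVec] using this)
  have hQv : ∀ j, Q (v j) = Q v₀ := fun j => quad_of_mem Q (hI (hgH j)) _
  have hgen : ∀ j, ∀ w ∈ D j, ∃ c : F, w = c • v j := fun j w hw => by
    obtain ⟨c, hc⟩ := (finrank_eq_one_iff_of_nonzero' (⟨v j, hv j⟩ : D j)
      fun e => hv0 j (congrArg Subtype.val e)).mp (hD.decomp.finrank_eq j) ⟨w, hw⟩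
    exact ⟨c, (congrArg Subtype.val hc).symm⟩
  have ha : Q v₀ ≠ 0 := by
    intro h0
    obtain ⟨-, y, hy, hne⟩ := hD.nondegenerate i₀ (v i₀) (hv i₀) (hv0 i₀)
    obtain ⟨c, rfl⟩ := hgen i₀ y hy
    exact hne (by rw [mf_smul_right, ← polar_eq, Forms.polar_self_two_mul, hQv, h0, mul_zero, mul_zero])
  have hli : LinearIndependent F v :=
    hD.decomp.indep.linearIndependent _ (fun j => hv j) hv0
  have hsp : Submodule.span F (Set.range v) = ⊤ := by
    refine eq_top_iff.mpr (hD.decomp.iSup_eq_top ▸ iSup_le fun j w hw => ?_)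
    obtain ⟨c, rfl⟩ := hgen j w hw
    exact Submodule.smul_mem _ c (Submodule.subset_span ⟨j, rfl⟩)
  let b := Module.Basis.mk hli hsp.ge
  obtain ⟨e⟩ := finEquiv b
  have hb : ∀ j, b j = v j := fun j => Module.Basis.mk_apply hli hsp.ge j
  refine ⟨frameGL b e, (Q v₀)⁻¹, inv_ne_zero ha, ?_, ?_⟩
  · intro u hu
    have hP : (frameGL b e : Matrix ι ι F) *ᵥ u = ∑ j, u (e.symm j) • v j := by
      funext i
      show ∑ j, (Pi.basisFun F ι).toMatrix (b.reindex e.symm) i j * u j = _
      rw [Finset.sum_apply, ← e.sum_comp fun j => (u (e.symm j) • v j) i]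
      refine Finset.sum_congr rfl fun j _ => ?_
      simp [Module.Basis.toMatrix_apply, hb, mul_comm]
    have hsum : ∀ (c : Fin t → F) (S : Finset (Fin t)),
        Q (∑ j ∈ S, c j • v j) = (∑ j ∈ S, c j * c j) * Q v₀ := by
      intro c S
      induction S using Finset.induction_on with
      | empty => simp
      | insert a S haS ih =>
        have hz : fq (v a) (∑ j ∈ S, c j • v j) = 0 := by
          rw [mf_sum_right]
          refine Finset.sum_eq_zero fun j hj => ?_
          rw [mf_smul_right, hD.orthogonal a j (fun h => haS (h ▸ hj)) _ (hv a) _ (hv j), mul_zero]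
        rw [Finset.sum_insert haS, Finset.sum_insert haS, QuadraticMap.map_add Q, ih, QuadraticMap.map_smul, hQv,
          polar_eq, mf_smul_left, hz, mul_zero, smul_eq_mul]
        ring
    show (Q v₀)⁻¹ * Q _ ∈ F₁
    rw [hP, hsum, mul_left_comm, inv_mul_cancel₀ ha, mul_one]
    exact Subfield.sum_mem _ fun j _ => mul_mem (hu _) (hu _)
  have hmon : ∀ x ∈ H, ∀ i j, (coordGL b x : Matrix (Fin t) (Fin t) F) i j ∈ F₁ := by
    intro x hx i j
    obtain ⟨π, hπ⟩ := hK hx
    have hxv : (x : Matrix ι ι F) *ᵥ v j ∈ D (π j) := by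
      rw [← hπ j]; exact ⟨v j, hv j, Matrix.toLin'_apply _ _⟩
    obtain ⟨c, hc⟩ := hgen _ _ hxv
    have hcc : c * c = 1 := by
      have := quad_of_mem Q (hI hx) (v j)
      rw [hc, QuadraticMap.map_smul, hQv, hQv, smul_eq_mul] at this
      exact mul_right_cancel₀ ha (by rw [one_mul]; exact this)
    rw [coordGL_apply, gu_apply, hb, hc, map_smul, ← hb, Module.Basis.repr_self, Finsupp.smul_apply,
      Finsupp.single_apply, smul_eq_mul]
    split_ifs
    · rw [mul_one]
      rcases mul_self_eq_one_iff.mp hcc with h1 | h1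
      · rw [h1]; exact one_mem _
      · rw [h1]; exact neg_mem (one_mem _)
    · rw [mul_zero]; exact zero_mem _
  intro x hx
  exact ⟨glReindex e.symm (coordGL b x), Subgroup.mem_sup_left (mem_range_of_entries fun i j => hmon x hx (e i) (e j)),
    conj_coord b e x⟩

end Lemmas

variable {Q : QuadraticForm F (Fin 10 → F)}

local notation "fq" => matForm (RingEquiv.refl F) (qgram Q)

/-- The imprimitive outcome. -/
theorem decomp_cases (hQ : (QuadraticMap.polarBilin Q).Nondegenerate) (hminus : ¬ IsPlusTypeOn (⇑Q) ⊤)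
    {H : Subgroup (GL (Fin 10) F)} (hH : IsMaximalIn (omegaGL ⇑Q) H) {t k : ℕ}
    {D : Fin t → Submodule F (Fin 10 → F)} (hD : IsNondegenerateMDecomposition fq k D)
    (hK : H ⊔ scalars (Fin 10) F ≤ decompositionStabilizer D)
    (htr : ∀ i j, ∃ g ∈ H ⊔ scalars (Fin 10) F, ∀ v ∈ D i, (g : Matrix (Fin 10) (Fin 10) F) *ᵥ v ∈ D j) :
    ((∃ p : ℕ, p.Prime ∧ Fintype.card F = p ∧ p % 4 = 3) ∧ ∃ D : Fin 10 → Submodule F (Fin 10 → F),
        IsOrthogonalMDecomposition (⇑Q) 1 D ∧ H ≤ decompositionStabilizer D) ∨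
    (Fintype.card F ≠ 3 ∧ ∃ D : Fin 5 → Submodule F (Fin 10 → F),
        IsOrthogonalMDecomposition (⇑Q) 2 D ∧ H ≤ decompositionStabilizer D) ∨
    (Fintype.card F % 4 = 3 ∧ ∃ D : Fin 2 → Submodule F (Fin 10 → F),
        IsOrthogonalMDecomposition (⇑Q) 5 D ∧ H ≤ decompositionStabilizer D) ∨
    (∃ (F₁ : Subfield F) (r : ℕ) (P : GL (Fin 10) F) (z : F), r.Prime ∧ Odd r ∧ Fintype.card F = Nat.card F₁ ^ r ∧
      z ≠ 0 ∧ IsQuadFormRationalStructure (fun v : Fin 10 → F => z * Q v) F₁ P ∧ H ≤ subfieldSubgroup F₁ P) := by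
  classical
  have hI : H ≤ isometryGroup F ⇑Q := hH.1.le.trans (omega_le_isometry Q)
  have hKH : H ≤ decompositionStabilizer D := le_sup_left.trans hK
  have htr' : ∀ i j, ∃ g ∈ H, ∀ v ∈ D i, (g : Matrix (Fin 10) (Fin 10) F) *ᵥ v ∈ D j := by
    intro i j
    obtain ⟨g, hg, hgij⟩ := htr i j
    rw [← SetLike.mem_coe, Subgroup.mul_normal] at hg
    obtain ⟨a, ha, z, hz, rfl⟩ := hg
    refine ⟨a, ha, fun v hv => ?_⟩
    obtain ⟨c, hc⟩ := (mem_scalars_iff z).mp hz
    have := hgij v hv
    rw [Units.val_mul, ← Matrix.mulVec_mulVec, hc, Matrix.smul_mulVec, Matrix.one_mulVec, Matrix.mulVec_smul] at this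
    have h' := (D j).smul_mem (c : F)⁻¹ this
    rwa [smul_smul, inv_mul_cancel₀ c.ne_zero, one_smul] at h'
  have hiso : ∀ i j, AreIsometricFor (⇑Q) (D i) (D j) := by
    intro i j
    obtain ⟨g, hg, hgij⟩ := htr' i j
    let L : D i →ₗ[F] D j :=
      { toFun := fun v => ⟨(g : Matrix (Fin 10) (Fin 10) F) *ᵥ (v : Fin 10 → F), hgij v v.2⟩
        map_add' := fun a b => Subtype.ext (by simp [Matrix.mulVec_add])
        map_smul' := fun c a => Subtype.ext (by simp [Matrix.mulVec_smul]) }
    have hinj : Function.Injective L := fun a b hab => by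
      have := congrArg ((g⁻¹ : GL (Fin 10) F).val *ᵥ ·) (congrArg Subtype.val hab)
      exact Subtype.ext (by simpa [L, Matrix.mulVec_mulVec] using this)
    exact ⟨LinearEquiv.ofBijective L ⟨hinj, (LinearMap.injective_iff_surjective_of_finrank_eq_finrank
      (by rw [hD.decomp.finrank_eq, hD.decomp.finrank_eq])).mp hinj⟩, fun w => quad_of_mem Q (hI hg) _⟩
  have hff : fq = QuadraticMap.polar ⇑Q := funext fun u => funext fun v => (polar_eq Q u v).symm
  have hOD : IsOrthogonalMDecomposition (⇑Q) k D := ⟨hff ▸ hD, hiso⟩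
  have htk : t * k = 10 := by
    have hd := hD.decomp
    have hint := DirectSum.isInternal_submodule_of_iSupIndep_of_iSup_eq_top hd.indep hd.iSup_eq_top
    have := Module.finrank_eq_card_basis
      (hint.collectedBasis fun i => Module.finBasisOfFinrankEq F (D i) (hd.finrank_eq i))
    rw [finrank_fin_fun, Fintype.card_sigma] at this
    simp at this
    omega
  have ht2 := hD.decomp.two_le
  have hno : ∀ U : Submodule F (Fin 10 → F), IsTotallySingularQuad (⇑Q) U → 2 * finrank F U ≠ 10 := fun U hU hUd =>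
    hminus ⟨U, le_top, hU, by rw [hUd, finrank_top, finrank_fin_fun]⟩
  by_cases hk2 : k = 2
  · subst hk2
    obtain rfl : t = 5 := by omega
    by_cases hq : Fintype.card F = 3
    swap
    · exact Or.inr (Or.inl ⟨hq, D, hOD, hKH⟩)
    exfalso
    by_cases hplus : ∀ i, ¬ IsPlusTypeOn (⇑Q) (D i)
    · obtain ⟨K, hK1, hK2⟩ := FrameRefine.exists_between_blocks hq Q hOD le_rfl (Or.inr ⟨rfl, hplus⟩)
      have hHD : H ≤ decompositionStabilizer D ⊓ omegaGL ⇑Q := le_inf hKH hH.1.le
      rcases hH.2 K (hHD.trans hK1.le) hK2.le with h | h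
      · exact hK1.not_ge (h ▸ hHD)
      · exact hK2.ne h
    push Not at hplus
    obtain ⟨i₁, U₁, hU₁D, hU₁, hU₁d⟩ := hplus
    rw [hD.decomp.finrank_eq] at hU₁d
    obtain ⟨u₁, hu₁, hu₁0⟩ := (Submodule.ne_bot_iff U₁).mp fun e => by
      rw [e, finrank_bot] at hU₁d; omega
    choose g hgH hgD using fun i => htr' i₁ i
    let w : Fin 5 → (Fin 10 → F) := fun i => (g i : Matrix (Fin 10) (Fin 10) F) *ᵥ u₁
    have hw : ∀ i, w i ∈ D i := fun i => hgD i u₁ (hU₁D hu₁)
    have hw0 : ∀ i, w i ≠ 0 := fun i e => hu₁0 (by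
      have := congrArg (((g i)⁻¹ : GL (Fin 10) F).val *ᵥ ·) e
      simpa [w, Matrix.mulVec_mulVec] using this)
    have hli : LinearIndependent F w := hD.decomp.indep.linearIndependent _ (fun i => hw i) hw0
    have hQw : ∀ i, Q (w i) = 0 := fun i => (quad_of_mem Q (hI (hgH i)) u₁).trans (hU₁ u₁ hu₁)
    obtain ⟨U, hU, hUd⟩ := OrthEven.singular_span Q hli hQw fun i j => by
      by_cases hij : i = j
      · subst hij; rw [Forms.polar_self_two_mul, hQw, mul_zero]
      · rw [polar_eq]; exact hD.orthogonal i j hij _ (hw i) _ (hw j)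
    exact hno U hU (by rw [hUd, Fintype.card_fin])
  have hk15 : (k = 1 ∧ t = 10) ∨ (k = 5 ∧ t = 2) := by
    have h5 : k ≤ 5 := by nlinarith
    interval_cases k <;> omega
  have h2 : (2 : F) ≠ 0 := fun h20 => by
    have := even_finrank_of_two_eq_zero h20 (hD.nondegenerate ⟨0, by omega⟩)
    rw [hD.decomp.finrank_eq] at this
    rcases hk15 with ⟨rfl, -⟩ | ⟨rfl, -⟩ <;> exact absurd this (by decide)
  have hodd : Fintype.card F % 2 = 1 := by
    refine FiniteField.odd_card_of_char_ne_two fun hc => h2 ?_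
    haveI : CharP F 2 := ringChar.of_eq hc
    exact CharTwo.two_eq_zero
  have hq4 : Fintype.card F % 4 = 3 := by
    by_contra hne
    obtain ⟨s, hs⟩ := (FiniteField.isSquare_neg_one_iff (F := F)).mpr hne
    obtain ⟨U, hU, hUd⟩ := singular_of_pairs hI hD htr' (by rcases hk15 with ⟨-, rfl⟩ | ⟨-, rfl⟩ <;> decide) hs.symm
    exact hno U hU (by rw [hUd, Fintype.card_fin])
  rcases hk15 with ⟨rfl, rfl⟩ | ⟨rfl, rfl⟩
  swap
  · exact Or.inr (Or.inr (Or.inl ⟨hq4, D, hOD, hKH⟩))
  by_cases hp : (Fintype.card F).Prime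
  · exact Or.inl ⟨⟨_, hp, rfl, hq4⟩, D, hOD, hKH⟩
  have hbot : (⊥ : Subfield F) ≠ ⊤ := by
    intro e'
    obtain ⟨p, hp'⟩ := CharP.exists F
    haveI := hp'
    haveI : Fact p.Prime := ⟨CharP.char_is_prime F p⟩
    have hbij : Function.Bijective (ZMod.castHom (dvd_refl p) F) := by
      refine ⟨RingHom.injective _, fun x => ?_⟩
      have hx : x ∈ (⊥ : Subfield F) := e' ▸ trivial
      exact (bot_le : (⊥ : Subfield F) ≤ (ZMod.castHom (dvd_refl p) F).fieldRange) hx
    exact hp (by rw [← Fintype.card_of_bijective hbij, ZMod.card]; exact Fact.out)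
  obtain ⟨F₁, r, hr, -, hcard⟩ := exists_prime_index hbot
  have hrodd : Odd r := by
    rcases hr.eq_two_or_odd' with rfl | h
    · exfalso
      rw [hcard, sq, Nat.mul_mod] at hq4
      have := Nat.mod_lt (Nat.card F₁) (show 4 > 0 by norm_num)
      interval_cases (Nat.card F₁ % 4) <;> omega
    · exact h
  obtain ⟨P, z, hz, hrat, hle⟩ := rational_of_lines hI h2 hD hKH htr' F₁
  exact Or.inr (Or.inr (Or.inr ⟨F₁, r, P, z, hr, hrodd, hcard, hz, hrat, hle⟩))

end Cfsg.Agent.GeomClasses.EvenTen
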