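import Cfsg.Agent.GeomClasses.EvenTen.Reduce
import Cfsg.Agent.GeomClasses.Aschbacher.Rel.FullCard
import Cfsg.Agent.GeomClasses.OddMax.Main

/-! # Extension fields and abelian normal subgroups in dimension ten -/

set_option autoImplicit false
set_option maxHeartbeats 800000

namespace Cfsg.Agent.GeomClasses.EvenTen

open Matrix Cfsg.Geo Module
open scoped commutatorElement
open Cfsg.Agent.GeomClasses.AschRel
open Cfsg.Agent.GeomClasses.Asch (Irr Normalises conjHom conjHom_apply)

variable {F : Type*} [Field F] [Fintype F] {Q : QuadraticForm F (Fin 10 → F)}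

local notation "ι" => Fin 10
local notation "Bq" => qgram Q
local notation "fq" => matForm (RingEquiv.refl F) (qgram Q)
local notation "stq" => st (RingEquiv.refl F) (qgram Q)

/-- In characteristic two no quadratic extension field consists of self-adjoint operators. -/
theorem no_selfAdjoint_two (hQ : (QuadraticMap.polarBilin Q).Nondegenerate) (h20 : (2 : F) = 0)
    {L : Subalgebra F (Module.End F (ι → F))} (hfin : finrank F L = 2)
    (hcomm : ∀ x ∈ L, ∀ y ∈ L, x * y = y * x) (hinv : ∀ x ∈ L, x ≠ 0 → ∃ y ∈ L, x * y = 1)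
    (hself : ∀ x ∈ L, stq x = x) : False := by
  classical
  have hB := formData Q hQ
  haveI : CharP F 2 := CharTwo.of_one_ne_zero_of_two_eq_zero one_ne_zero h20
  haveI : Fact (Nat.Prime 2) := ⟨Nat.prime_two⟩
  letI : CommRing L := { (inferInstance : Ring L) with mul_comm := fun a b => Subtype.ext (hcomm a a.2 b b.2) }
  haveI : Nontrivial L := ⟨0, 1, fun h => zero_ne_one (congrArg Subtype.val h)⟩
  have hLF : IsField L := ⟨⟨0, 1, zero_ne_one⟩, mul_comm, fun {a} ha => by
    obtain ⟨y, hy, hxy⟩ := hinv a a.2 fun h => ha (Subtype.ext h)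
    exact ⟨⟨y, hy⟩, Subtype.ext hxy⟩⟩
  letI : Field L := hLF.toField
  haveI : Finite L := Module.finite_of_finite F
  haveI : CharP L 2 := charP_of_injective_algebraMap (algebraMap F L).injective 2
  have halt : ∀ (v : ι → F) (l m : L), fq ((l : Module.End F (ι → F)) v) ((m : Module.End F (ι → F)) v) = 0 := by
    intro v l m
    obtain ⟨y, hy⟩ := (frobeniusEquiv L 2).surjective (l * m)
    rw [frobeniusEquiv_apply, frobenius_def] at hy
    have e1 : fq ((l : Module.End F (ι → F)) v) ((m : Module.End F (ι → F)) v) =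
        fq v (((l * m : L) : Module.End F (ι → F)) v) := by
      rw [adjoint hB, hself l l.2]; rfl
    rw [e1, ← hy, pow_two]
    show fq v ((y : Module.End F (ι → F)) ((y : Module.End F (ι → F)) v)) = 0
    conv_lhs => rw [show (y : Module.End F (ι → F)) ((y : Module.End F (ι → F)) v) =
      stq (y : Module.End F (ι → F)) ((y : Module.End F (ι → F)) v) by rw [hself y y.2]]
    rw [← adjoint hB, ← polar_eq, QuadraticMap.polar_self, two_smul]
    exact CharTwo.add_self_eq_zero _
  -- totally isotropic invariant subspaces grow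
  have step : ∀ k, k ≤ 3 → ∃ W : Submodule F (ι → F), finrank F W = 2 * k ∧
      (∀ a ∈ W, ∀ b ∈ W, fq a b = 0) ∧ ∀ l ∈ L, ∀ a ∈ W, l a ∈ W := by
    intro k
    induction k with
    | zero => exact fun _ => ⟨⊥, by simp, fun a ha b _ => by rw [(Submodule.mem_bot F).mp ha, mf_zero_left],
        fun l _ a ha => by rw [(Submodule.mem_bot F).mp ha, map_zero]; exact zero_mem _⟩
    | succ k ih =>
      intro hk
      obtain ⟨W, hWd, hW, hWL⟩ := ih (by omega)
      set X := Cfsg.Agent.Forms.perp (QuadraticMap.polarBilin Q) W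
      have hX := (Cfsg.Agent.Forms.isForm_quadratic Q hQ).finrank_perp W
      have hle : W ≤ X := fun a ha b hb => by
        show QuadraticMap.polar (⇑Q) b a = 0
        rw [polar_eq]; exact hW b hb a ha
      have hlt : W < X := lt_of_le_of_ne hle fun e => by
        rw [finrank_pi, Fintype.card_fin] at hX
        change finrank F X + _ = _ at hX
        rw [← e] at hX; omega
      obtain ⟨v, hvX, hvW⟩ := SetLike.exists_of_lt hlt
      let ev : L →ₗ[F] (ι → F) :=
        { toFun := fun l => (l : Module.End F (ι → F)) v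
          map_add' := fun _ _ => rfl
          map_smul' := fun _ _ => rfl }
      set U := LinearMap.range ev
      have hdisj : W ⊓ U = ⊥ := eq_bot_iff.mpr (by
        rintro _ ⟨ha, l, rfl⟩
        rw [Submodule.mem_bot]
        by_contra h0
        have hl : l ≠ 0 := fun h => h0 (by rw [h]; exact map_zero ev)
        obtain ⟨y, hy, hyl⟩ := hinv l l.2 fun h => hl (Subtype.ext h)
        apply hvW
        have := hWL y hy _ ha
        have e : y (ev l) = v := by
          show y ((l : Module.End F (ι → F)) v) = v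
          rw [← Module.End.mul_apply, hcomm y hy l l.2, hyl]; rfl
        rwa [e] at this)
      have hinj : Function.Injective ev := (injective_iff_map_eq_zero ev).mpr fun l hl => by
        by_contra h0
        obtain ⟨y, hy, hyl⟩ := hinv l l.2 fun h => h0 (Subtype.ext h)
        refine hvW ?_
        have e : y (ev l) = v := by
          show y ((l : Module.End F (ι → F)) v) = v
          rw [← Module.End.mul_apply, hcomm y hy l l.2, hyl]; rfl
        rw [← e, hl, map_zero]; exact W.zero_mem
      refine ⟨W ⊔ U, ?_, ?_, ?_⟩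
      · have h1 := Submodule.finrank_sup_add_finrank_inf_eq W U
        rw [hdisj, finrank_bot, add_zero, hWd, LinearMap.finrank_range_of_inj hinj] at h1
        rw [h1, hfin]; ring
      · intro a ha b hb
        obtain ⟨a₁, ha₁, _, ⟨l, rfl⟩, rfl⟩ := Submodule.mem_sup.mp ha
        obtain ⟨b₁, hb₁, _, ⟨m, rfl⟩, rfl⟩ := Submodule.mem_sup.mp hb
        have hx : ∀ w ∈ W, ∀ n : L, fq w (ev n) = 0 := fun w hw n => by
          show fq w ((n : Module.End F (ι → F)) v) = 0
          have := hvX _ (hWL n n.2 w hw)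
          rw [QuadraticMap.polarBilin_apply_apply, polar_eq, adjoint hB, hself n n.2] at this
          exact this
        have hy : fq (ev l) b₁ = 0 := by
          rw [← polar_eq, QuadraticMap.polar_comm, polar_eq]; exact hx b₁ hb₁ l
        rw [mf_add_left, mf_add_right, mf_add_right, hW a₁ ha₁ b₁ hb₁, hx a₁ ha₁ m, hy,
          show fq (ev l) (ev m) = 0 from halt v l m]
        ring
      · intro n hn a ha
        obtain ⟨a₁, ha₁, _, ⟨l, rfl⟩, rfl⟩ := Submodule.mem_sup.mp ha
        rw [map_add]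
        exact Submodule.add_mem_sup (hWL n hn a₁ ha₁) ⟨⟨n, hn⟩ * l, rfl⟩
  obtain ⟨W, hWd, hW, -⟩ := step 3 le_rfl
  have hX := (Cfsg.Agent.Forms.isForm_quadratic Q hQ).finrank_perp W
  have hle : W ≤ Cfsg.Agent.Forms.perp (QuadraticMap.polarBilin Q) W := fun a ha b hb => by
    show QuadraticMap.polar (⇑Q) b a = 0
    rw [polar_eq]; exact hW b hb a ha
  have := Submodule.finrank_mono hle
  rw [finrank_pi, Fintype.card_fin] at hX
  omega

/-- A quadratic field with non-trivial adjoint acts by similarities of the quadratic form. -/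
theorem similitudes (hQ : (QuadraticMap.polarBilin Q).Nondegenerate) {H : Subgroup (GL ι F)}
    (hI : H ≤ isometryGroup F ⇑Q)
    (hirr : Irr ((fun g : (Module.End F (ι → F))ˣ => (g : Module.End F (ι → F))) ''
      (gu '' ((H ⊔ scalars ι F : Subgroup _) : Set _))))
    {L : Subalgebra F (Module.End F (ι → F))} (hfin : finrank F L = 2)
    (hcomm : ∀ x ∈ L, ∀ y ∈ L, x * y = y * x) (hcl : ∀ x ∈ L, stq x ∈ L)
    (hne : ∃ x ∈ L, stq x ≠ x) (hfix : ∀ x ∈ L, stq x = x → ∃ c : F, x = algebraMap F _ c)
    (hnorm : ∀ g ∈ H ⊔ scalars ι F, Normalises L (gu g)) :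
    ∀ k ∈ L, ∃ c : F, ∀ v, Q (k v) = c * Q v := by
  classical
  have hB := formData Q hQ
  have hnrm : ∀ k ∈ L, ∃ c : F, stq k * k = algebraMap F _ c := fun k hk => by
    refine hfix _ (mul_mem (hcl k hk) hk) ?_
    rw [st_mul hB, st_st hB]
  have hscale : ∀ k ∈ L, ∀ c : F, stq k * k = algebraMap F _ c → ∀ u v,
      QuadraticMap.polar (⇑Q) (k u) (k v) = c * QuadraticMap.polar (⇑Q) u v := fun k _ c hc u v => by
    rw [polar_eq, adjoint hB, ← Module.End.mul_apply, hc, Module.algebraMap_end_apply, mf_smul_right,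
      RingEquiv.refl_apply, polar_eq]
  by_cases hq : Odd (Fintype.card F)
  · intro k hk
    obtain ⟨c, hc⟩ := hnrm k hk
    refine ⟨c, fun v => mul_left_cancel₀ (two_ne_of_odd hq) ?_⟩
    have h := hscale k hk c hc v v
    rw [QuadraticMap.polar_self, QuadraticMap.polar_self, two_smul, two_smul] at h
    linear_combination h
  have h20 := char_two_of_even hq
  obtain ⟨x, hx, hxne⟩ := hne
  obtain ⟨t, ht⟩ := hfix (x + stq x) (add_mem hx (hcl x hx)) (by rw [st_add hB, st_st hB, add_comm])
  obtain ⟨n, hn⟩ := hnrm x hx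
  have hxF : ∀ c : F, x ≠ algebraMap F _ c := fun c h => hxne (by rw [h, st_algebraMap hB]; rfl)
  let Ψ : (ι → F) → F := fun v => Q (x v) - n * Q v
  let Φ : (ι → F) → F := fun v => QuadraticMap.polar (⇑Q) v (x v) - t * Q v
  have hΨa : ∀ u v, Ψ (u + v) = Ψ u + Ψ v := fun u v => by
    simp only [Ψ, map_add, QuadraticMap.map_add (⇑Q), hscale x hx n hn u v]; ring
  have hΨs : ∀ (c : F) v, Ψ (c • v) = c ^ 2 * Ψ v := fun c v => by
    simp only [Ψ, map_smul, QuadraticMap.map_smul, smul_eq_mul]; ring
  have hΦa : ∀ u v, Φ (u + v) = Φ u + Φ v := fun u v => by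
    have e : QuadraticMap.polar (⇑Q) u (x v) + QuadraticMap.polar (⇑Q) v (x u) = t * QuadraticMap.polar (⇑Q) u v := by
      rw [QuadraticMap.polar_comm (⇑Q) v (x u), polar_eq, polar_eq, adjoint hB, ← mf_add_right, ← LinearMap.add_apply, ht,
        Module.algebraMap_end_apply, mf_smul_right, RingEquiv.refl_apply, polar_eq]
    simp only [Φ, map_add, QuadraticMap.map_add (⇑Q), QuadraticMap.polar_add_left, QuadraticMap.polar_add_right]
    linear_combination e
  have hΦs : ∀ (c : F) v, Φ (c • v) = c ^ 2 * Φ v := fun c v => by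
    simp only [Φ, map_smul, QuadraticMap.map_smul, QuadraticMap.polar_smul_left, QuadraticMap.polar_smul_right,
      smul_eq_mul]; ring
  have hspan : ∀ k ∈ L, ∃ a b : F, k = a • 1 + b • x := by
    intro k hk
    let f : F × F →ₗ[F] Module.End F (ι → F) :=
      { toFun := fun p => p.1 • 1 + p.2 • x
        map_add' := fun p q => by simp only [Prod.fst_add, Prod.snd_add]; module
        map_smul' := fun c p => by simp only [Prod.smul_fst, Prod.smul_snd, smul_eq_mul, RingHom.id_apply]; module }
    have hinj : Function.Injective f := (injective_iff_map_eq_zero f).mpr fun p hp => by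
      obtain ⟨a, b⟩ := p
      have hab' : a • (1 : Module.End F (ι → F)) + b • x = 0 := hp
      by_cases hb : b = 0
      · subst hb
        rw [zero_smul, add_zero] at hab'
        rw [(smul_eq_zero.mp hab').resolve_right one_ne_zero]
        rfl
      · exfalso
        refine hxF (-(a / b)) ?_
        have h' : b • x = (-a) • (1 : Module.End F (ι → F)) := by
          linear_combination (norm := module) hab'
        have h'' := congrArg (b⁻¹ • ·) h'
        simp only [smul_smul, inv_mul_cancel₀ hb, one_smul] at h''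
        rw [h'', Algebra.algebraMap_eq_smul_one]
        congr 1; field_simp
    have hrange : LinearMap.range f = Subalgebra.toSubmodule L := by
      refine Submodule.eq_of_le_of_finrank_eq ?_ ?_
      · rintro _ ⟨p, rfl⟩
        exact add_mem (L.smul_mem L.one_mem _) (L.smul_mem hx _)
      · rw [LinearMap.finrank_range_of_inj hinj, Module.finrank_prod, finrank_self, Subalgebra.finrank_toSubmodule, hfin]
    obtain ⟨p, hp⟩ : k ∈ LinearMap.range f := by rw [hrange]; exact hk
    exact ⟨p.1, p.2, hp.symm⟩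
  let U : Submodule F (ι → F) := sqKer Ψ hΨa hΨs ⊓ sqKer Φ hΦa hΦs
  have hU : ∀ v ∈ U, ∀ k ∈ L, ∀ c : F, stq k * k = algebraMap F _ c → Q (k v) = c * Q v := by
    intro v hv k hk c hc
    obtain ⟨a, b, rfl⟩ := hspan k hk
    have h1 : Q (x v) = n * Q v := sub_eq_zero.mp hv.1
    have h2 : QuadraticMap.polar (⇑Q) v (x v) = t * Q v := sub_eq_zero.mp hv.2
    have hc' : c = a * a + a * b * t + b * b * n := by
      have e : stq (a • 1 + b • x) * (a • 1 + b • x) =
          algebraMap F (Module.End F (ι → F)) (a * a + a * b * t + b * b * n) := by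
        rw [st_add hB, st_smul hB, st_smul hB, st_one hB, RingEquiv.refl_apply, RingEquiv.refl_apply]
        have ht' : stq x = t • (1 : Module.End F (ι → F)) - x := by
          rw [← Algebra.algebraMap_eq_smul_one, ← ht]; abel
        have hn' : stq x * x = n • (1 : Module.End F (ι → F)) := by rw [hn, Algebra.algebraMap_eq_smul_one]
        rw [Algebra.algebraMap_eq_smul_one]
        simp only [add_mul, mul_add, Algebra.smul_mul_assoc, Algebra.mul_smul_comm, one_mul, mul_one, hn', smul_smul]
        rw [ht']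
        module
      rw [hc] at e
      exact (algebraMap F (Module.End F (ι → F))).injective e
    rw [LinearMap.add_apply, LinearMap.smul_apply, LinearMap.smul_apply, Module.End.one_apply,
      QuadraticMap.map_add (⇑Q), QuadraticMap.map_smul, QuadraticMap.map_smul, QuadraticMap.polar_smul_left,
      QuadraticMap.polar_smul_right, h1, h2, hc']
    simp only [smul_eq_mul]; ring
  have hU0 : U ≠ ⊥ := fun e => by
    have e1 := finrank_sqKer h20 Ψ hΨa hΨs ⊤
    have e2 := finrank_sqKer h20 Φ hΦa hΦs (sqKer Ψ hΨa hΨs)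
    rw [top_inf_eq, finrank_top, finrank_pi, Fintype.card_fin] at e1
    change finrank F (sqKer Ψ hΨa hΨs) ≤ finrank F U + 1 at e2
    rw [e, finrank_bot] at e2
    omega
  have hmemU : ∀ v, (∀ k ∈ L, ∀ c : F, stq k * k = algebraMap F _ c → Q (k v) = c * Q v) → v ∈ U := by
    intro v hv
    have h1 : Q (x v) = n * Q v := hv x hx n hn
    refine ⟨sub_eq_zero.mpr h1, sub_eq_zero.mpr ?_⟩
    have hc : stq (1 + x) * (1 + x) = algebraMap F _ (1 + t + n) := by
      rw [st_add hB, st_one hB, map_add, map_add, map_one, ← ht, ← hn]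
      noncomm_ring
    have h3 := hv (1 + x) (add_mem L.one_mem hx) _ hc
    rw [LinearMap.add_apply, Module.End.one_apply, QuadraticMap.map_add (⇑Q), h1] at h3
    linear_combination h3
  have hinv : ∀ g ∈ H, ∀ v ∈ U, (g : Matrix ι ι F) *ᵥ v ∈ U := by
    intro g hg v hv
    refine hmemU _ fun k hk c hc => ?_
    have hgK : g ∈ H ⊔ scalars ι F := Subgroup.mem_sup_left hg
    set k' := conjHom (gu g⁻¹) k
    have hk' : k' ∈ L := (hnorm g⁻¹ (inv_mem hgK) k).1 hk
    have hc' : stq k' * k' = algebraMap F _ c := by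
      rw [st_conj hB (sim_sup Q hI g⁻¹ (inv_mem hgK)), ← map_mul, hc, AlgHom.commutes]
    have e : k ((g : Matrix ι ι F) *ᵥ v) = (g : Matrix ι ι F) *ᵥ (k' v) := by
      simp only [k', conjHom_apply, map_inv, inv_inv, Module.End.mul_apply, ← gu_apply]
      rw [← Module.End.mul_apply (gu g : Module.End F (ι → F)), Units.mul_inv, Module.End.one_apply]
    rw [e, quad_of_mem Q (hI hg), quad_of_mem Q (hI hg), hU v hv k' hk' c hc']
  have hUtop : U = ⊤ := by
    refine (hirr U ?_).resolve_left hU0
    rintro _ ⟨_, ⟨g, hg, rfl⟩, rfl⟩ w hw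
    rw [SetLike.mem_coe, ← SetLike.mem_coe, Subgroup.mul_normal] at hg
    obtain ⟨a, ha, z, hz, rfl⟩ := hg
    obtain ⟨c, hc⟩ := (mem_scalars_iff z).mp hz
    show (gu (a * z) : Module.End F (ι → F)) w ∈ U
    rw [gu_apply, Units.val_mul, hc, Matrix.mul_smul, mul_one, Matrix.smul_mulVec]
    exact U.smul_mem _ (hinv a ha w hw)
  intro k hk
  obtain ⟨c, hc⟩ := hnrm k hk
  exact ⟨c, fun v => hU v (hUtop ▸ trivial) k hk c hc⟩

/-- Abelian normal subgroups modulo scalars do not span. -/
theorem abelian_false (hQ : (QuadraticMap.polarBilin Q).Nondegenerate) {H M : Subgroup (GL ι F)}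
    (hI : H ≤ isometryGroup F ⇑Q) (hZM : scalars ι F ≤ M) (hMK : M ≤ H ⊔ scalars ι F)
    (hM : AschRel.Full M) (hab : ⁅M, M⁆ ≤ scalars ι F) : False := by
  classical
  have hB := formData Q hQ
  set Z := scalars ι F
  have hKH : ⁅H ⊔ Z, H ⊔ Z⁆ ≤ H := (commutator_sup_scalars H H).trans (Subgroup.commutator_le_self H)
  obtain ⟨u₀, v₀, huv⟩ : ∃ u v, fq u v ≠ 0 := by
    obtain ⟨⟨x, hx⟩, -⟩ := nondeg_matForm (σ := RingEquiv.refl F) hB.unit (Pi.single 0 1) (by simp)
    exact ⟨x, _, hx⟩
  have htw : ∀ a ∈ M, ∀ b ∈ M, ⁅a, b⁆ ∈ Z := fun a ha b hb => hab (Subgroup.commutator_mem_commutator ha hb)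
  have hsq : ∀ a ∈ M, ∀ b ∈ M, ∃ c : F, c * c = 1 ∧
      (a : Matrix ι ι F) * (b : Matrix ι ι F) = c • ((b : Matrix ι ι F) * (a : Matrix ι ι F)) := by
    intro a ha b hb
    obtain ⟨c, hc⟩ := (mem_scalars_iff _).mp (htw a ha b hb)
    refine ⟨c, ?_, ?_⟩
    · have := iso_of_mem Q (hI (hKH (Subgroup.commutator_mem_commutator (hMK ha) (hMK hb)))) u₀ v₀
      rw [hc, Matrix.smul_mulVec, Matrix.smul_mulVec, Matrix.one_mulVec, Matrix.one_mulVec, mf_smul_left,
        mf_smul_right, RingEquiv.refl_apply, ← mul_assoc] at this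
      exact mul_right_cancel₀ huv (by rw [one_mul]; exact this)
    · rw [← Units.val_mul, ← Units.val_mul, show a * b = ⁅a, b⁆ * (b * a) by rw [commutatorElement_def]; group,
        Units.val_mul, hc, Matrix.smul_mul, one_mul]
  have hexp : ∀ x ∈ M, x * x ∈ Z := by
    intro x hx
    obtain ⟨c, hc⟩ := hM.comm_scalar (M := ((x * x : GL ι F) : Matrix ι ι F)) fun y hy => by
      obtain ⟨c, hcc, e⟩ := hsq x hx y hy
      rw [Units.val_mul, mul_assoc, e, Matrix.mul_smul, ← mul_assoc, e, Matrix.smul_mul, smul_smul, hcc, one_smul,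
        mul_assoc]
    exact (mem_scalars_iff _).mpr ⟨Units.mk0 c fun h0 => (x * x).ne_zero (by rw [hc, h0, zero_smul]), hc⟩
  obtain ⟨w, -, hcard, -⟩ := full_basis hM htw
  haveI : Fact (Nat.Prime 2) := ⟨Nat.prime_two⟩
  have hp : IsPGroup 2 (M ⧸ Subgroup.center M) := fun q => by
    induction q using QuotientGroup.induction_on with
    | H x =>
      refine ⟨1, ?_⟩
      rw [pow_one, ← QuotientGroup.mk_pow, QuotientGroup.eq_one_iff, center_iff hM, pow_two]
      exact hexp x x.2
  obtain ⟨j, hj⟩ := IsPGroup.iff_card.mp hp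
  rw [hcard, Fintype.card_fin] at hj
  have h5 : 5 ∣ 2 ^ j := hj ▸ (by norm_num : 5 ∣ 10 * 10)
  exact absurd (Nat.Prime.dvd_of_dvd_pow (by norm_num : Nat.Prime 5) h5) (by norm_num)

end Cfsg.Agent.GeomClasses.EvenTen
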