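import Cfsg.Agent.GeomClasses.EvenTen.Basic
import Cfsg.Agent.GeomClasses.Aschbacher.Rel.FieldAdjoint
import Mathlib.FieldTheory.Galois.Basic
import Mathlib.FieldTheory.Finite.Basic
import Mathlib.FieldTheory.Perfect

/-! # A self-adjoint field of degree five in a ten-dimensional orthogonal space of minus type -/

set_option autoImplicit false
set_option maxHeartbeats 800000
set_option synthInstance.maxHeartbeats 100000

namespace Cfsg.Agent.GeomClasses.EvenTen

open Matrix Cfsg.Geo Module
open Cfsg.Agent.GeomClasses.AschRel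
open Cfsg.Agent.GeomClasses.Asch (Irr Normalises)

section Generic

variable {F : Type*} [Field F] [Fintype F]

/-- A field of degree ten contains the fixed field of the square of the field automorphism. -/
theorem exists_sub_two {A : Type*} [Ring A] [Algebra F A] [Finite A] {S : Subalgebra F A}
    (hcomm : ∀ x ∈ S, ∀ y ∈ S, x * y = y * x) (hinv : ∀ x ∈ S, x ≠ 0 → ∃ y ∈ S, x * y = 1)
    (hfin : finrank F S = 10) :
    ∃ E : Subalgebra F A, finrank F E = 2 ∧
      ∀ x, x ∈ E ↔ x ∈ S ∧ x ^ Fintype.card F ^ 2 = x := by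
  classical
  haveI : Nontrivial S := Module.nontrivial_of_finrank_pos (R := F) (by omega)
  letI : CommRing S := { (inferInstance : Ring S) with mul_comm := fun a b => Subtype.ext (hcomm a a.2 b b.2) }
  have hF : IsField S := ⟨exists_pair_ne S, mul_comm, fun {a} ha => by
    obtain ⟨y, hy, hxy⟩ := hinv a a.2 fun h => ha (Subtype.ext h)
    exact ⟨⟨y, hy⟩, Subtype.ext hxy⟩⟩
  letI : Field S := hF.toField
  let fr : S ≃ₐ[F] S := FiniteField.frobeniusAlgEquivOfAlgebraic F S
  let M : IntermediateField F S := IntermediateField.fixedField (Subgroup.zpowers (fr ^ 2))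
  have hM : finrank F M = 2 := by
    have ho : orderOf fr = 10 := by
      show orderOf (FiniteField.frobeniusAlgEquivOfAlgebraic F S) = 10
      rw [FiniteField.orderOf_frobeniusAlgEquivOfAlgebraic]; exact hfin
    have h1 := IntermediateField.finrank_fixedField_eq_card (Subgroup.zpowers (fr ^ 2))
    rw [Nat.card_zpowers, orderOf_pow, ho] at h1
    have h2 := Module.finrank_mul_finrank F M S
    rw [show finrank M S = 5 by simpa [M] using h1] at h2
    have h3 : finrank F S = 10 := hfin
    omega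
  have hfr : ∀ z : S, fr z = z ^ Fintype.card F := fun z => rfl
  have hmem : ∀ z : S, z ∈ M ↔ z ^ Fintype.card F ^ 2 = z := by
    intro z
    have e : (fr ^ 2) z = z ^ Fintype.card F ^ 2 := by
      rw [pow_two, AlgEquiv.mul_apply, hfr, hfr, ← pow_mul, ← pow_two]
    rw [← e]
    refine IntermediateField.mem_fixedField_iff _ _ |>.trans ⟨fun h => h _ (Subgroup.mem_zpowers _), ?_⟩
    intro h f hf
    have hle : Subgroup.zpowers (fr ^ 2) ≤ MulAction.stabilizer (S ≃ₐ[F] S) z :=
      Subgroup.zpowers_le.2 h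
    exact hle hf
  refine ⟨M.toSubalgebra.map S.val, ?_, fun x => ?_⟩
  · exact ((Subalgebra.equivMapOfInjective M.toSubalgebra S.val Subtype.val_injective).toLinearEquiv.finrank_eq.symm).trans hM
  · constructor
    · rintro ⟨z, hz, rfl⟩
      exact ⟨z.2, by simpa using congrArg Subtype.val ((hmem z).1 hz)⟩
    · rintro ⟨hx, hp⟩
      exact ⟨⟨x, hx⟩, (hmem _).2 (Subtype.ext (by simpa using hp)), rfl⟩

variable {K : Type*} [Field K] [Finite K] [Algebra F K]

/-- A functional vanishing on all squares vanishes. -/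
theorem eq_zero_of_sq (f : K →ₗ[F] F) (hf : ∀ l, f (l * l) = 0) (m : K) : f m = 0 := by
  by_cases h2 : (2 : F) = 0
  · haveI : CharP F 2 := CharTwo.of_one_ne_zero_of_two_eq_zero one_ne_zero h2
    haveI : CharP K 2 := charP_of_injective_algebraMap (algebraMap F K).injective 2
    obtain ⟨l, hl⟩ := (frobeniusEquiv K 2).surjective m
    rw [← hl, frobeniusEquiv_apply, frobenius_def, pow_two]
    exact hf l
  · have e : ((2 * 2 : F)) • m = (m + 1) * (m + 1) - (m - 1) * (m - 1) := by
      rw [Algebra.smul_def, map_mul, map_ofNat]; ring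
    have := congrArg f e
    rw [map_smul, map_sub, hf, hf, sub_zero, smul_eq_mul] at this
    exact (mul_eq_zero.1 this).resolve_left (mul_ne_zero h2 h2)

variable {V : Type*} [AddCommGroup V] [Module F V] [Module K V] [IsScalarTower F K V]

/-- A form for which the scalars of an extension are self-adjoint comes from a form over the extension. -/
theorem exists_descent (Q : QuadraticForm F V)
    (hsa : ∀ (m : K) (u v : V), QuadraticMap.polar Q (m • u) v = QuadraticMap.polar Q u (m • v)) :
    ∃ (tr : K →ₗ[F] F) (b : V →ₗ[K] V →ₗ[K] K) (φ : V → K), (∀ x, (∀ m, tr (m * x) = 0) → x = 0) ∧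
      (∀ m v, Q (m • v) = tr (m * m * φ v)) ∧
      (∀ m u v, QuadraticMap.polar Q (m • u) v = tr (m * b u v)) ∧
      (∀ u v, φ (u + v) = φ u + φ v + b u v) ∧ (∀ r v, φ (r • v) = r * r * φ v) ∧ ∀ u v, b u v = b v u := by
  classical
  obtain ⟨tr, htr⟩ : ∃ tr : Module.Dual F K, tr 1 ≠ 0 := Module.Projective.exists_dual_ne_zero F (one_ne_zero (α := K))
  let Φ₀ : K →ₗ[F] Module.Dual F K := (LinearMap.mul F K).flip.compr₂ tr
  have hΦ₀ : ∀ x m, Φ₀ x m = tr (m * x) := fun x m => rfl
  have hinj : Function.Injective Φ₀ := (injective_iff_map_eq_zero Φ₀).2 fun x hx => by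
    by_contra h0
    have := hΦ₀ x x⁻¹
    rw [hx, inv_mul_cancel₀ h0] at this
    exact htr this.symm
  let Φ := LinearMap.linearEquivOfInjective Φ₀ hinj Subspace.dual_finrank_eq.symm
  have hΦ : ∀ (f : Module.Dual F K) m, tr (m * Φ.symm f) = f m := fun f m => by
    rw [← hΦ₀]
    exact congrArg (fun g : Module.Dual F K => g m) (Φ.apply_symm_apply f)
  have hext : ∀ x y : K, (∀ m, tr (m * x) = tr (m * y)) → x = y := fun x y h =>
    hinj (LinearMap.ext fun m => by rw [hΦ₀, hΦ₀]; exact h m)
  have hD : ∀ v, ∃ D : Module.Dual F K, ∀ l : K, D (l * l) = Q (l • v) := by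
    intro v
    by_cases h2 : (2 : F) = 0
    · haveI : CharP F 2 := CharTwo.of_one_ne_zero_of_two_eq_zero one_ne_zero h2
      haveI : CharP K 2 := charP_of_injective_algebraMap (algebraMap F K).injective 2
      let s : K → K := (frobeniusEquiv K 2).symm
      have hs : ∀ m, s m * s m = m := fun m => by
        rw [← pow_two]; exact (frobeniusEquiv K 2).apply_symm_apply m
      have huniq : ∀ a m, a * a = m → a = s m := fun a m e => by
        rw [← e, ← pow_two]
        exact ((frobeniusEquiv K 2).symm_apply_apply a).symm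
      refine ⟨{ toFun := fun m => Q (s m • v), map_add' := ?_, map_smul' := ?_ }, fun l => ?_⟩
      · intro x y
        show Q (s (x + y) • v) = Q (s x • v) + Q (s y • v)
        have e : s (x + y) = s x + s y := map_add _ _ _
        rw [e, add_smul, QuadraticMap.map_add Q]
        have hp : QuadraticMap.polar Q (s x • v) (s y • v) = 0 := by
          rw [hsa, smul_smul, mul_comm, ← hs (s y * s x), ← smul_smul, ← hsa,
            QuadraticMap.polar_self, ← Nat.cast_smul_eq_nsmul F, Nat.cast_ofNat, h2, zero_smul]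
        rw [hp, add_zero]
      · intro c x
        show Q (s (c • x) • v) = c * Q (s x • v)
        obtain ⟨d, hd⟩ := (frobeniusEquiv F 2).surjective c
        rw [frobeniusEquiv_apply, frobenius_def, pow_two] at hd
        rw [← huniq (d • s x) _ (by rw [smul_mul_smul_comm, hd, hs]), smul_assoc, QuadraticMap.map_smul, hd,
          smul_eq_mul]
      · show Q (s (l * l) • v) = Q (l • v)
        rw [← huniq l _ rfl]
    · let D₀ : Module.Dual F K :=
        { toFun := fun m => QuadraticMap.polar Q (m • v) v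
          map_add' := fun x y => by rw [add_smul, QuadraticMap.polar_add_left]
          map_smul' := fun c x => by rw [smul_assoc, QuadraticMap.polar_smul_left]; rfl }
      refine ⟨(2⁻¹ : F) • D₀, fun l => ?_⟩
      show (2⁻¹ : F) * QuadraticMap.polar Q ((l * l) • v) v = Q (l • v)
      rw [← smul_smul, hsa, QuadraticMap.polar_self, ← Nat.cast_smul_eq_nsmul F, Nat.cast_ofNat, smul_eq_mul,
        ← mul_assoc, inv_mul_cancel₀ h2, one_mul]
  choose D hD using hD
  let φ : V → K := fun v => Φ.symm (D v)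
  have hφ : ∀ m v, tr (m * φ v) = D v m := fun m v => hΦ _ _
  let pf : V → V → Module.Dual F K := fun u v =>
    { toFun := fun m => QuadraticMap.polar Q (m • u) v
      map_add' := fun x y => by rw [add_smul, QuadraticMap.polar_add_left]
      map_smul' := fun c x => by rw [smul_assoc, QuadraticMap.polar_smul_left]; rfl }
  have hpf : ∀ u v m, tr (m * Φ.symm (pf u v)) = QuadraticMap.polar Q (m • u) v := fun u v m => hΦ _ _
  let b : V →ₗ[K] V →ₗ[K] K := LinearMap.mk₂ K (fun u v => Φ.symm (pf u v))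
    (fun u u' v => hext _ _ fun m => by
      rw [mul_add, map_add, hpf, hpf, hpf, smul_add, QuadraticMap.polar_add_left])
    (fun r u v => hext _ _ fun m => by rw [smul_eq_mul, ← mul_assoc, hpf, hpf, smul_smul])
    (fun u v v' => hext _ _ fun m => by
      rw [mul_add, map_add, hpf, hpf, hpf, QuadraticMap.polar_add_right])
    (fun r u v => hext _ _ fun m => by
      rw [smul_eq_mul, ← mul_assoc, hpf, hpf, ← hsa, smul_smul, mul_comm])
  have hb : ∀ m u v, QuadraticMap.polar Q (m • u) v = tr (m * b u v) := fun m u v => (hpf u v m).symm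
  have hsq : ∀ f g : Module.Dual F K, (∀ l, f (l * l) = g (l * l)) → ∀ m, f m = g m := fun f g h m =>
    sub_eq_zero.1 (eq_zero_of_sq (f - g) (fun l => by rw [LinearMap.sub_apply, h, sub_self]) m)
  refine ⟨tr, b, φ, fun x hx => hext x 0 fun m => by rw [mul_zero, map_zero, hx], fun m v => ?_, hb, fun u v => ?_,
    fun r v => ?_, fun u v => hext _ _ fun m => ?_⟩
  · rw [hφ, hD]
  · refine hext _ _ fun m => ?_
    rw [mul_add, mul_add, map_add, map_add, ← hb, hφ, hφ, hφ]
    refine hsq (D (u + v)) (D u + D v + pf u v) (fun l => ?_) m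
    show D (u + v) (l * l) = D u (l * l) + D v (l * l) + QuadraticMap.polar Q ((l * l) • u) v
    rw [hD, hD, hD, ← smul_smul, hsa, smul_add, QuadraticMap.map_add Q]
  · refine hext _ _ fun m => ?_
    rw [← mul_assoc, hφ, hφ]
    refine hsq (D (r • v)) ((D v).comp (LinearMap.mulRight F (r * r))) (fun l => ?_) m
    show D (r • v) (l * l) = D v (l * l * (r * r))
    rw [hD, mul_mul_mul_comm, hD, smul_smul]
  · rw [← hb, ← hb, hsa, QuadraticMap.polar_comm]

/-- The rotation algebra of an anisotropic binary form. -/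
theorem exists_rotation (h2V : finrank K V = 2) (b : V →ₗ[K] V →ₗ[K] K) (φ : V → K)
    (hadd : ∀ u v, φ (u + v) = φ u + φ v + b u v) (hsmul : ∀ r v, φ (r • v) = r * r * φ v)
    (hsymm : ∀ u v, b u v = b v u) (haniso : ∀ v, φ v = 0 → v = 0) (hnd : ∀ v, (∀ w, b v w = 0) → v = 0) :
    ∃ (Θ : Module.End K V) (n : K), Θ * Θ = Θ - n • 1 ∧ (∀ s : K, s * s - s + n ≠ 0) ∧
      (∀ α μ : K, α • (1 : Module.End K V) + μ • Θ = 0 → α = 0 ∧ μ = 0) ∧
      (∀ u v, b (Θ u) v = b u (v - Θ v)) ∧
      ∀ X : Module.End K V, (∃ ν, ∀ v, b (X v) v = ν * φ v) ↔ ∃ α μ : K, X = α • 1 + μ • Θ := by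
  classical
  haveI : FiniteDimensional K V := FiniteDimensional.of_finrank_pos (by omega)
  haveI : Nontrivial V := Module.nontrivial_of_finrank_pos (R := K) (by omega)
  obtain ⟨e, he⟩ := exists_ne (0 : V)
  have hself : ∀ v, b v v = 2 * φ v := fun v => by
    have h := hadd v v
    rw [← two_smul K v, hsmul] at h
    linear_combination -h
  obtain ⟨f, hf1, hli⟩ : ∃ f, b e f = 1 ∧ LinearIndependent K ![e, f] := by
    obtain ⟨w, hw⟩ : ∃ w, b e w ≠ 0 := by
      by_contra h
      push Not at h
      exact he (hnd e h)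
    set w' := (b e w)⁻¹ • w with hw'
    have hw1 : b e w' = 1 := by rw [hw', map_smul, smul_eq_mul, inv_mul_cancel₀ hw]
    by_cases hl : LinearIndependent K ![e, w']
    · exact ⟨w', hw1, hl⟩
    · obtain ⟨x, hx⟩ := exists_linearIndependent_pair_of_one_lt_finrank (R := K) (M := V) (by omega) he
      refine ⟨x + (1 - b e x) • w', by simp [hw1], ?_⟩
      rw [LinearIndependent.pair_iff' he] at hl hx ⊢
      push Not at hl
      obtain ⟨t, ht⟩ := hl
      intro s hs
      refine hx (s - (1 - b e x) * t) ?_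
      rw [sub_smul, hs, mul_smul, ht, add_sub_cancel_right]
  let B := basisOfLinearIndependentOfCardEqFinrank hli (by simp [h2V])
  have hBe : ∀ i, B i = ![e, f] i := fun i => by simp [B]
  set a := φ e
  set c := φ f
  have hee : b e e = 2 * a := hself e
  have hff : b f f = 2 * c := hself f
  have hfe : b f e = 1 := by rw [hsymm, hf1]
  have hdec : ∀ v, ∃ x y : K, v = x • e + y • f := fun v => ⟨B.repr v 0, B.repr v 1, by
    conv_lhs => rw [← B.sum_repr v, Fin.sum_univ_two, hBe, hBe]
    simp⟩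
  have hpair := LinearIndependent.pair_iff.1 hli
  let Θ : Module.End K V := B.constr K ![a • f, -(c • e) + f]
  have hΘe : Θ e = a • f := by
    have := B.constr_basis K ![a • f, -(c • e) + f] 0
    rwa [hBe] at this
  have hΘf : Θ f = -(c • e) + f := by
    have := B.constr_basis K ![a • f, -(c • e) + f] 1
    rwa [hBe] at this
  have hext : ∀ X Y : Module.End K V, X e = Y e → X f = Y f → X = Y := fun X Y h0 h1 => B.ext fun i => by
    rw [hBe]; fin_cases i <;> assumption
  have hφv : ∀ x y, φ (x • e + y • f) = a * x * x + x * y + c * y * y := fun x y => by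
    simp only [hadd, hsmul, map_smul, LinearMap.smul_apply, hf1, smul_eq_mul]; ring
  have ha : a ≠ 0 := fun h => he (haniso e h)
  have hdisc : 1 - 4 * a * c ≠ 0 := by
    intro h
    have hu : e - (2 * a) • f = 0 := by
      refine hnd _ fun w => ?_
      obtain ⟨x, y, rfl⟩ := hdec w
      simp only [map_sub, map_smul, map_add, LinearMap.sub_apply, LinearMap.smul_apply, hee, hff, hfe, hf1,
        smul_eq_mul]
      linear_combination y * h
    exact one_ne_zero (hpair 1 (-(2 * a)) (by rw [one_smul, neg_smul, ← sub_eq_add_neg, hu])).1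
  refine ⟨Θ, a * c, hext _ _ ?_ ?_, fun s hs => ?_, fun α μ h => ?_, fun u v => ?_, fun X => ⟨?_, ?_⟩⟩
  · simp only [Module.End.mul_apply, LinearMap.sub_apply, LinearMap.smul_apply, Module.End.one_apply, hΘe,
      map_smul, hΘf]
    module
  · simp only [Module.End.mul_apply, LinearMap.sub_apply, LinearMap.smul_apply, Module.End.one_apply, hΘe,
      map_smul, map_add, map_neg, hΘf]
    module
  · have h0 := haniso ((-s) • e + a • f) (by rw [hφv]; linear_combination a * hs)
    exact ha (hpair _ _ h0).2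
  · have h0 := congrArg (fun X : Module.End K V => X e) h
    simp only [LinearMap.add_apply, LinearMap.smul_apply, Module.End.one_apply, hΘe, LinearMap.zero_apply,
      smul_smul] at h0
    obtain ⟨h1, h2⟩ := hpair _ _ h0
    exact ⟨h1, (mul_eq_zero.1 h2).resolve_right ha⟩
  · obtain ⟨x, y, rfl⟩ := hdec u
    obtain ⟨x', y', rfl⟩ := hdec v
    simp only [map_add, map_sub, map_neg, map_smul, LinearMap.add_apply, LinearMap.sub_apply, LinearMap.neg_apply,
      LinearMap.smul_apply, hΘe, hΘf, hee, hff, hfe, hf1, smul_eq_mul]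
    ring
  · rintro ⟨ν, hν⟩
    obtain ⟨α, β, hXe⟩ := hdec (X e)
    obtain ⟨γ, δ, hXf⟩ := hdec (X f)
    have h1 := hν e
    have h2 := hν f
    have h3 := hν (e + f)
    rw [hadd, hf1] at h3
    rw [hXe] at h1
    rw [hXf] at h2
    rw [map_add X, hXe, hXf] at h3
    simp only [map_add, map_smul, LinearMap.add_apply, LinearMap.smul_apply, hee, hff, hfe, hf1, smul_eq_mul]
      at h1 h2 h3
    have hδ : δ = ν - α := by
      refine mul_left_cancel₀ hdisc ?_
      linear_combination (-2 * c - 1) * h1 + (-2 * a - 1) * h2 + h3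
    refine ⟨α, ν - 2 * α, hext _ _ ?_ ?_⟩
    · rw [hXe, LinearMap.add_apply, LinearMap.smul_apply, LinearMap.smul_apply, Module.End.one_apply, hΘe,
        smul_smul, show β = (ν - 2 * α) * a by linear_combination h1]
    · rw [hXf, LinearMap.add_apply, LinearMap.smul_apply, LinearMap.smul_apply, Module.End.one_apply, hΘf,
        show γ = -((ν - 2 * α) * c) by linear_combination h2 - 2 * c * hδ, hδ]
      module
  · rintro ⟨α, μ, rfl⟩
    refine ⟨2 * α + μ, fun v => ?_⟩
    obtain ⟨x, y, rfl⟩ := hdec v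
    simp only [hφv, map_add, map_neg, map_smul, LinearMap.add_apply, LinearMap.neg_apply, LinearMap.smul_apply,
      Module.End.one_apply, hΘe, hΘf, hee, hff, hfe, hf1, smul_eq_mul]
    ring

end Generic

variable {F : Type*} [Field F] [Fintype F] {Q : QuadraticForm F (Fin 10 → F)}

local notation "fq" => matForm (RingEquiv.refl F) (qgram Q)

/-- The construction for an abstract field of scalars. -/
theorem exists_quadratic_core {K : Type*} [Field K] [Finite K] [Algebra F K] [Module K (Fin 10 → F)]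
    [IsScalarTower F K (Fin 10 → F)] (hfin : finrank F K = 5)
    (hQ : (QuadraticMap.polarBilin Q).Nondegenerate)
    (hno : ∀ v : Fin 10 → F, (∀ m : K, Q (m • v) = 0) → v = 0) {H : Subgroup (GL (Fin 10) F)} (hI : H ≤ isometryGroup F ⇑Q)
    (hsa : ∀ (m : K) (u v : Fin 10 → F), QuadraticMap.polar Q (m • u) v = QuadraticMap.polar Q u (m • v))
    (hnorm : ∀ g ∈ H ⊔ scalars (Fin 10) F, ∀ l : K, ∃ m : K, ∀ v : Fin 10 → F,
      (gu g : Module.End F (Fin 10 → F)) (l • v) = m • (gu g : Module.End F (Fin 10 → F)) v) :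
    ∃ E : Subalgebra F (Module.End F (Fin 10 → F)), (∀ x ∈ E, ∀ y ∈ E, x * y = y * x) ∧
      (∀ x ∈ E, x ≠ 0 → ∃ y ∈ E, x * y = 1) ∧ finrank F E = 2 ∧
      (∀ x ∈ E, st (RingEquiv.refl F) (qgram Q) x ∈ E) ∧
      (∃ x ∈ E, st (RingEquiv.refl F) (qgram Q) x ≠ x) ∧
      ∀ g ∈ H ⊔ scalars (Fin 10) F, Normalises E (gu g) := by
  classical
  have hform := formData Q hQ
  haveI : Finite (Fin 10 → F) := Pi.finite
  haveI : Finite (Module.End F (Fin 10 → F)) := Finite.of_injective _ DFunLike.coe_injective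
  obtain ⟨tr, b, φ, htr, hQφ, hpb, hadd, hsmul, hsymm⟩ := exists_descent (K := K) Q hsa
  have h2V : finrank K (Fin 10 → F) = 2 := by
    have h := Module.finrank_mul_finrank F K (Fin 10 → F)
    rw [Module.finrank_fin_fun] at h
    rw [hfin] at h
    omega
  have haniso : ∀ v, φ v = 0 → v = 0 := by
    intro v hv
    exact hno v fun m => by rw [hQφ, hv, mul_zero, map_zero]
  have hnd : ∀ v, (∀ w, b v w = 0) → v = 0 := fun v hv => hQ.1 v fun w => by
    rw [QuadraticMap.polarBilin_apply_apply]
    have := hpb 1 v w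
    rwa [one_smul, hv, mul_zero, map_zero] at this
  obtain ⟨Θ, n, hΘ, hroot, hind, hΘb, hchar⟩ := exists_rotation h2V b φ hadd hsmul hsymm haniso hnd
  have hm : ∀ α μ β ν : K, (α • (1 : Module.End K (Fin 10 → F)) + μ • Θ) * (β • 1 + ν • Θ) =
      (α * β - μ * ν * n) • 1 + (α * ν + μ * β + μ * ν) • Θ := by
    intro α μ β ν
    simp only [add_mul, mul_add, smul_mul_assoc, mul_smul_comm, one_mul, mul_one, smul_smul, hΘ, smul_sub]
    module
  let S : Subalgebra F (Module.End K (Fin 10 → F)) :=
    { carrier := {X | ∃ α μ : K, X = α • 1 + μ • Θ}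
      one_mem' := ⟨1, 0, by rw [one_smul, zero_smul, add_zero]⟩
      zero_mem' := ⟨0, 0, by rw [zero_smul, zero_smul, add_zero]⟩
      add_mem' := by
        rintro _ _ ⟨α, μ, rfl⟩ ⟨β, ν, rfl⟩
        exact ⟨α + β, μ + ν, by module⟩
      mul_mem' := by
        rintro _ _ ⟨α, μ, rfl⟩ ⟨β, ν, rfl⟩
        exact ⟨_, _, hm α μ β ν⟩
      algebraMap_mem' := fun x => ⟨algebraMap F K x, 0, by
        rw [zero_smul, add_zero, algebraMap_smul, Algebra.algebraMap_eq_smul_one]⟩ }
  have hScomm : ∀ X ∈ S, ∀ Y ∈ S, X * Y = Y * X := by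
    rintro _ ⟨α, μ, rfl⟩ _ ⟨β, ν, rfl⟩
    rw [hm, hm]
    module
  have hSinv : ∀ X ∈ S, X ≠ 0 → ∃ Y ∈ S, X * Y = 1 := by
    rintro _ ⟨α, μ, rfl⟩ hne
    have hN : α * α + α * μ + n * μ * μ ≠ 0 := by
      intro h
      by_cases hμ : μ = 0
      · subst hμ
        have hα : α = 0 := mul_self_eq_zero.1 (by linear_combination h)
        exact hne (by rw [hα, zero_smul, zero_smul, add_zero])
      · refine hroot (-(α / μ)) ?_
        field_simp
        linear_combination h
    refine ⟨((α + μ) / (α * α + α * μ + n * μ * μ)) • 1 + (-μ / (α * α + α * μ + n * μ * μ)) • Θ, ⟨_, _, rfl⟩, ?_⟩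
    rw [hm, show α * (-μ / (α * α + α * μ + n * μ * μ)) + μ * ((α + μ) / (α * α + α * μ + n * μ * μ)) +
      μ * (-μ / (α * α + α * μ + n * μ * μ)) = 0 by ring, zero_smul, add_zero]
    rw [show α * ((α + μ) / (α * α + α * μ + n * μ * μ)) - μ * (-μ / (α * α + α * μ + n * μ * μ)) * n =
      (α * α + α * μ + n * μ * μ) / (α * α + α * μ + n * μ * μ) by ring, div_self hN, one_smul]
  have hSfin : finrank F S = 10 := by
    let f : K × K →ₗ[F] S :=
      { toFun := fun p => ⟨p.1 • 1 + p.2 • Θ, p.1, p.2, rfl⟩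
        map_add' := fun p q => Subtype.ext (by
          show (p.1 + q.1) • (1 : Module.End K (Fin 10 → F)) + (p.2 + q.2) • Θ = _ + _
          module)
        map_smul' := fun x p => Subtype.ext (by
          show (x • p.1) • (1 : Module.End K (Fin 10 → F)) + (x • p.2) • Θ = x • (p.1 • 1 + p.2 • Θ)
          rw [smul_add, smul_assoc, smul_assoc]) }
    have hf : Function.Bijective f := by
      refine ⟨(injective_iff_map_eq_zero f).2 fun p hp => ?_, ?_⟩
      · obtain ⟨h1, h2⟩ := hind p.1 p.2 (congrArg Subtype.val hp)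
        exact Prod.ext h1 h2
      · rintro ⟨_, α, μ, rfl⟩
        exact ⟨(α, μ), rfl⟩
    rw [← (LinearEquiv.ofBijective f hf).finrank_eq, Module.finrank_prod]
    omega
  let res : Module.End K (Fin 10 → F) →ₐ[F] Module.End F (Fin 10 → F) :=
    { toFun := fun X => X.restrictScalars F
      map_one' := rfl
      map_mul' := fun _ _ => rfl
      map_zero' := rfl
      map_add' := fun _ _ => rfl
      commutes' := fun _ => rfl }
  have hres : Function.Injective res := LinearMap.restrictScalars_injective F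
  set S' := S.map res with hS'
  have hS'fin : finrank F S' = 10 := (Subalgebra.equivMapOfInjective S res hres).toLinearEquiv.finrank_eq.symm.trans hSfin
  have hS'comm : ∀ x ∈ S', ∀ y ∈ S', x * y = y * x := by
    rintro _ ⟨X, hX, rfl⟩ _ ⟨Y, hY, rfl⟩
    exact (map_mul res X Y).symm.trans ((congrArg res (hScomm X hX Y hY)).trans (map_mul res Y X))
  have hS'inv : ∀ x ∈ S', x ≠ 0 → ∃ y ∈ S', x * y = 1 := by
    rintro _ ⟨X, hX, rfl⟩ hne
    obtain ⟨Y, hY, hXY⟩ := hSinv X hX fun h => hne (by simp [h])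
    exact ⟨res Y, ⟨Y, hY, rfl⟩, (map_mul res X Y).symm.trans ((congrArg res hXY).trans (map_one res))⟩
  obtain ⟨E, hEfin, hE⟩ := exists_sub_two hS'comm hS'inv hS'fin
  -- adjoints
  have hst : ∀ α μ : K, st (RingEquiv.refl F) (qgram Q) (res (α • 1 + μ • Θ)) =
      res ((α + μ) • 1 + (-μ) • Θ) := by
    intro α μ
    refine st_unique hform fun u v => ?_
    rw [← polar_eq, ← polar_eq]
    show QuadraticMap.polar Q ((α • (1 : Module.End K (Fin 10 → F)) + μ • Θ) u) v =
      QuadraticMap.polar Q u ((((α + μ) • (1 : Module.End K (Fin 10 → F)) + (-μ) • Θ)) v)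
    rw [QuadraticMap.polar_comm (⇑Q) u, ← one_smul K ((α • (1 : Module.End K (Fin 10 → F)) + μ • Θ) u), hpb,
      ← one_smul K ((((α + μ) • (1 : Module.End K (Fin 10 → F)) + (-μ) • Θ)) v), hpb, hsymm _ u]
    congr 2
    simp only [LinearMap.add_apply, LinearMap.smul_apply, Module.End.one_apply, map_add, map_smul, hΘb, map_sub,
      smul_eq_mul]
    ring
  have hEinv : ∀ x ∈ E, x ≠ 0 → ∃ y ∈ E, x * y = 1 := by
    intro x hx hne
    obtain ⟨hxS, hxp⟩ := (hE x).1 hx
    obtain ⟨y, hy, hxy⟩ := hS'inv x hxS hne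
    refine ⟨y, (hE y).2 ⟨hy, ?_⟩, hxy⟩
    calc y ^ Fintype.card F ^ 2 = x * y * y ^ Fintype.card F ^ 2 := by rw [hxy, one_mul]
      _ = y * (x ^ Fintype.card F ^ 2 * y ^ Fintype.card F ^ 2) := by
        rw [hxp, hS'comm x hxS y hy, mul_assoc]
      _ = y := by rw [← Commute.mul_pow (hS'comm x hxS y hy), hxy, one_pow, mul_one]
  refine ⟨E, fun x hx y hy => hS'comm x ((hE x).1 hx).1 y ((hE y).1 hy).1, hEinv, hEfin, fun x hx => ?_, ?_,
    fun g hg => ?_⟩
  · obtain ⟨⟨X, ⟨α, μ, rfl⟩, rfl⟩, hxp⟩ := (hE x).1 hx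
    refine (hE _).2 ⟨⟨_, ⟨_, _, rfl⟩, (hst α μ).symm⟩, ?_⟩
    rw [← st_pow hform]
    exact congrArg _ hxp
  · by_contra hall
    push Not at hall
    -- everything would lie in the field
    have hone : finrank F E ≤ 1 := by
      have hsub : ∀ x ∈ E, ∃ c : F, x = algebraMap F _ c := by
        intro x hx
        obtain ⟨⟨X, ⟨α, μ, rfl⟩, rfl⟩, hxp⟩ := (hE x).1 hx
        have h' : ((α + μ) • (1 : Module.End K (Fin 10 → F)) + (-μ) • Θ) = α • 1 + μ • Θ :=
          hres ((hst α μ).symm.trans (hall _ hx))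
        obtain ⟨h1, -⟩ := hind μ (-(2 * μ)) (by linear_combination (norm := module) h')
        subst h1
        simp only [zero_smul, add_zero] at hxp ⊢
        have hα : α ^ Fintype.card F ^ 2 = α := by
          have e : (α • (1 : Module.End K (Fin 10 → F))) ^ Fintype.card F ^ 2 = α • 1 := hres (by rw [map_pow]; exact hxp)
          rw [smul_pow, one_pow] at e
          exact smul_left_injective K one_ne_zero e
        have hL : α ^ Fintype.card F ^ 5 = α := by
          haveI := Fintype.ofFinite K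
          have := FiniteField.pow_card α
          rwa [Module.card_eq_pow_finrank (K := F) (V := K), hfin] at this
        have h4 : α ^ Fintype.card F ^ 4 = α := by
          rw [show Fintype.card F ^ 4 = Fintype.card F ^ 2 * Fintype.card F ^ 2 by ring, pow_mul, hα, hα]
        have hq : α ^ Fintype.card F = α := by
          rw [show Fintype.card F ^ 5 = Fintype.card F ^ 4 * Fintype.card F by ring, pow_mul, h4] at hL
          exact hL
        have hmem := mem_of_pow_eq (S := Finset.univ.image (algebraMap F K)) (Fintype.one_lt_card : 1 < Fintype.card F)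
          (by rw [Finset.card_image_of_injective _ (algebraMap F K).injective, Finset.card_univ]) (fun z hz => by
            obtain ⟨c, -, rfl⟩ := Finset.mem_image.1 hz
            rw [← map_pow, FiniteField.pow_card]) hq
        obtain ⟨c, -, rfl⟩ := Finset.mem_image.1 hmem
        exact ⟨c, LinearMap.ext fun v => algebraMap_smul K c v⟩
      have hle : E ≤ ⊥ := fun x hx => by
        obtain ⟨c, rfl⟩ := hsub x hx
        exact Subalgebra.algebraMap_mem _ c
      rw [le_bot_iff.1 hle, Subalgebra.finrank_bot]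
    omega
  · -- invariance
    have fwd : ∀ g ∈ H ⊔ scalars (Fin 10) F, ∀ x ∈ E,
        (gu g : Module.End F (Fin 10 → F)) * x * ((gu g)⁻¹).val ∈ E := by
      intro g hg x hx
      obtain ⟨⟨X, hX, rfl⟩, hxp⟩ := (hE x).1 hx
      refine (hE _).2 ⟨?_, ?_⟩
      swap
      · rw [Units.conj_pow, hxp]
      obtain ⟨ν, hν⟩ := (hchar X).2 hX
      obtain ⟨lam, hlam⟩ : ∃ lam : F, ∀ v, Q ((gu g : Module.End F (Fin 10 → F)) v) = lam * Q v := by
        have hg' := hg
        rw [← SetLike.mem_coe, Subgroup.mul_normal] at hg'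
        obtain ⟨h, hh, z, hz, rfl⟩ := hg'
        obtain ⟨c, hc⟩ := (mem_scalars_iff z).mp hz
        refine ⟨(c : F) * c, fun v => ?_⟩
        rw [gu_apply, Units.val_mul, hc, Matrix.mul_smul, mul_one, Matrix.smul_mulVec, QuadraticMap.map_smul,
          quad_of_mem Q (hI hh)]
        rfl
      set G := (gu g : Module.End F (Fin 10 → F)) with hG
      set G' := ((gu g)⁻¹).val with hG'
      have hGG : ∀ v, G (G' v) = v := fun v => by
        rw [hG, hG', ← Module.End.mul_apply, Units.mul_inv, Module.End.one_apply]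
      have hGG' : ∀ v, G' (G v) = v := fun v => by
        rw [hG, hG', ← Module.End.mul_apply, Units.inv_mul, Module.End.one_apply]
      obtain ⟨v₁, hv₁⟩ := exists_ne (0 : Fin 10 → F)
      have hcan : ∀ a c : K, (∀ v, a • G v = c • G v) → a = c := fun a c h => by
        have := h (G' v₁)
        rw [hGG] at this
        exact smul_left_injective K hv₁ this
      choose τ₀ hτ₀ using hnorm g hg
      let τ : K →ₗ[F] K :=
        { toFun := τ₀
          map_add' := fun l m => hcan _ _ fun v => by rw [← hτ₀, add_smul, add_smul, map_add, hτ₀, hτ₀]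
          map_smul' := fun r l => hcan _ _ fun v => by
            rw [RingHom.id_apply, ← hτ₀, smul_assoc, smul_assoc, map_smul, hτ₀] }
      have hτG : ∀ (l : K) v, τ l • G v = G (l • v) := fun l v => (hτ₀ l v).symm
      have hτmul : ∀ l m, τ (l * m) = τ l * τ m := fun l m => hcan _ _ fun v => by
        rw [hτG, mul_smul, mul_smul, ← hτG, ← hτG]
      have hτsur : ∀ m : K, ∃ l, τ l = m := fun m => by
        obtain ⟨l, hl⟩ := hnorm g⁻¹ (inv_mem hg) m
        rw [map_inv] at hl
        refine ⟨l, hcan _ _ fun v => ?_⟩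
        rw [hτG]
        conv_lhs => rw [← hGG' v, ← hl, hGG]
      have hpol : ∀ u v, QuadraticMap.polar Q (G u) (G v) = lam * QuadraticMap.polar Q u v := fun u v => by
        simp only [QuadraticMap.polar, ← map_add, hlam]; ring
      have hkey : ∀ v k, tr (τ k * φ (G v)) = lam * tr (k * φ v) := fun v k => by
        refine sub_eq_zero.1 (eq_zero_of_sq ((tr ∘ₗ (LinearMap.mulRight F (φ (G v))) ∘ₗ τ) -
          lam • (tr ∘ₗ LinearMap.mulRight F (φ v))) (fun l => ?_) k)
        show tr (τ (l * l) * φ (G v)) - lam * tr (l * l * φ v) = 0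
        rw [hτmul, ← hQφ, ← hQφ, hτG, hlam, sub_self]
      let Y : Module.End K (Fin 10 → F) :=
        { toFun := fun v => G (X (G' v))
          map_add' := fun u v => by simp
          map_smul' := fun m v => by
            obtain ⟨l, rfl⟩ := hτsur m
            show G (X (G' (τ l • v))) = τ l • G (X (G' v))
            conv_lhs => rw [← hGG v, hτG, hGG', map_smul, ← hτG] }
      refine ⟨Y, (hchar Y).1 ⟨τ ν, fun w => ?_⟩, LinearMap.ext fun v => rfl⟩
      refine sub_eq_zero.1 (htr _ fun m => ?_)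
      obtain ⟨k, rfl⟩ := hτsur m
      rw [mul_sub, map_sub, ← mul_assoc, ← hτmul, ← hpb, sub_eq_zero]
      show QuadraticMap.polar Q (τ k • G (X (G' w))) w = tr (τ (k * ν) * φ w)
      conv_lhs => rw [hτG, ← hGG w, hGG', hpol, hpb, hν, ← mul_assoc]
      conv_rhs => rw [← hGG w, hkey]
    intro x
    refine ⟨fwd g hg x, fun h => ?_⟩
    have := fwd g⁻¹ (inv_mem hg) _ h
    simpa [map_inv, mul_assoc] using this


/-- A self-adjoint field of degree five gives a unitary field of degree two. -/
theorem exists_quadratic_of_five (hQ : (QuadraticMap.polarBilin Q).Nondegenerate)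
     {H : Subgroup (GL (Fin 10) F)} (hI : H ≤ isometryGroup F ⇑Q)
    (_hirr : Irr ((fun u : (Module.End F (Fin 10 → F))ˣ => (u : Module.End F (Fin 10 → F))) ''
      opUnits (H ⊔ scalars (Fin 10) F)))
    {L : Subalgebra F (Module.End F (Fin 10 → F))} (hfin : finrank F L = 5)
    (hcomm : ∀ x ∈ L, ∀ y ∈ L, x * y = y * x) (hinv : ∀ x ∈ L, x ≠ 0 → ∃ y ∈ L, x * y = 1)
    (hself : ∀ x ∈ L, st (RingEquiv.refl F) (qgram Q) x = x)
    (hno : ∀ U : Submodule F (Fin 10 → F), (∀ l ∈ L, ∀ u ∈ U, l u ∈ U) → finrank F U = 5 →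
      ¬ IsTotallySingularQuad (⇑Q) U)
    (hnorm : ∀ g ∈ H ⊔ scalars (Fin 10) F, Normalises L (gu g)) :
    ∃ E : Subalgebra F (Module.End F (Fin 10 → F)), (∀ x ∈ E, ∀ y ∈ E, x * y = y * x) ∧
      (∀ x ∈ E, x ≠ 0 → ∃ y ∈ E, x * y = 1) ∧ finrank F E = 2 ∧
      (∀ x ∈ E, st (RingEquiv.refl F) (qgram Q) x ∈ E) ∧
      (∃ x ∈ E, st (RingEquiv.refl F) (qgram Q) x ≠ x) ∧
      ∀ g ∈ H ⊔ scalars (Fin 10) F, Normalises E (gu g) := by
  classical
  have hform := formData Q hQ
  haveI : Finite (Fin 10 → F) := Pi.finite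
  haveI : Finite (Module.End F (Fin 10 → F)) := Finite.of_injective _ DFunLike.coe_injective
  haveI : Nontrivial L := Module.nontrivial_of_finrank_pos (R := F) (by omega)
  letI : CommRing L := { (inferInstance : Ring L) with mul_comm := fun a b => Subtype.ext (hcomm a a.2 b b.2) }
  have hLF : IsField L := ⟨exists_pair_ne L, mul_comm, fun {a} ha => by
    obtain ⟨y, hy, hxy⟩ := hinv a a.2 fun h => ha (Subtype.ext h)
    exact ⟨⟨y, hy⟩, Subtype.ext hxy⟩⟩
  letI : Field L := hLF.toField
  haveI : IsScalarTower F L (Fin 10 → F) := ⟨fun c m v => rfl⟩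
  refine exists_quadratic_core (K := L) hfin hQ (fun v hv => ?_) hI (fun m u v => ?_) fun g hg l => ?_
  · by_contra h0
    let f : L →ₗ[F] (Fin 10 → F) := (LinearMap.toSpanSingleton L (Fin 10 → F) v).restrictScalars F
    refine hno f.range ?_ ?_ ?_
    · rintro l hl _ ⟨m, rfl⟩
      exact ⟨⟨l, hl⟩ * m, rfl⟩
    · rw [LinearMap.finrank_range_of_inj (smul_left_injective L h0 : Function.Injective f)]
      exact hfin
    · rintro _ ⟨m, rfl⟩
      exact hv m
  · have e := adjoint hform (m : Module.End F (Fin 10 → F)) u v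
    rw [hself m m.2] at e
    rw [polar_eq, polar_eq]
    exact e
  · refine ⟨⟨_, (hnorm g hg _).1 l.2⟩, fun v => ?_⟩
    show _ = (gu g : Module.End F (Fin 10 → F)) ((l : Module.End F (Fin 10 → F)) (((gu g)⁻¹).val _))
    rw [← Module.End.mul_apply ((gu g)⁻¹).val, Units.inv_mul, Module.End.one_apply]
    rfl


/-- A space of minus type has no five-dimensional totally singular subspace. -/
theorem no_singular_five_of_minus {F : Type*} [Field F] {Q : QuadraticForm F (Fin 10 → F)}
    (hminus : ¬ IsPlusTypeOn (⇑Q) ⊤) {U : Submodule F (Fin 10 → F)} (hU : finrank F U = 5) :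
    ¬ IsTotallySingularQuad (⇑Q) U :=
  fun h => hminus ⟨U, le_top, h, by rw [hU, finrank_top, Module.finrank_fin_fun]⟩

end Cfsg.Agent.GeomClasses.EvenTen
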