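import Cfsg.Agent.GeomClasses.EvenTen.Basic
import Cfsg.Agent.GeomClasses.DecompTools

/-! # Totally singular halves invariant under a field of degree five -/

set_option autoImplicit false
set_option maxHeartbeats 400000

namespace Cfsg.Agent.GeomClasses.EvenTen

open Matrix Cfsg.Geo Module
open Cfsg.Agent.GeomClasses.AschRel
open Cfsg.Agent.GeomClasses.Asch (Irr Normalises)

variable {F : Type*} [Field F] [Fintype F] {Q : QuadraticForm F (Fin 10 → F)}

local notation "ι" => Fin 10
local notation "fq" => matForm (RingEquiv.refl F) (qgram Q)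
local notation "stq" => st (RingEquiv.refl F) (qgram Q)

/-- Two totally singular halves invariant under a field of degree five are all there are, and they are
permuted by the group. -/
theorem five_lines (hQ : (QuadraticMap.polarBilin Q).Nondegenerate) {H : Subgroup (GL ι F)}
    (hI : H ≤ isometryGroup F ⇑Q)
    (hirr : Irr ((fun g : (Module.End F (ι → F))ˣ => (g : Module.End F (ι → F))) ''
      (gu '' ((H ⊔ scalars ι F : Subgroup _) : Set _))))
    {L : Subalgebra F (Module.End F (ι → F))} (hfin : finrank F L = 5)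
    (hcomm : ∀ x ∈ L, ∀ y ∈ L, x * y = y * x) (hinv : ∀ x ∈ L, x ≠ 0 → ∃ y ∈ L, x * y = 1)
    (hself : ∀ x ∈ L, stq x = x) (hnorm : ∀ g ∈ H ⊔ scalars ι F, Normalises L (gu g))
    {U : Submodule F (ι → F)} (hUd : finrank F U = 5) (hUL : ∀ l ∈ L, ∀ u ∈ U, l u ∈ U)
    (hUs : IsTotallySingularQuad (⇑Q) U) :
    ∃ D : Fin 2 → Submodule F (ι → F), IsMDecomposition 5 D ∧ (∀ i, IsTotallySingularQuad (⇑Q) (D i)) ∧
      H ≤ decompositionStabilizer D := by
  classical
  have hB := formData Q hQ
  -- the invariant totally singular halves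
  let S : Submodule F (ι → F) → Prop := fun W =>
    finrank F W = 5 ∧ (∀ l ∈ L, ∀ u ∈ W, l u ∈ W) ∧ IsTotallySingularQuad (⇑Q) W
  -- each of them is a line over `L`
  have hline : ∀ W, S W → ∀ w ∈ W, w ≠ 0 → ∀ v ∈ W, ∃ l ∈ L, l w = v := by
    intro W hW w hw hw0 v hv
    let ev : (Subalgebra.toSubmodule L : Submodule F (Module.End F (ι → F))) →ₗ[F] W :=
      { toFun := fun l => ⟨(l : Module.End F (ι → F)) w, hW.2.1 l l.2 w hw⟩
        map_add' := fun _ _ => rfl
        map_smul' := fun _ _ => rfl }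
    have hinj : Function.Injective ev := by
      rw [injective_iff_map_eq_zero]
      intro l hl
      by_contra h0
      obtain ⟨y, hy, hly⟩ := hinv l l.2 fun h => h0 (Subtype.ext h)
      apply hw0
      have h1 : (l : Module.End F (ι → F)) w = 0 := congrArg Subtype.val hl
      calc w = ((l : Module.End F (ι → F)) * y) w := by rw [hly]; rfl
        _ = y ((l : Module.End F (ι → F)) w) := by rw [hcomm l l.2 y hy]; rfl
        _ = 0 := by rw [h1, map_zero]
    have hfr : finrank F (Subalgebra.toSubmodule L) = finrank F W := by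
      rw [Subalgebra.finrank_toSubmodule, hfin, hW.1]
    have hsurj : Function.Surjective ev :=
      LinearMap.range_eq_top.mp (Submodule.eq_top_of_finrank_eq
        (by rw [LinearMap.finrank_range_of_inj hinj, hfr]))
    obtain ⟨l, hl⟩ := hsurj ⟨v, hv⟩
    exact ⟨l, l.2, congrArg Subtype.val hl⟩
  have hmeet : ∀ W W', S W → S W' → ∀ w ∈ W, w ∈ W' → w ≠ 0 → W = W' := by
    intro W W' hW hW' w hw hw' hw0
    refine le_antisymm (fun v hv => ?_) fun v hv => ?_
    · obtain ⟨l, hl, rfl⟩ := hline W hW w hw hw0 v hv; exact hW'.2.1 l hl w hw'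
    · obtain ⟨l, hl, rfl⟩ := hline W' hW' w hw' hw0 v hv; exact hW.2.1 l hl w hw
  have hiso : ∀ W, S W → ∀ a ∈ W, ∀ b ∈ W, fq a b = 0 := by
    intro W hW a ha b hb
    rw [← polar_eq]
    simp [QuadraticMap.polar, hW.2.2 a ha, hW.2.2 b hb, hW.2.2 _ (add_mem ha hb)]
  -- the group permutes them
  have himage : ∀ g ∈ H, ∀ W, S W → S (W.map (Matrix.toLin' (g : Matrix ι ι F))) := by
    intro g hg W hW
    have hinj : Function.Injective (Matrix.toLin' (g : Matrix ι ι F)) := fun x y hxy => by
      have := congrArg ((g⁻¹ : GL ι F).val *ᵥ ·) hxy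
      simpa [Matrix.mulVec_mulVec] using this
    refine ⟨?_, ?_, ?_⟩
    · rw [← (Submodule.equivMapOfInjective _ hinj W).finrank_eq, hW.1]
    · rintro l hl _ ⟨w, hw, rfl⟩
      have hK : g⁻¹ ∈ H ⊔ scalars ι F := Subgroup.mem_sup_left (inv_mem hg)
      have hl' := (hnorm g⁻¹ hK l).mp hl
      rw [map_inv, inv_inv] at hl'
      refine ⟨_, hW.2.1 _ hl' w hw, ?_⟩
      show (gu g : Module.End F (ι → F)) (((gu g)⁻¹ : (Module.End F (ι → F))ˣ).val
        (l ((gu g : Module.End F (ι → F)) w))) = l ((gu g : Module.End F (ι → F)) w)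
      rw [← Module.End.mul_apply (gu g : Module.End F (ι → F)), Units.mul_inv]
      rfl
    · rintro _ ⟨w, hw, rfl⟩
      rw [Matrix.toLin'_apply, quad_of_mem Q (hI hg)]
      exact hW.2.2 w hw
  -- the group moves `U`
  obtain ⟨g₀, hg₀, hmove⟩ : ∃ g ∈ H, U.map (Matrix.toLin' (g : Matrix ι ι F)) ≠ U := by
    by_contra hc
    push Not at hc
    rcases hirr U (by
      rintro _ ⟨_, ⟨g, hg, rfl⟩, rfl⟩ w hw
      show (gu g : Module.End F (ι → F)) w ∈ U
      rw [gu_apply]
      rw [SetLike.mem_coe, ← SetLike.mem_coe, Subgroup.mul_normal] at hg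
      obtain ⟨a, ha, z, hz, rfl⟩ := hg
      obtain ⟨c, hz'⟩ := (mem_scalars_iff z).mp hz
      rw [Units.val_mul, hz', Matrix.mul_smul, mul_one, Matrix.smul_mulVec]
      refine U.smul_mem _ ?_
      rw [← hc a ha]
      exact ⟨w, hw, Matrix.toLin'_apply _ _⟩) with h | h
    · rw [h, finrank_bot] at hUd; omega
    · rw [h, finrank_top, Module.finrank_fin_fun] at hUd; omega
  set U' := U.map (Matrix.toLin' (g₀ : Matrix ι ι F))
  have hSU : S U := ⟨hUd, hUL, hUs⟩
  have hSU' : S U' := himage g₀ hg₀ U hSU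
  have hinf : U ⊓ U' = ⊥ := eq_bot_iff.mpr fun w hw => by
    rw [Submodule.mem_bot]
    by_contra h0
    exact hmove (hmeet U' U hSU' hSU w hw.2 hw.1 h0)
  have hsup : U ⊔ U' = ⊤ := by
    refine Submodule.eq_top_of_finrank_eq ?_
    have := Submodule.finrank_sup_add_finrank_inf_eq U U'
    rw [hinf, finrank_bot, add_zero, hUd, hSU'.1] at this
    rw [this, Module.finrank_fin_fun]
  -- there is no third
  have hthree : ∀ W, S W → W = U ∨ W = U' := by
    intro W hW
    by_contra hne
    rw [not_or] at hne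
    obtain ⟨w, hw, hw0⟩ : ∃ w ∈ W, w ≠ 0 := by
      refine Submodule.exists_mem_ne_zero_of_ne_bot fun h => ?_
      have := hW.1
      rw [h, finrank_bot] at this; omega
    obtain ⟨a, ha, b, hb, rfl⟩ := Submodule.mem_sup.mp (show w ∈ U ⊔ U' by rw [hsup]; trivial)
    have ha0 : a ≠ 0 := fun h => hne.2 (hmeet W U' hW hSU' b (by simpa [h] using hw) hb (by simpa [h] using hw0))
    have hb0 : b ≠ 0 := fun h => hne.1 (hmeet W U hW hSU a (by simpa [h] using hw) ha (by simpa [h] using hw0))
    have hsw : ∀ x ∈ L, ∀ u v, fq (x u) v = fq u (x v) := fun x hx u v => by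
      rw [adjoint hB, hself x hx]
    have horth : ∀ x ∈ L, fq a (x b) = 0 := by
      by_cases h2 : (2 : F) = 0
      · -- every member of `L` is a square
        haveI : Finite L := Module.finite_of_finite F
        have hsq : Function.Injective fun l : L => l * l := by
          intro l m hlm
          have hlm' : (l : Module.End F (ι → F)) * l = (m : Module.End F (ι → F)) * m :=
            congrArg Subtype.val hlm
          by_contra hne'
          obtain ⟨y, hy, hdy⟩ := hinv _ (sub_mem l.2 m.2) fun h => hne' (Subtype.ext (sub_eq_zero.mp h))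
          have hm2 : (m : Module.End F (ι → F)) * m + (m : Module.End F (ι → F)) * m = 0 := by
            rw [← two_smul F, h2, zero_smul]
          have hlm2 : (l : Module.End F (ι → F)) * m + (l : Module.End F (ι → F)) * m = 0 := by
            rw [← two_smul F, h2, zero_smul]
          have hd2 : ((l : Module.End F (ι → F)) - m) * ((l : Module.End F (ι → F)) - m) = 0 := by
            rw [mul_sub, sub_mul, sub_mul, hlm', hcomm m m.2 l l.2]
            linear_combination (norm := abel) hm2 - hlm2
          have := congrArg (fun X => X * y) hd2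
          simp only [mul_assoc, hdy, mul_one, zero_mul] at this
          exact hne' (Subtype.ext (sub_eq_zero.mp this))
        intro x hx
        obtain ⟨m, hm⟩ := Finite.injective_iff_surjective.mp hsq ⟨x, hx⟩
        have hmx : (m : Module.End F (ι → F)) * m = x := congrArg Subtype.val hm
        have e := hW.2.2 _ (hW.2.1 m m.2 _ hw)
        rw [map_add, QuadraticMap.map_add Q, hUs _ (hUL m m.2 a ha), hSU'.2.2 _ (hSU'.2.1 m m.2 b hb),
          zero_add, zero_add, polar_eq, hsw m m.2] at e
        rw [← hmx]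
        exact e
      · intro x hx
        have e := hiso W hW _ hw _ (hW.2.1 x hx _ hw)
        rw [map_add, mf_add_left, mf_add_right, mf_add_right, hiso U hSU _ ha _ (hUL x hx a ha),
          hiso U' hSU' _ hb _ (hSU'.2.1 x hx b hb), zero_add, add_zero,
          ← hsw x hx b a, ← polar_eq (u := x b), QuadraticMap.polar_comm, polar_eq] at e
        exact (mul_eq_zero.mp ((two_mul _).trans e)).resolve_left h2
    apply hb0
    by_contra hb'
    obtain ⟨⟨z, hz⟩, -⟩ := nondeg_matForm (σ := RingEquiv.refl F) hB.unit b hb'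
    obtain ⟨z₁, hz₁, z₂, hz₂, rfl⟩ := Submodule.mem_sup.mp (show z ∈ U ⊔ U' by rw [hsup]; trivial)
    obtain ⟨l, hl, rfl⟩ := hline U hSU a ha ha0 z₁ hz₁
    rw [mf_add_left, hiso U' hSU' _ hz₂ _ hb, add_zero, hsw l hl, horth l hl] at hz
    exact hz rfl
  have hD : IsMDecomposition 5 ![U, U'] := by
    refine ⟨le_rfl, by norm_num, by rw [Fin.forall_fin_two]; exact ⟨hUd, hSU'.1⟩, ?_, ?_⟩
    · rw [iSupIndep_def, Fin.forall_fin_two]
      refine ⟨Disjoint.mono_right (iSup₂_le fun j hj => ?_) (disjoint_iff.mpr hinf),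
        Disjoint.mono_right (iSup₂_le fun j hj => ?_) (disjoint_iff.mpr (inf_comm U U' ▸ hinf))⟩
      · fin_cases j
        · exact absurd rfl hj
        · exact le_rfl
      · fin_cases j
        · exact le_rfl
        · exact absurd rfl hj
    · rw [eq_top_iff, ← hsup]
      exact sup_le (le_iSup ![U, U'] 0) (le_iSup ![U, U'] 1)
  refine ⟨![U, U'], hD, ?_, fun g hg => ?_⟩
  · rw [Fin.forall_fin_two]; exact ⟨hUs, hSU'.2.2⟩
  · refine mem_decomp_of_forall hD fun i => ?_
    have hSi : S (![U, U'] i) := by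
      fin_cases i
      · exact hSU
      · exact hSU'
    rcases hthree _ (himage g hg _ hSi) with e | e
    · exact ⟨0, fun x hx => e.le ⟨x, hx, Matrix.toLin'_apply _ _⟩⟩
    · exact ⟨1, fun x hx => e.le ⟨x, hx, Matrix.toLin'_apply _ _⟩⟩

end Cfsg.Agent.GeomClasses.EvenTen
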