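import Cfsg.Agent.GeomClasses.EvenTen.Basic
import Cfsg.Agent.GeomClasses.OddMax.Rigid

/-! # `Ω` lies in no class member, in any characteristic -/

set_option autoImplicit false

namespace Cfsg.Agent.GeomClasses.EvenTen

open Matrix Cfsg.Agent.Forms Module
open Cfsg.Agent.GeomClasses.OddMax (IsRoot exists_root isRoot_mul isRoot_unique root_sub_mem root_moves
  finrank_pair_le exists_perp_anisotropic isRoot_pow_char card_eq_of_decomp)

variable {ι : Type} [Fintype ι] [DecidableEq ι] {F : Type*} [Field F] [Fintype F] {Q : QuadraticForm F (ι → F)}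

local notation "BQ" => QuadraticMap.polarBilin Q
set_option quotPrecheck false in
local notation "Ωg" => Cfsg.Geo.omegaGL (DFunLike.coe Q)

omit [DecidableEq ι] in
theorem exists_singular_pairing_any (hQ : (BQ).Nondegenerate) (hn : 3 ≤ Fintype.card ι) {w : ι → F}
    (hw : w ≠ 0) : ∃ b, Q b = 0 ∧ QuadraticMap.polar Q b w ≠ 0 := by
  classical
  by_contra hcon
  push Not at hcon
  have hI := isForm_quadratic Q hQ
  obtain ⟨e, he0, he⟩ := exists_singular_of_three_le Q (by rw [Module.finrank_pi]; exact hn)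
  obtain ⟨d, hd⟩ := hI.exists_pairing he0 (1 : F)
  simp only [QuadraticMap.polarBilin_apply_apply] at hd
  obtain ⟨f, -, hp⟩ := exists_pair Q (W := ⊤) (x := d) trivial he trivial (by rw [hd]; exact one_ne_zero)
  refine hw (hI.nondeg_right w fun y => ?_)
  rw [QuadraticMap.polarBilin_apply_apply]
  set α := QuadraticMap.polar Q y f with hα
  set β := QuadraticMap.polar Q y e with hβ
  have hee : QuadraticMap.polar Q e e = 0 := by rw [polar_self_two_mul, he, mul_zero]
  have hff : QuadraticMap.polar Q f f = 0 := by rw [polar_self_two_mul, hp.qf, mul_zero]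
  have hfe : QuadraticMap.polar Q f e = 1 := by rw [QuadraticMap.polar_comm, hp.ef]
  set x := y - α • e - β • f with hx
  have hxe : QuadraticMap.polar Q x e = 0 := by
    simp only [hx, QuadraticMap.polar_sub_left, QuadraticMap.polar_smul_left, smul_eq_mul, hee, hfe, ← hβ]
    ring
  have hxf : QuadraticMap.polar Q x f = 0 := by
    simp only [hx, QuadraticMap.polar_sub_left, QuadraticMap.polar_smul_left, smul_eq_mul, hff, hp.ef, ← hα]
    ring
  have hu : Q (x + (-Q x) • e + f) = 0 := by
    simp only [QuadraticMap.map_add (⇑Q), QuadraticMap.map_smul, QuadraticMap.polar_add_left,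
      QuadraticMap.polar_smul_left, QuadraticMap.polar_smul_right, smul_eq_mul, he, hp.qf, hp.ef, hxe, hxf]
    ring
  have h := hcon _ hu
  simp only [hx, QuadraticMap.polar_add_left, QuadraticMap.polar_sub_left, QuadraticMap.polar_smul_left,
    smul_eq_mul, hcon e he, hcon f hp.qf, mul_zero, add_zero, sub_zero] at h
  exact h

omit [DecidableEq ι] in
/-- A nonzero subspace invariant under all Eichler maps is the whole space, in any characteristic. -/
theorem invariant_top_any (hQ : (BQ).Nondegenerate) (hn : 3 ≤ Fintype.card ι)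
    {W : Submodule F (ι → F)} (hW : W ≠ ⊥)
    (hinv : ∀ b v, Q b = 0 → QuadraticMap.polar Q b v = 0 → ∀ x ∈ W, eichlerMap Q b v x ∈ W) : W = ⊤ := by
  classical
  obtain ⟨w, hw, hw0⟩ := Submodule.exists_mem_ne_zero_of_ne_bot hW
  obtain ⟨b, hb, hbw⟩ := exists_singular_pairing_any hQ hn hw0
  have hI := isForm_quadratic Q hQ
  set L := Submodule.span F ({b} : Set (ι → F))
  have hd : ∀ u, QuadraticMap.polar Q b u = 0 →
      QuadraticMap.polar Q b w • u - (QuadraticMap.polar Q u w + Q u * QuadraticMap.polar Q b w) • b ∈ W := by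
    intro u hu
    have h := sub_mem (hinv b u hb hu w hw) hw
    rw [eichlerMap_apply] at h
    convert h using 1; abel
  have h3 := hI.finrank_perp L
  have h4 : finrank F L ≤ 1 := (finrank_span_le_card {b}).trans (by simp)
  change finrank F (perp BQ L) + _ = _ at h3
  rw [Module.finrank_pi] at h3
  obtain ⟨u, hu, u', hu', huu⟩ : ∃ u, QuadraticMap.polar Q b u = 0 ∧ ∃ u', QuadraticMap.polar Q b u' = 0 ∧
      QuadraticMap.polar Q u u' ≠ 0 := by
    by_contra hcon
    push Not at hcon
    have hle : perp BQ L ≤ perp BQ (perp BQ L) := fun y hy x hx => by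
      rw [QuadraticMap.polarBilin_apply_apply]
      exact hcon x (by simpa using mem_perp_span_singleton.mp hx) y (by simpa using mem_perp_span_singleton.mp hy)
    rw [hI.perp_perp] at hle
    have := Submodule.finrank_mono hle
    omega
  have hbW : b ∈ W := by
    have h := sub_mem (add_mem (hd u hu) (hd u' hu')) (hd (u + u') (by rw [QuadraticMap.polar_add_right, hu, hu', add_zero]))
    rw [QuadraticMap.map_add (⇑Q), QuadraticMap.polar_add_left] at h
    refine (Submodule.smul_mem_iff W (s := QuadraticMap.polar Q u u' * QuadraticMap.polar Q b w) (mul_ne_zero huu hbw)).mp ?_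
    convert h using 1; module
  have hperp : perp BQ L ≤ W := by
    intro y hy
    have h := add_mem (hd y (by simpa using mem_perp_span_singleton.mp hy))
      (W.smul_mem (QuadraticMap.polar Q y w + Q y * QuadraticMap.polar Q b w) hbW)
    rw [sub_add_cancel] at h
    exact (Submodule.smul_mem_iff W hbw).mp h
  have hlt : perp BQ L < W :=
    lt_of_le_of_ne hperp fun e => hbw (by simpa using mem_perp_span_singleton.mp (e ▸ hw : w ∈ perp BQ L))
  have h1 := Submodule.finrank_lt_finrank_of_lt hlt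
  have h5 := Submodule.finrank_le W
  rw [Module.finrank_pi] at h5
  exact Submodule.eq_top_of_finrank_eq (by rw [Module.finrank_pi]; omega)

theorem not_le_stab (hQ : (BQ).Nondegenerate) (hn : 7 ≤ Fintype.card ι)
    {W : Submodule F (ι → F)} (hW : W ≠ ⊥) (hW' : W ≠ ⊤) : ¬ Ωg ≤ Cfsg.Geo.subspaceStabilizer W := fun hle =>
  hW' (invariant_top_any hQ (by omega) hW fun b v hb hv x hx => by
    obtain ⟨g, hg, hr⟩ := exists_root hQ hn hb hv
    rw [← hr x]
    exact mem_subspaceStabilizer_iff.mp (hle hg) x hx)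

/-! ### Decompositions -/

/-- A root element with anisotropic direction fixes each block. -/
theorem root_fixes_block (hQ : (BQ).Nondegenerate) {t k : ℕ} (hk : 2 ≤ k) {D : Fin t → Submodule F (ι → F)}
    (hD : Cfsg.Geo.IsNondegenerateMDecomposition (QuadraticMap.polar ⇑Q) k D) {b v : ι → F} (hb0 : b ≠ 0)
    (hb : Q b = 0) (hv : QuadraticMap.polar Q b v = 0) (hQv : Q v ≠ 0) {g : GL ι F} (hgQ : g ∈ Ωg)
    (hr : IsRoot Q b v g) {σ : Equiv.Perm (Fin t)}
    (hσ : ∀ i, (D i).map (Matrix.toLin' (g : Matrix ι ι F)) = D (σ i)) (i : Fin t) : σ i = i := by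
  classical
  by_contra hmove
  set S := Submodule.span F ({b, v} : Set (ι → F))
  have hfix0 : ∀ y ∈ D i, (g : Matrix ι ι F) *ᵥ y = y → y = 0 := fun y hy h => by
    have hy' : y ∈ D (σ i) := hσ i ▸ ⟨y, hy, by rw [Matrix.toLin'_apply, h]⟩
    exact Submodule.disjoint_def.mp (hD.decomp.indep.pairwiseDisjoint (Ne.symm hmove)) y hy hy'
  let Φ : D i →ₗ[F] S :=
    { toFun := fun y => ⟨(g : Matrix ι ι F) *ᵥ (y : ι → F) - y, root_sub_mem hr _⟩
      map_add' := fun a c => Subtype.ext (by simp [Matrix.mulVec_add]; abel)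
      map_smul' := fun c a => Subtype.ext (by simp [Matrix.mulVec_smul, smul_sub]) }
  have hΦi : Function.Injective Φ := LinearMap.ker_eq_bot.mp (LinearMap.ker_eq_bot'.mpr fun y hy =>
    Subtype.ext (hfix0 y y.2 (sub_eq_zero.mp (congrArg Subtype.val hy))))
  have hdim := LinearMap.finrank_le_finrank_of_injective hΦi
  have hS : finrank F S ≤ 2 := finrank_pair_le b v
  rw [hD.decomp.finrank_eq i] at hdim
  have hΦ : Function.Surjective Φ := (LinearMap.injective_iff_surjective_of_finrank_eq_finrank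
    (by rw [hD.decomp.finrank_eq i]; omega)).mp hΦi
  obtain ⟨x, hx⟩ := hΦ ⟨b, Submodule.subset_span (by simp)⟩
  obtain ⟨y, hy⟩ := hΦ ⟨v, Submodule.subset_span (by simp)⟩
  have hx' : (g : Matrix ι ι F) *ᵥ (x : ι → F) - x = b := congrArg Subtype.val hx
  have hy' : (g : Matrix ι ι F) *ᵥ (y : ι → F) - y = v := congrArg Subtype.val hy
  have hiso := omegaGL_preserves Q hgQ
  have hpol : ∀ a c : ι → F, QuadraticMap.polar Q ((g : Matrix ι ι F) *ᵥ a) ((g : Matrix ι ι F) *ᵥ c) =
      QuadraticMap.polar Q a c := fun a c => by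
    simp only [QuadraticMap.polar, ← Matrix.mulVec_add, hiso]
  have hcross : ∀ a ∈ D i, ∀ c ∈ D i, QuadraticMap.polar Q ((g : Matrix ι ι F) *ᵥ a) c = 0 := fun a ha c hc =>
    hD.orthogonal (σ i) i hmove _ (hσ i ▸ ⟨a, ha, Matrix.toLin'_apply _ _⟩) _ hc
  have hdiff : ∀ a ∈ D i, ∀ c ∈ D i, QuadraticMap.polar Q ((g : Matrix ι ι F) *ᵥ a - a)
      ((g : Matrix ι ι F) *ᵥ c - c) = 2 * QuadraticMap.polar Q a c := fun a ha c hc => by
    simp only [QuadraticMap.polar_sub_left, QuadraticMap.polar_sub_right, hpol, hcross a ha c hc,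
      QuadraticMap.polar_comm (⇑Q) a ((g : Matrix ι ι F) *ᵥ c), hcross c hc a ha]
    ring
  have hQdiff : ∀ a ∈ D i, Q ((g : Matrix ι ι F) *ᵥ a - a) = 2 * Q a := fun a ha => by
    rw [sub_eq_add_neg, QuadraticMap.map_add (⇑Q), QuadraticMap.map_neg, QuadraticMap.polar_neg_right,
      hcross a ha a ha, hiso]
    ring
  by_cases h2 : (2 : F) = 0
  · exact hQv (by rw [← hy', hQdiff _ y.2, h2, zero_mul])
  have hx0 : (x : ι → F) ≠ 0 := fun h => hb0 (by rw [← hx', h, Matrix.mulVec_zero, sub_zero])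
  have hxx : QuadraticMap.polar Q (x : ι → F) (x : ι → F) = 0 := by
    have h : 2 * Q (x : ι → F) = 0 := by rw [← hQdiff _ x.2, hx', hb]
    rw [polar_self_two_mul, h]
  have hxy : QuadraticMap.polar Q (x : ι → F) (y : ι → F) = 0 := by
    have h := hdiff _ x.2 _ y.2
    rw [hx', hy', hv] at h
    exact (mul_eq_zero.mp h.symm).resolve_left h2
  obtain ⟨-, z, hz, hne⟩ := hD.nondegenerate i x x.2 hx0
  obtain ⟨α, β, hab⟩ := Submodule.mem_span_pair.mp (Φ ⟨z, hz⟩).2
  have hzeq : (⟨z, hz⟩ : D i) = α • x + β • y := hΦi (by rw [map_add, map_smul, map_smul, hx, hy]; exact Subtype.ext hab.symm)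
  have hz' : z = α • (x : ι → F) + β • (y : ι → F) := congrArg Subtype.val hzeq
  apply hne
  rw [hz', QuadraticMap.polar_add_right, QuadraticMap.polar_smul_right, QuadraticMap.polar_smul_right, hxx, hxy,
    smul_zero, smul_zero, add_zero]

omit [DecidableEq ι] in
theorem exists_perp_anisotropic_two (hQ : (BQ).Nondegenerate) (hn : 5 ≤ Fintype.card ι) (b u : ι → F) :
    ∃ v, QuadraticMap.polar Q b v = 0 ∧ QuadraticMap.polar Q u v = 0 ∧ Q v ≠ 0 := by
  classical
  by_contra hcon
  push Not at hcon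
  have hI := isForm_quadratic Q hQ
  set S := Submodule.span F ({b, u} : Set (ι → F))
  set X := perp BQ S
  have hts : ∀ x ∈ X, Q x = 0 := fun x hx => by
    have h := mem_perp_span.mp hx
    exact hcon x (by simpa using h b (by simp)) (by simpa using h u (by simp))
  have h1 := Submodule.finrank_mono (show X ≤ perp BQ X from fun y hy x hx => polar_ts hts hx hy)
  have h2 := hI.finrank_perp X
  have h3 := hI.finrank_perp S
  have h4 : finrank F S ≤ 2 := finrank_pair_le b u
  rw [Module.finrank_pi] at h2 h3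
  change finrank F X + _ = _ at h3
  omega

/-- Nondegenerate orthogonal decompositions into blocks of dimension at least two are not preserved by `Ω`. -/
theorem not_le_decomp (hQ : (BQ).Nondegenerate) (hn : 7 ≤ Fintype.card ι)
    {t k : ℕ} (hk : 2 ≤ k) {D : Fin t → Submodule F (ι → F)}
    (hD : Cfsg.Geo.IsNondegenerateMDecomposition (QuadraticMap.polar ⇑Q) k D) :
    ¬ Ωg ≤ Cfsg.Geo.decompositionStabilizer D := by
  intro hle
  have ht := hD.decomp.two_le
  let i₀ : Fin t := ⟨0, by omega⟩
  have hne : D i₀ ≠ ⊥ := fun e => by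
    have := hD.decomp.finrank_eq i₀
    rw [e, finrank_bot] at this; omega
  have htop : D i₀ ≠ ⊤ := fun e => by
    have := hD.decomp.finrank_eq i₀
    rw [e, finrank_top, Module.finrank_pi, card_eq_of_decomp hD.decomp] at this
    have : 2 * k ≤ t * k := Nat.mul_le_mul_right k ht
    omega
  have hfix : ∀ b v, b ≠ 0 → Q b = 0 → QuadraticMap.polar Q b v = 0 → Q v ≠ 0 → ∀ g : GL ι F, IsRoot Q b v g →
      ∀ x ∈ D i₀, (g : Matrix ι ι F) *ᵥ x ∈ D i₀ := by
    intro b v hb0 hb hv hQv g hr x hx
    obtain ⟨g', hg', hr'⟩ := exists_root hQ hn hb hv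
    rw [isRoot_unique hr hr']
    obtain ⟨σ, hσ⟩ := hle hg'
    have h := hσ i₀
    rw [root_fixes_block hQ hk hD hb0 hb hv hQv hg' hr' hσ i₀] at h
    rw [← h]
    exact ⟨x, hx, Matrix.toLin'_apply _ _⟩
  refine htop (invariant_top_any hQ (by omega) hne fun b u hb hu x hx => ?_)
  by_cases hb0 : b = 0
  · subst hb0
    rw [eichlerMap_apply]
    simpa [QuadraticMap.polar] using hx
  obtain ⟨g, hg, hr⟩ := exists_root hQ hn hb hu
  rw [← hr x]
  by_cases hQu : Q u = 0
  · obtain ⟨v, hbv, huv, hQv⟩ := exists_perp_anisotropic_two hQ (by omega) b u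
    have h1 : QuadraticMap.polar Q b (u + v) = 0 := by rw [QuadraticMap.polar_add_right, hu, hbv, add_zero]
    have h2 : QuadraticMap.polar Q b (-v) = 0 := by rw [QuadraticMap.polar_neg_right, hbv, neg_zero]
    obtain ⟨g1, -, hr1⟩ := exists_root hQ hn hb h1
    obtain ⟨g2, -, hr2⟩ := exists_root hQ hn hb h2
    have e : g = g1 * g2 := isRoot_unique hr (by
      have := isRoot_mul hb h1 h2 hr1 hr2
      rwa [add_neg_cancel_right] at this)
    rw [e, Units.val_mul, ← Matrix.mulVec_mulVec]
    refine hfix b _ hb0 hb h1 ?_ g1 hr1 _ (hfix b _ hb0 hb h2 ?_ g2 hr2 x hx)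
    · rw [QuadraticMap.map_add (⇑Q), hQu, huv]; simpa using hQv
    · rwa [QuadraticMap.map_neg]
  · exact hfix b u hb0 hb hu hQu g hr x hx

/-! ### Quadratic extension fields -/

/-- A quadratic field subalgebra is not normalised by all of `Ω`. -/
theorem not_le_field_two (hQ : (BQ).Nondegenerate) (hn : 7 ≤ Fintype.card ι)
    {K : Subalgebra F (Matrix ι ι F)} (hK : Cfsg.Geo.IsFieldSubalgebra 2 K) :
    ¬ Ωg ≤ Cfsg.Geo.subalgebraNormalizer K := by
  classical
  intro hle
  have hI := isForm_quadratic Q hQ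
  obtain ⟨b, hb0, hb⟩ := exists_singular_of_three_le Q (by rw [Module.finrank_pi]; omega)
  set L := Submodule.span F ({b} : Set (ι → F))
  set X := perp BQ L
  obtain ⟨C₀, hC₀⟩ := Submodule.exists_isCompl L
  set C := X ⊓ C₀
  have hC : Fintype.card ι - 2 ≤ finrank F C := by
    have h1 := Submodule.finrank_sup_add_finrank_inf_eq X C₀
    have h2 := hI.finrank_perp L
    have h3 := Submodule.finrank_add_eq_of_isCompl hC₀
    have h4 := Submodule.finrank_le (X ⊔ C₀)
    have h5 : finrank F L ≤ 1 := (finrank_span_le_card {b}).trans (by simp)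
    show Fintype.card ι - 2 ≤ finrank F ↥(X ⊓ C₀)
    change finrank F X + _ = _ at h2
    rw [Module.finrank_pi] at h2 h3 h4
    omega
  have hCb : ∀ u : C, QuadraticMap.polar Q b (u : ι → F) = 0 := fun u => by
    simpa using mem_perp_span_singleton.mp u.2.1
  choose G hG hGr using fun u : C => exists_root hQ hn hb (hCb u)
  have hinj : ∀ u : C, u ≠ 0 → (u : ι → F) ∉ L := fun u hu h => hu (Subtype.ext
    (Submodule.disjoint_def.mp hC₀.disjoint _ h u.2.2))
  have hf : IsField K := by
    refine ⟨⟨0, 1, fun h => ?_⟩, fun a c => Subtype.ext (hK.comm a a.2 c c.2), fun {a} ha => ?_⟩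
    · haveI : Nonempty ι := Fintype.card_pos_iff.mp (by omega)
      exact zero_ne_one (α := Matrix ι ι F) (congrArg Subtype.val h)
    · obtain ⟨y, hy, hay⟩ := hK.inv a a.2 (fun h => ha (Subtype.ext h))
      exact ⟨⟨y, hy⟩, Subtype.ext hay⟩
  letI : Field K := hf.toField
  haveI : Module.Finite F K := inferInstance
  haveI : Finite K := Module.finite_of_finite F
  let σ : C → (K →ₐ[F] K) := fun u =>
    { toFun := fun a => ⟨(G u : Matrix ι ι F) * (a : Matrix ι ι F) * ((G u)⁻¹ : GL ι F).val, (hle (hG u) a).1 a.2⟩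
      map_one' := Subtype.ext (by simp)
      map_mul' := fun a c => Subtype.ext (by simp [mul_assoc])
      map_zero' := Subtype.ext (by simp)
      map_add' := fun a c => Subtype.ext (by simp [mul_add, add_mul])
      commutes' := fun a => Subtype.ext (by simp [Algebra.algebraMap_eq_smul_one]) }
  haveI : Finite (K →ₐ[F] K) := Finite.of_injective _ DFunLike.coe_injective
  have hcardA : Nat.card (K →ₐ[F] K) = 2 := by
    rw [Nat.card_congr (Algebra.IsAlgebraic.algEquivEquivAlgHom F K).toEquiv.symm,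
      IsGalois.card_aut_eq_finrank, hK.finrank_eq]
  let bC := Module.finBasis F C
  letI : Fintype (K →ₐ[F] K) := Fintype.ofFinite _
  obtain ⟨τ, hτ⟩ := Fintype.exists_lt_card_fiber_of_mul_lt_card (fun i => σ (bC i)) (n := 2)
    (by rw [← Nat.card_eq_fintype_card, hcardA, Fintype.card_fin]; omega)
  obtain ⟨i, j, l, hi, hj, hl, hij, hil, hjl⟩ := Finset.two_lt_card_iff.mp hτ
  simp only [Finset.mem_filter, Finset.mem_univ, true_and] at hi hj hl
  set w₁ := bC j - bC i with hw₁
  set w₂ := bC l - bC i with hw₂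
  have hli : ∀ s r : F, s • w₁ - r • w₂ = 0 → s = 0 := fun s r h => by
    have h' := congrArg (fun z => bC.repr z j) h
    simpa [hw₁, hw₂, Finsupp.single_apply, hij, hjl.symm, hij.symm] using h'
  have hne₁ : w₁ ≠ 0 := fun h => one_ne_zero (hli 1 0 (by rw [h]; simp))
  have hne₂ : w₂ ≠ 0 := fun h => by
    have h' := congrArg (fun z => bC.repr z l) h
    simp [hw₂, Finsupp.single_apply, hil, hil.symm] at h'
  have hcen : ∀ u u' : C, σ u = σ u' → ∀ a : K,
      (G (u' - u) : Matrix ι ι F) * (a : Matrix ι ι F) = (a : Matrix ι ι F) * (G (u' - u) : Matrix ι ι F) := by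
    intro u u' hσ a
    have hprod : G u' = G u * G (u' - u) := isRoot_unique (hGr u') (by
      have := isRoot_mul hb (hCb u) (hCb (u' - u)) (hGr u) (hGr (u' - u))
      simpa using this)
    have h : (G u : Matrix ι ι F) * (a : Matrix ι ι F) * ((G u)⁻¹ : GL ι F).val =
      (G u' : Matrix ι ι F) * (a : Matrix ι ι F) * ((G u')⁻¹ : GL ι F).val :=
        congrArg (fun f : K →ₐ[F] K => ((f a : K) : Matrix ι ι F)) hσ
    rw [hprod, _root_.mul_inv_rev, Units.val_mul, Units.val_mul] at h
    have h' := congrArg (fun M => ((G u)⁻¹ : GL ι F).val * M * (G u : Matrix ι ι F) * (G (u' - u) : Matrix ι ι F)) h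
    simp only [mul_assoc] at h'
    simpa [← mul_assoc] using h'.symm
  have hline : ∀ w : C, w ≠ 0 → (∀ a : K, (G w : Matrix ι ι F) * (a : Matrix ι ι F) = (a : Matrix ι ι F) * (G w : Matrix ι ι F)) →
      ∀ c : K, (c : Matrix ι ι F) *ᵥ b ∈ Submodule.span F ({b, (w : ι → F)} : Set (ι → F)) := by
    intro w hw hc' c
    obtain ⟨x, hx⟩ := root_moves hQ hb0 (hinj w hw) (hGr w)
    set y := (G w : Matrix ι ι F) *ᵥ x - x
    have hy : y ≠ 0 := sub_ne_zero.mpr hx
    let Φ : K →ₗ[F] Submodule.span F ({b, (w : ι → F)} : Set (ι → F)) :=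
      { toFun := fun a => ⟨(a : Matrix ι ι F) *ᵥ y, by
          have := root_sub_mem (hGr w) ((a : Matrix ι ι F) *ᵥ x)
          rwa [Matrix.mulVec_mulVec, hc' a, ← Matrix.mulVec_mulVec, ← Matrix.mulVec_sub] at this⟩
        map_add' := fun a c => Subtype.ext (by simp [Matrix.add_mulVec])
        map_smul' := fun c a => Subtype.ext (by simp [Matrix.smul_mulVec]) }
    have hΦ : Function.Injective Φ := fun a c e => by
      by_contra hne
      have h0 : ((a : Matrix ι ι F) - (c : Matrix ι ι F)) *ᵥ y = 0 := by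
        rw [Matrix.sub_mulVec, sub_eq_zero]; exact congrArg Subtype.val e
      obtain ⟨z, -, hz⟩ := hK.inv _ (K.sub_mem a.2 c.2) (sub_ne_zero.mpr fun h => hne (Subtype.ext h))
      apply hy
      rw [← Matrix.one_mulVec y, ← mul_eq_one_comm.mp hz, ← Matrix.mulVec_mulVec, h0, Matrix.mulVec_zero]
    have h1 := LinearMap.finrank_le_finrank_of_injective hΦ
    have h2 := finrank_pair_le (F := F) b (w : ι → F)
    rw [hK.finrank_eq] at h1
    obtain ⟨a, ha⟩ := (LinearMap.injective_iff_surjective_of_finrank_eq_finrank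
      (by rw [hK.finrank_eq]; omega)).mp hΦ ⟨b, Submodule.subset_span (by simp)⟩
    have hay : (a : Matrix ι ι F) *ᵥ y = b := congrArg Subtype.val ha
    have := (Φ (c * a)).2
    change ((c * a : K) : Matrix ι ι F) *ᵥ y ∈ _ at this
    rwa [MulMemClass.coe_mul, ← Matrix.mulVec_mulVec, hay] at this
  have hb_line : ∀ c : K, (c : Matrix ι ι F) *ᵥ b ∈ L := by
    intro c
    obtain ⟨s₁, r₁, h1⟩ := Submodule.mem_span_pair.mp (hline w₁ hne₁ (hcen _ _ (hi.trans hj.symm)) c)
    obtain ⟨s₂, r₂, h2⟩ := Submodule.mem_span_pair.mp (hline w₂ hne₂ (hcen _ _ (hi.trans hl.symm)) c)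
    have hmem : ((r₁ • w₁ - r₂ • w₂ : C) : ι → F) ∈ L :=
      Submodule.mem_span_singleton.mpr ⟨s₂ - s₁, by
        have e := h1.trans h2.symm
        simp only [Submodule.coe_sub, Submodule.coe_smul]
        linear_combination (norm := module) -e⟩
    have hr0 : r₁ = 0 := hli _ r₂ (by_contra fun h => hinj _ h hmem)
    rw [← h1, hr0, zero_smul, add_zero]
    exact Submodule.smul_mem _ _ (Submodule.mem_span_singleton_self b)
  let Ψ : K →ₗ[F] L :=
    { toFun := fun a => ⟨(a : Matrix ι ι F) *ᵥ b, hb_line a⟩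
      map_add' := fun a c => Subtype.ext (by simp [Matrix.add_mulVec])
      map_smul' := fun c a => Subtype.ext (by simp [Matrix.smul_mulVec]) }
  have hΨ : Function.Injective Ψ := fun a c e => by
    by_contra hne
    have h0 : ((a : Matrix ι ι F) - (c : Matrix ι ι F)) *ᵥ b = 0 := by
      rw [Matrix.sub_mulVec, sub_eq_zero]; exact congrArg Subtype.val e
    obtain ⟨z, -, hz⟩ := hK.inv _ (K.sub_mem a.2 c.2) (sub_ne_zero.mpr fun h => hne (Subtype.ext h))
    apply hb0
    rw [← Matrix.one_mulVec b, ← mul_eq_one_comm.mp hz, ← Matrix.mulVec_mulVec, h0, Matrix.mulVec_zero]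
  have h1 := LinearMap.finrank_le_finrank_of_injective hΨ
  have h5 : finrank F L ≤ 1 := (finrank_span_le_card {b}).trans (by simp)
  rw [hK.finrank_eq] at h1
  omega

/-! ### Subfield structures -/

omit [DecidableEq ι] in
theorem exists_perp_singular (hQ : (BQ).Nondegenerate) (hn : 5 ≤ Fintype.card ι) {b : ι → F} (hb0 : b ≠ 0)
    (hb : Q b = 0) : ∃ v, QuadraticMap.polar Q b v = 0 ∧ Q v = 0 ∧ v ∉ Submodule.span F ({b} : Set (ι → F)) := by
  classical
  have hI := isForm_quadratic Q hQ
  obtain ⟨d, hd⟩ := hI.exists_pairing hb0 (1 : F)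
  simp only [QuadraticMap.polarBilin_apply_apply] at hd
  obtain ⟨f, -, hp⟩ := exists_pair Q (W := ⊤) (x := d) trivial hb trivial (by rw [hd]; exact one_ne_zero)
  set S := Submodule.span F ({b, f} : Set (ι → F))
  set X := perp BQ S
  have h3 := hI.finrank_perp S
  have h4 : finrank F S ≤ 2 := finrank_pair_le b f
  rw [Module.finrank_pi] at h3
  change finrank F X + _ = _ at h3
  obtain ⟨v, hv0, hQv⟩ := exists_singular_of_three_le (Q.comp X.subtype) (by omega)
  have h := mem_perp_span.mp v.2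
  refine ⟨v, by simpa using h b (by simp), by simpa using hQv, fun hmem => ?_⟩
  obtain ⟨c, hc⟩ := Submodule.mem_span_singleton.mp hmem
  have h' : QuadraticMap.polar Q f (v : ι → F) = 0 := by simpa using h f (by simp)
  rw [← hc, QuadraticMap.polar_smul_right, QuadraticMap.polar_comm, hp.ef, smul_eq_mul, mul_one] at h'
  exact hv0 (Subtype.ext (by rw [← hc, h', zero_smul]; rfl))

/-- A proper subfield structure does not contain `Ω`. -/
theorem not_le_subfield (hQ : (BQ).Nondegenerate) (hn : 7 ≤ Fintype.card ι)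
    {F₀ : Subfield F} (hF₀ : F₀ ≠ ⊤) (P : GL ι F) : ¬ Ωg ≤ Cfsg.Geo.subfieldSubgroup F₀ P := by
  classical
  intro hle
  haveI hp : Fact (ringChar F).Prime := ⟨CharP.char_is_prime F _⟩
  have hmem : ∀ g ∈ Ωg, g ^ ringChar F = 1 → ∀ i j, ((P⁻¹ * g * P : GL ι F) : Matrix ι ι F) i j ∈ F₀ := by
    intro g hg hgp
    obtain ⟨x, hx, hxg⟩ := Subgroup.mem_map.mp (hle hg)
    obtain ⟨A, hA, z, hz, rfl⟩ := Subgroup.mem_sup_of_normal_right.mp hx
    obtain ⟨A, rfl⟩ := hA
    obtain ⟨c, hc⟩ := (Cfsg.Geo.mem_scalars_iff z).mp hz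
    set h := Matrix.GeneralLinearGroup.map (F₀.subtype : F₀ →+* F) A * z with hh
    have e : P⁻¹ * g * P = h := by
      rw [← hxg]; simp [mul_assoc]
    have hm : (h : Matrix ι ι F) = (c : F) • (A : Matrix ι ι F₀).map F₀.subtype := by
      rw [hh, Units.val_mul, hc, Matrix.mul_smul, Matrix.mul_one]
      rfl
    have hp1 : h ^ ringChar F = 1 := by
      have := conj_pow (a := P⁻¹) (b := g) (i := ringChar F)
      rw [inv_inv] at this
      rw [← e, this, hgp]
      simp
    have hcF : (c : F) ∈ F₀ := by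
      have h1 := congrArg (fun z : GL ι F => (z : Matrix ι ι F)) hp1
      rw [Units.val_pow_eq_pow_val, hm, smul_pow, ← RingHom.mapMatrix_apply, ← map_pow, Units.val_one] at h1
      haveI : Nonempty ι := Fintype.card_pos_iff.mp (by omega)
      obtain ⟨i⟩ := (inferInstance : Nonempty ι)
      have h2 := congrFun (congrFun h1 i) i
      rw [Matrix.smul_apply, RingHom.mapMatrix_apply, Matrix.map_apply, Matrix.one_apply_eq, smul_eq_mul] at h2
      have hcp : (c : F) ^ ringChar F ∈ F₀ := by
        rw [eq_inv_of_mul_eq_one_left h2]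
        exact inv_mem (SetLike.coe_mem _)
      haveI : CharP F₀ (ringChar F) := (F₀.subtype).charP F₀.subtype.injective _
      obtain ⟨d, hd⟩ := (Finite.injective_iff_surjective.mp (frobenius_inj F₀ (ringChar F))) ⟨_, hcp⟩
      have : (d : F) = c := frobenius_inj F (ringChar F) (by
        have := congrArg Subtype.val hd
        simpa [frobenius_def] using this)
      exact this ▸ d.2
    intro i j
    rw [e, hm, Matrix.smul_apply, smul_eq_mul, Matrix.map_apply]
    exact mul_mem hcF (SetLike.coe_mem _)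
  obtain ⟨b, hb0, hb⟩ := exists_singular_of_three_le Q (by rw [Module.finrank_pi]; omega)
  obtain ⟨v, hbv, hQv, hvb⟩ := exists_perp_singular hQ (by omega) hb0 hb
  let T : (ι → F) →ₗ[F] (ι → F) :=
    (QuadraticMap.polarBilin Q b).smulRight v - (QuadraticMap.polarBilin Q v).smulRight b
  set N := ((P⁻¹ : GL ι F) : Matrix ι ι F) * LinearMap.toMatrix' T * (P : Matrix ι ι F)
  have hone : ∀ i j, ((1 : Matrix ι ι F) i j) ∈ F₀ := fun i j => by
    rw [Matrix.one_apply]; split_ifs
    · exact one_mem _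
    · exact zero_mem _
  have hsc : ∀ (s : F) i j, s * N i j ∈ F₀ := by
    intro s
    have hbs : QuadraticMap.polar Q b (s • v) = 0 := by rw [QuadraticMap.polar_smul_right, hbv, smul_zero]
    obtain ⟨g, hg, hgr⟩ := exists_root hQ hn hb hbs
    have hdiff : (g : Matrix ι ι F) - 1 = s • LinearMap.toMatrix' T := by
      refine Matrix.ext_of_mulVec_single fun i => ?_
      rw [Matrix.sub_mulVec, hgr, Matrix.one_mulVec, Matrix.smul_mulVec, LinearMap.toMatrix'_mulVec, eichlerMap_apply,
        QuadraticMap.map_smul, hQv, QuadraticMap.polar_smul_left, smul_zero, zero_mul, add_zero]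
      simp only [T, LinearMap.sub_apply, LinearMap.smulRight_apply, QuadraticMap.polarBilin_apply_apply, smul_eq_mul]
      module
    intro i j
    have h := sub_mem (hmem g hg (isRoot_pow_char hb hbs hgr) i j) (hone i j)
    have hP : ((P⁻¹ : GL ι F) : Matrix ι ι F) * (1 : Matrix ι ι F) * (P : Matrix ι ι F) = 1 := by simp
    rwa [← Matrix.sub_apply, Units.val_mul, Units.val_mul, ← hP, ← Matrix.sub_mul, ← Matrix.mul_sub, hdiff,
      Matrix.mul_smul, Matrix.smul_mul, Matrix.smul_apply, smul_eq_mul] at h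
  have hN : N = 0 := by
    ext i j
    rw [Matrix.zero_apply]
    by_contra h0
    refine hF₀ (eq_top_iff.mpr fun z _ => ?_)
    have h := mul_mem (hsc z i j) (inv_mem (hsc 1 i j))
    rwa [show z * N i j * (1 * N i j)⁻¹ = z by field_simp] at h
  have hT : LinearMap.toMatrix' T = 0 := by
    have : (P : Matrix ι ι F) * N * ((P⁻¹ : GL ι F) : Matrix ι ι F) = LinearMap.toMatrix' T := by
      simp [N, mul_assoc]
    rw [← this, hN, Matrix.mul_zero, Matrix.zero_mul]
  have hT0 : T = 0 := LinearMap.toMatrix'.injective (by rw [hT, map_zero])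
  obtain ⟨x, hx⟩ := (isForm_quadratic Q hQ).exists_pairing hb0 (1 : F)
  simp only [QuadraticMap.polarBilin_apply_apply] at hx
  have h := LinearMap.congr_fun hT0 x
  simp only [T, LinearMap.sub_apply, LinearMap.smulRight_apply, QuadraticMap.polarBilin_apply_apply, hx, one_smul,
    LinearMap.zero_apply, sub_eq_zero] at h
  exact hvb (h ▸ Submodule.smul_mem _ _ (Submodule.mem_span_singleton_self b))

end Cfsg.Agent.GeomClasses.EvenTen
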