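import Cfsg.Agent.GeomClasses.EvenTen.Basic
import Cfsg.Agent.GeomClasses.Aschbacher.Rel.Subfield
import Cfsg.Agent.GeomClasses.OrthSubfield

/-! # The subfield class for quadratic forms of minus type in dimension ten -/

set_option autoImplicit false

namespace Cfsg.Agent.GeomClasses.EvenTen

open Module Matrix Cfsg.Geo Cfsg.Agent.Forms
open Cfsg.Agent.GeomClasses.AschRel
open Cfsg.Agent.GeomClasses.SubfieldSL (Rat')
open Cfsg.Agent.GeomClasses

variable {F : Type*} [Field F] [Fintype F]

/-- Every quadratic over a subfield of index two has a root. -/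
theorem exists_root_quadratic {K L : Type*} [Field K] [Field L] [Finite L] [Algebra K L]
    (h2 : finrank K L = 2) (b c : K) : ∃ t : L, t ^ 2 + algebraMap K L b * t + algebraMap K L c = 0 := by
  set p : Polynomial K := Polynomial.X ^ 2 + Polynomial.C b * Polynomial.X + Polynomial.C c with hp
  have hdeg : p.natDegree = 2 := by rw [hp]; compute_degree!
  have hmon : p.Monic := by rw [hp]; monicity!
  by_cases hroot : ∃ t : K, p.IsRoot t
  · obtain ⟨t, ht⟩ := hroot
    refine ⟨algebraMap K L t, ?_⟩
    have h := congrArg (algebraMap K L) (show p.eval t = 0 from ht)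
    simpa [hp] using h
  · have hirr : Irreducible p := by
      refine (hmon.irreducible_iff_roots_eq_zero_of_degree_le_three (by omega) (by omega)).mpr ?_
      exact Multiset.eq_zero_of_forall_notMem fun t ht => hroot ⟨t, (Polynomial.mem_roots hmon.ne_zero).mp ht⟩
    haveI := Fact.mk hirr
    have hfr : finrank K (AdjoinRoot p) = 2 := by
      rw [(AdjoinRoot.powerBasis hmon.ne_zero).finrank, AdjoinRoot.powerBasis_dim, hdeg]
    obtain ⟨f⟩ := FiniteField.nonempty_algHom_of_finrank_dvd (K := AdjoinRoot p) (L := L)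
      (by rw [hfr, h2])
    refine ⟨f (AdjoinRoot.root p), ?_⟩
    have h : Polynomial.aeval (f (AdjoinRoot.root p)) p = 0 := by
      rw [Polynomial.aeval_algHom_apply, AdjoinRoot.aeval_eq, AdjoinRoot.mk_self, map_zero]
    simpa [hp] using h

/-- Vectors independent over a subfield are independent over the field. -/
theorem linearIndependent_emb {ι κ : Type} [Fintype ι] [DecidableEq ι] [Fintype κ] {F₁ : Subfield F}
    {v : κ → ι → F₁} (hv : LinearIndependent F₁ v) :
    LinearIndependent F fun k => OrthSub.emb F₁ (v k) := by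
  classical
  obtain ⟨g, hg⟩ := LinearMap.exists_leftInverse_of_injective (Fintype.linearCombination F₁ v)
    (LinearMap.ker_eq_bot.mpr hv.fintypeLinearCombination_injective)
  have hgv : ∀ k, g (v k) = Pi.single k 1 := fun k => by
    have h := LinearMap.congr_fun hg (Pi.single k 1)
    rwa [LinearMap.comp_apply, Fintype.linearCombination_apply_single, one_smul, LinearMap.id_apply] at h
  set G : Matrix κ ι F := (LinearMap.toMatrix' g).map F₁.subtype
  have hG : ∀ k, G *ᵥ OrthSub.emb F₁ (v k) = Pi.single k 1 := by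
    intro k
    funext i
    have h := congrArg F₁.subtype (congrFun ((LinearMap.toMatrix'_mulVec g (v k)).trans (hgv k)) i)
    rw [RingHom.map_mulVec] at h
    refine h.trans ?_
    rcases eq_or_ne i k with rfl | hik
    · simp
    · simp [hik]
  rw [Fintype.linearIndependent_iff]
  intro a ha k
  have h := congrFun (congrArg (fun w => G *ᵥ w) ha) k
  simp only [Matrix.mulVec_sum, Matrix.mulVec_smul, hG, Matrix.mulVec_zero, Finset.sum_apply,
    Pi.smul_apply, smul_eq_mul, Pi.zero_apply] at h
  rwa [Finset.sum_eq_single k (fun b _ hb => by rw [Pi.single_eq_of_ne hb.symm, mul_zero])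
    (fun hk => absurd (Finset.mem_univ k) hk), Pi.single_eq_same, mul_one] at h

/-- Singular subspaces of a non-degenerate form in dimension ten up to dimension four. -/
theorem exists_singular_four {K V : Type*} [Field K] [Finite K] [AddCommGroup V] [Module K V]
    [FiniteDimensional K V] {q : QuadraticForm K V} (hq : (QuadraticMap.polarBilin q).Nondegenerate)
    (h10 : finrank K V = 10) : ∀ k, k ≤ 4 →
    ∃ U : Submodule K V, finrank K U = k ∧ ∀ u ∈ U, q u = 0 := by
  intro k
  induction k with
  | zero => exact fun _ => ⟨⊥, finrank_bot K V, fun u hu => by rw [(Submodule.mem_bot K).mp hu, map_zero]⟩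
  | succ k ih =>
    intro hk
    obtain ⟨U, hU, hsing⟩ := ih (by omega)
    obtain ⟨Z, hZ⟩ := Submodule.exists_isCompl U
    have hd : 3 ≤ finrank K ↥(perp (QuadraticMap.polarBilin q) U ⊓ Z) := by
      have h1 := Submodule.finrank_sup_add_finrank_inf_eq (perp (QuadraticMap.polarBilin q) U) Z
      have h2 := (isForm_quadratic q hq).finrank_perp U
      have h3 := Submodule.finrank_add_eq_of_isCompl hZ
      have h4 := Submodule.finrank_le (perp (QuadraticMap.polarBilin q) U ⊔ Z)
      omega
    obtain ⟨s, ⟨hsp, hsZ⟩, hs0, hqs⟩ := exists_singular_mem (Q := q) hd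
    have hdis : U ⊓ Submodule.span K {s} = ⊥ := by
      refine le_bot_iff.mp ((inf_le_inf_left U ?_).trans hZ.inf_eq_bot.le)
      exact (Submodule.span_singleton_le_iff_mem _ _).mpr hsZ
    refine ⟨U ⊔ Submodule.span K {s}, ?_, ?_⟩
    · have h1 := Submodule.finrank_sup_add_finrank_inf_eq U (Submodule.span K {s})
      rw [hdis, finrank_bot, finrank_span_singleton hs0] at h1
      omega
    · intro u hu
      obtain ⟨a, ha, b, hb, rfl⟩ := Submodule.mem_sup.mp hu
      obtain ⟨c, rfl⟩ := Submodule.mem_span_singleton.mp hb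
      have hp : QuadraticMap.polar q a s = 0 := hsp a ha
      simp [QuadraticMap.map_add q, QuadraticMap.map_smul, hsing a ha, hqs, hp,
        QuadraticMap.polar_smul_right]

set_option maxHeartbeats 800000 in
/-- A rational form over a subfield of index two has a singular five-space. -/
theorem exists_five {T : QuadraticForm F (Fin 10 → F)} (hT : (QuadraticMap.polarBilin T).Nondegenerate)
    {F₁ : Subfield F} (hrat : OrthSub.RatForm T F₁) (hcard : Fintype.card F = Nat.card F₁ ^ 2) :
    ∃ U : Submodule F (Fin 10 → F), finrank F U = 5 ∧ ∀ u ∈ U, T u = 0 := by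
  classical
  haveI : Fintype F₁ := Fintype.ofFinite _
  have hfr : finrank F₁ F = 2 := by
    have h := Module.card_eq_pow_finrank (K := F₁) (V := F)
    rw [hcard, Nat.card_eq_fintype_card] at h
    exact (Nat.pow_right_injective Fintype.one_lt_card h).symm
  set q := OrthSub.ratQ hrat with hqdef
  have hq := OrthSub.ratQ_nondegenerate hT hrat
  have h10 : finrank F₁ (Fin 10 → F₁) = 10 := by rw [Module.finrank_pi, Fintype.card_fin]
  obtain ⟨U, hU, hsing⟩ := exists_singular_four hq h10 4 le_rfl
  obtain ⟨Z, hZ⟩ := Submodule.exists_isCompl U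
  obtain ⟨C, hC⟩ : ∃ C, C = perp (QuadraticMap.polarBilin q) U ⊓ Z := ⟨_, rfl⟩
  have hCmem : ∀ x : C, (x : Fin 10 → F₁) ∈ perp (QuadraticMap.polarBilin q) U ∧
      (x : Fin 10 → F₁) ∈ Z := fun x => Submodule.mem_inf.mp (hC.le x.2)
  have hC2 : 2 ≤ finrank F₁ C := by
    have h1 := Submodule.finrank_sup_add_finrank_inf_eq (perp (QuadraticMap.polarBilin q) U) Z
    have h2 := (isForm_quadratic q hq).finrank_perp U
    have h3 := Submodule.finrank_add_eq_of_isCompl hZ
    have h4 := Submodule.finrank_le (perp (QuadraticMap.polarBilin q) U ⊔ Z)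
    rw [hC]
    omega
  obtain ⟨k, hk⟩ : ∃ k : Fin 2 → C, LinearIndependent F₁ k :=
    ⟨_, (finBasis F₁ C).linearIndependent.comp (Fin.castLE hC2) (Fin.castLE_injective hC2)⟩
  let b : Basis (Fin 4) F₁ U := finBasisOfFinrankEq F₁ U hU
  let v : Fin 4 ⊕ Fin 2 → Fin 10 → F₁ := Sum.elim (fun i => (b i : Fin 10 → F₁)) fun j => (k j : Fin 10 → F₁)
  have hv : LinearIndependent F₁ v := by
    refine LinearIndependent.sum_type (b.linearIndependent.map' U.subtype U.ker_subtype)
      (hk.map' C.subtype C.ker_subtype) ?_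
    refine hZ.disjoint.mono ?_ ?_ <;> rw [Submodule.span_le] <;> rintro _ ⟨i, rfl⟩
    · exact (b i).2
    · exact (hCmem (k i)).2
  have hli := Fintype.linearIndependent_iff.mp (linearIndependent_emb hv)
  -- a singular vector in the plane
  set k0 := OrthSub.emb F₁ (k 0 : Fin 10 → F₁)
  set k1 := OrthSub.emb F₁ (k 1 : Fin 10 → F₁)
  obtain ⟨α, β, hαβ, hT0⟩ : ∃ α β : F, (α ≠ 0 ∨ β ≠ 0) ∧ T (α • k0 + β • k1) = 0 := by
    by_cases hk1 : q (k 1 : Fin 10 → F₁) = 0
    · refine ⟨0, 1, Or.inr one_ne_zero, ?_⟩
      rw [zero_smul, zero_add, one_smul, ← OrthSub.coe_ratQ hrat, hk1]; rfl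
    · obtain ⟨t, ht⟩ := exists_root_quadratic (L := F) hfr
        (QuadraticMap.polar q (k 0 : Fin 10 → F₁) (k 1 : Fin 10 → F₁) / q (k 1 : Fin 10 → F₁))
        (q (k 0 : Fin 10 → F₁) / q (k 1 : Fin 10 → F₁))
      refine ⟨1, t, Or.inl one_ne_zero, ?_⟩
      have hne : T (OrthSub.emb F₁ (k 1 : Fin 10 → F₁)) ≠ 0 := fun h => hk1 (Subtype.ext h)
      have e : ∀ a : F₁, algebraMap F₁ F a = (a : F) := fun _ => rfl
      rw [e, e, Subfield.coe_div, Subfield.coe_div, OrthSub.coe_ratQ_polar, OrthSub.coe_ratQ,
        OrthSub.coe_ratQ] at ht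
      rw [Cfsg.Agent.Forms.map_smul_add_smul]
      simp only [k0, k1]
      field_simp at ht
      linear_combination ht
  let w : Option (Fin 4) → Fin 10 → F :=
    fun o => o.elim (α • k0 + β • k1) fun i => OrthSub.emb F₁ (b i : Fin 10 → F₁)
  have hw : LinearIndependent F w := by
    rw [Fintype.linearIndependent_iff]
    intro a ha
    have h := hli (Sum.elim (fun i => a (some i)) ![a none * α, a none * β]) (by
      rw [← ha, Fintype.sum_sum_type, Fintype.sum_option, Fin.sum_univ_two]
      simp only [Sum.elim_inl, Sum.elim_inr, Matrix.cons_val_zero, Matrix.cons_val_one, w, v, Option.elim_none,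
        Option.elim_some, smul_add, smul_smul, k0, k1]
      abel)
    rintro (_ | i)
    · have h0 : a none * α = 0 := by simpa using h (Sum.inr 0)
      have h1 : a none * β = 0 := by simpa using h (Sum.inr 1)
      rcases hαβ with hne | hne
      · exact (mul_eq_zero.mp h0).resolve_right hne
      · exact (mul_eq_zero.mp h1).resolve_right hne
    · simpa using h (Sum.inl i)
  refine ⟨Submodule.span F (Set.range w), by rw [finrank_span_eq_card hw]; simp, ?_⟩
  have hbb : ∀ i j, QuadraticMap.polar T (OrthSub.emb F₁ (b i : Fin 10 → F₁)) (OrthSub.emb F₁ (b j : Fin 10 → F₁)) = 0 := by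
    intro i j
    rw [← OrthSub.coe_ratQ_polar hrat, QuadraticMap.polar, hsing _ (U.add_mem (b i).2 (b j).2),
      hsing _ (b i).2, hsing _ (b j).2]
    simp
  have hbk : ∀ i j, QuadraticMap.polar T (OrthSub.emb F₁ (b i : Fin 10 → F₁)) (OrthSub.emb F₁ (k j : Fin 10 → F₁)) = 0 := by
    intro i j
    rw [← OrthSub.coe_ratQ_polar hrat, show QuadraticMap.polar q (b i : Fin 10 → F₁) (k j : Fin 10 → F₁) = 0 from
      (hCmem (k j)).1 _ (b i).2]
    rfl
  have hq0 : ∀ o, T (w o) = 0 := by
    rintro (_ | i)
    · exact hT0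
    · show T (OrthSub.emb F₁ _) = 0
      rw [← OrthSub.coe_ratQ hrat, hsing _ (b i).2]; rfl
  have hpol : ∀ o o', QuadraticMap.polar T (w o) (w o') = 0 := by
    have hbn : ∀ i, QuadraticMap.polar T (w (some i)) (w none) = 0 := fun i => by
      simp [w, k0, k1, QuadraticMap.polar_add_right, OrthSub.polar_smul_right', hbk]
    rintro (_ | i) (_ | j)
    · exact OrthSub.polar_self_of_singular (hq0 none)
    · rw [QuadraticMap.polar_comm]; exact hbn j
    · exact hbn i
    · exact hbb i j
  have hperp : ∀ o, ∀ x ∈ Submodule.span F (Set.range w), QuadraticMap.polar T (w o) x = 0 := by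
    intro o x hx
    induction hx using Submodule.span_induction with
    | mem y hy => obtain ⟨o', rfl⟩ := hy; exact hpol o o'
    | zero => exact QuadraticMap.polar_zero_right T _
    | add y y' _ _ hy hy' => rw [QuadraticMap.polar_add_right, hy, hy', add_zero]
    | smul a y _ hy => rw [OrthSub.polar_smul_right', hy, mul_zero]
  have hperp' : ∀ y ∈ Submodule.span F (Set.range w), ∀ x ∈ Submodule.span F (Set.range w),
      QuadraticMap.polar T y x = 0 := by
    intro y hy x hx
    induction hy using Submodule.span_induction with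
    | mem y hy => obtain ⟨o, rfl⟩ := hy; exact hperp o x hx
    | zero => exact QuadraticMap.polar_zero_left T _
    | add y y' _ _ hy hy' => rw [QuadraticMap.polar_add_left, hy, hy', add_zero]
    | smul a y _ hy => rw [QuadraticMap.polar_smul_left, hy, smul_zero]
  intro u hu
  induction hu using Submodule.span_induction with
  | mem y hy => obtain ⟨o, rfl⟩ := hy; exact hq0 o
  | zero => exact QuadraticMap.map_zero T
  | add y y' hy hy' ih ih' => rw [QuadraticMap.map_add T, ih, ih', hperp' y hy y' hy', add_zero, add_zero]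
  | smul a y _ ih => rw [QuadraticMap.map_smul, ih, smul_zero]

variable {Q : QuadraticForm F (Fin 10 → F)}

/-- A spanning group realisable over a proper subfield leaves a multiple of the form rational. -/
theorem subfield_class (hQ : (QuadraticMap.polarBilin Q).Nondegenerate)
    (hminus : ¬ Cfsg.Geo.IsPlusTypeOn ⇑Q ⊤) {H : Subgroup (GL (Fin 10) F)} (hI : H ≤ isometryGroup F ⇑Q)
    {X : Subgroup (GL (Fin 10) F)} (hX : AschRel.Full X) (hXH : X ≤ H)
    (hnorm : ∀ g ∈ H, ∀ x ∈ X, g * x * g⁻¹ ∈ X) {F0 : Subfield F} (hF0 : F0 ≠ ⊤)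
    (hreal : RealisableOver F0 (matrixSet X)) :
    ∃ (F1 : Subfield F) (r : ℕ) (P : GL (Fin 10) F) (z : F), r.Prime ∧ Odd r ∧
      Fintype.card F = Nat.card F1 ^ r ∧ z ≠ 0 ∧ IsQuadFormRationalStructure (fun v => z * Q v) F1 P ∧
      H ≤ subfieldSubgroup F1 P := by
  classical
  obtain ⟨F1, r, P, hr, hcard, hH, hP⟩ := subfield_of_realisable hX hnorm hF0 hreal
  obtain ⟨c, B', hc, hB', -, hPB⟩ := form_rational (σ := RingEquiv.refl F) (B := qgram Q) hX
    (formData Q hQ).unit (fun x hx => matrix_eq_of_iso (iso_of_mem Q (hI (hXH hx)))) (fun a ha => ha) P hP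
  set Pm : Matrix (Fin 10) (Fin 10) F := (P : Matrix (Fin 10) (Fin 10) F) with hPm
  set Pi' : Matrix (Fin 10) (Fin 10) F := (P⁻¹ : GL (Fin 10) F).val with hPi'
  have hPPi : Pm * Pi' = 1 := P.mul_inv
  have hPiP : Pi' * Pm = 1 := P.inv_mul
  let T : QuadraticForm F (Fin 10 → F) := c⁻¹ • Q.comp (Matrix.toLin' Pm)
  have hTapp : ∀ u, T u = c⁻¹ * Q (Pm *ᵥ u) := fun u => rfl
  have hTpol : ∀ u v, QuadraticMap.polar T u v = c⁻¹ * QuadraticMap.polar Q (Pm *ᵥ u) (Pm *ᵥ v) := by
    intro u v
    simp only [QuadraticMap.polar, hTapp, Matrix.mulVec_add]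
    ring
  have hTB : ∀ u v, QuadraticMap.polar T u v = u ⬝ᵥ (B' *ᵥ v) := by
    intro u v
    rw [hTpol, polar_eq, matForm_apply, hPB, matForm, Matrix.smul_mulVec, dotProduct_smul,
      smul_eq_mul, ← mul_assoc, inv_mul_cancel₀ hc, one_mul]
    rfl
  -- rational values
  let emb := OrthSub.emb (ι := Fin 10) F1
  have hpmem : ∀ u v, QuadraticMap.polar T (emb u) (emb v) ∈ F1 := by
    intro u v
    rw [hTB]
    simp only [dotProduct, Matrix.mulVec]
    exact F1.sum_mem fun i _ => F1.mul_mem (u i).2 (F1.sum_mem fun j _ => F1.mul_mem (hB' i j) (v j).2)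
  let W : Submodule F1 (Fin 10 → F1) :=
    { carrier := {u | T (emb u) ∈ F1}
      add_mem' := fun {a b} ha hb => by
        show T (emb (a + b)) ∈ F1
        rw [map_add, QuadraticMap.map_add T]
        exact F1.add_mem (F1.add_mem ha hb) (hpmem a b)
      zero_mem' := by
        show T (emb 0) ∈ F1
        rw [map_zero, QuadraticMap.map_zero]
        exact F1.zero_mem
      smul_mem' := fun a u hu => by
        show T (emb (a • u)) ∈ F1
        rw [OrthSub.emb_smul, QuadraticMap.map_smul, smul_eq_mul]
        exact F1.mul_mem (F1.mul_mem a.2 a.2) hu }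
  let Y : GL (Fin 10) F → Matrix (Fin 10) (Fin 10) F := fun x => Pi' * (x : Matrix (Fin 10) (Fin 10) F) * Pm
  have hdiff : ∀ x ∈ X, ∀ u : Fin 10 → F1, ∃ u' : Fin 10 → F1,
      emb u' = Y x *ᵥ emb u ∧ u' - u ∈ W := by
    intro x hx u
    obtain ⟨u', hu'⟩ := OrthSub.exists_emb (F₀ := F1) (x := Y x *ᵥ emb u)
      (fun i => by
        simp only [Matrix.mulVec, dotProduct]
        exact F1.sum_mem fun j _ => F1.mul_mem (hP x hx i j) (u j).2)
    refine ⟨u', hu', ?_⟩
    show T (emb (u' - u)) ∈ F1
    have hinv : T (emb u') = T (emb u) := by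
      rw [hu', hTapp, hTapp]
      congr 1
      rw [Matrix.mulVec_mulVec, ← mul_assoc, ← mul_assoc, hPPi, one_mul, ← Matrix.mulVec_mulVec]
      exact quad_of_mem Q (hI (hXH hx)) _
    have e : T (emb (u' - u)) = QuadraticMap.polar T (emb u) (emb u) - QuadraticMap.polar T (emb u') (emb u) := by
      rw [map_sub, sub_eq_add_neg, QuadraticMap.map_add T, QuadraticMap.map_neg, hinv,
        QuadraticMap.polar_neg_right, QuadraticMap.polar_self, two_nsmul]
      ring
    rw [e]
    exact F1.sub_mem (hpmem u u) (hpmem u' u)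
  have hWtop : ∀ u, u ∈ W := by
    intro u
    by_contra hu
    obtain ⟨f, hf, hfW⟩ := Submodule.exists_dual_map_eq_bot_of_notMem hu inferInstance
    let a : Fin 10 → F := fun i => (f (Pi.single i 1) : F)
    have hfa : ∀ v : Fin 10 → F1, a ⬝ᵥ emb v = (f v : F) := by
      intro v
      conv_rhs => rw [pi_eq_sum_univ' v, map_sum, AddSubmonoidClass.coe_finsetSum]
      exact Finset.sum_congr rfl fun i _ => by
        rw [map_smul, smul_eq_mul, MulMemClass.coe_mul, mul_comm]
        rfl
    have hay : ∀ x ∈ X, a ᵥ* Y x = a := by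
      intro x hx
      funext j
      obtain ⟨u', hu', hmem⟩ := hdiff x hx (Pi.single j 1)
      have hz : f (u' - Pi.single j 1) = 0 := by
        have : f (u' - Pi.single j 1) ∈ W.map f := ⟨_, hmem, rfl⟩
        rwa [hfW, Submodule.mem_bot] at this
      rw [map_sub, sub_eq_zero] at hz
      have he : emb (Pi.single j 1) = Pi.single j 1 := by
        funext i
        show (((Pi.single j 1 : Fin 10 → F1) i : F1) : F) = _
        rcases eq_or_ne i j with rfl | hij
        · simp
        · simp [hij]
      have h1 := hfa u'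
      rw [hu', he, Matrix.dotProduct_mulVec, hz] at h1
      simpa [a] using h1
    have ha0 : a ≠ 0 := fun h => hf (Subtype.ext (by
      rw [← hfa u, h, zero_dotProduct]; rfl))
    let b : Fin 10 → F := a ᵥ* Pi'
    have hb : ∀ x ∈ X, b ᵥ* (x : Matrix (Fin 10) (Fin 10) F) = b := by
      intro x hx
      have h := congrArg (fun t => t ᵥ* Pi') (hay x hx)
      simp only [Matrix.vecMul_vecMul, Y, mul_assoc, hPPi, mul_one] at h
      simpa [b, Matrix.vecMul_vecMul] using h
    have hall : ∀ Z : Matrix (Fin 10) (Fin 10) F, b ᵥ* Z ∈ Submodule.span F {b} := by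
      intro Z
      have hZ : Z ∈ Submodule.span F (matrixSet X) := hX ▸ trivial
      induction hZ using Submodule.span_induction with
      | mem y hy => obtain ⟨x, hx, rfl⟩ := hy; rw [hb x hx]; exact Submodule.mem_span_singleton_self b
      | zero => rw [Matrix.vecMul_zero]; exact Submodule.zero_mem _
      | add y y' _ _ h h' => rw [Matrix.vecMul_add]; exact Submodule.add_mem _ h h'
      | smul t y _ h => rw [Matrix.vecMul_smul]; exact Submodule.smul_mem _ t h
    obtain ⟨i, hi⟩ : ∃ i, b i ≠ 0 := by
      by_contra h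
      push Not at h
      apply ha0
      have h1 : b ᵥ* Pm = a := by rw [Matrix.vecMul_vecMul, hPiP, Matrix.vecMul_one]
      rw [← h1, show b = 0 from funext h, Matrix.zero_vecMul]
    have hcol : ∀ j, ∃ t : F, t • b = Pi.single j 1 := by
      intro j
      refine Submodule.mem_span_singleton.mp ?_
      have h := hall (Matrix.single i j (b i)⁻¹)
      convert h using 1
      funext k
      rcases eq_or_ne k j with rfl | hkj
      · simp [Matrix.vecMul, dotProduct, Matrix.single_apply, mul_inv_cancel₀ hi]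
      · simp [Matrix.vecMul, dotProduct, Matrix.single_apply, hkj, hkj.symm]
    obtain ⟨t0, h0⟩ := hcol 0
    obtain ⟨t1, h1⟩ := hcol 1
    have e00 := congrFun h0 0
    have e01 := congrFun h0 1
    have e11 := congrFun h1 1
    simp at e00 e01 e11
    rcases e01 with e | e <;> simp [e] at e00 e11
  have hrat : OrthSub.RatForm T F1 := by
    intro v hv
    obtain ⟨u, rfl⟩ := OrthSub.exists_emb hv
    exact hWtop u
  refine ⟨F1, r, P, c⁻¹, hr, ?_, hcard, inv_ne_zero hc, fun u hu => hrat u hu, hH⟩
  rcases hr.eq_two_or_odd' with rfl | hodd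
  · exfalso
    have hTnd : (QuadraticMap.polarBilin T).Nondegenerate := by
      have hl : ∀ u, (∀ v, QuadraticMap.polarBilin T u v = 0) → u = 0 := by
        intro u hu
        have h0 : Pm *ᵥ u = 0 := hQ.1 _ fun w => by
          have h := hu (Pi' *ᵥ w)
          rw [QuadraticMap.polarBilin_apply_apply, hTpol, Matrix.mulVec_mulVec (M := Pm) (N := Pi'), hPPi,
            Matrix.one_mulVec, mul_eq_zero, or_iff_right (inv_ne_zero hc)] at h
          exact h
        have := congrArg (fun t => Pi' *ᵥ t) h0
        simpa [Matrix.mulVec_mulVec, hPiP] using this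
      exact ⟨hl, fun y hy => hl y fun x => by
        rw [QuadraticMap.polarBilin_apply_apply, QuadraticMap.polar_comm, ← QuadraticMap.polarBilin_apply_apply]
        exact hy x⟩
    obtain ⟨U, hU, hsing⟩ := exists_five hTnd hrat hcard
    refine hminus ⟨U.map (Matrix.toLin' Pm), le_top, ?_, ?_⟩
    · rintro _ ⟨u, hu, rfl⟩
      have h := hsing u hu
      rw [hTapp, mul_eq_zero, or_iff_right (inv_ne_zero hc)] at h
      simpa using h
    · have hinj : Function.Injective (Matrix.toLin' Pm) := fun s t h => by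
        have := congrArg (fun y => Pi' *ᵥ y) h
        simpa [Matrix.mulVec_mulVec, hPiP] using this
      rw [← (Submodule.equivMapOfInjective _ hinj U).finrank_eq, hU, finrank_top, Module.finrank_pi,
        Fintype.card_fin]
  · exact hodd

end Cfsg.Agent.GeomClasses.EvenTen
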