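import Cfsg.Agent.GeomClasses.EvenTen.Basic
import Cfsg.Agent.GeomClasses.Aschbacher.Rel.Pair

/-! # Tensor factors in ten-dimensional orthogonal groups -/

set_option autoImplicit false
set_option maxHeartbeats 400000

namespace Cfsg.Agent.GeomClasses.EvenTen

open Matrix Cfsg.Geo
open scoped Kronecker
open Cfsg.Agent.GeomClasses.AschRel
open Cfsg.Agent.GeomClasses.Asch (Irr Normalises conjHom conjHom_apply)

variable {F : Type*} [Field F]

theorem entry_ne {d : ℕ} (hd : 0 < d) {G : Matrix (Fin d) (Fin d) F} (hG : IsUnit G.det) :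
    ∃ i j, G i j ≠ 0 := by
  by_contra h
  push Not at h
  haveI : Nonempty (Fin d) := ⟨⟨0, hd⟩⟩
  exact hG.ne_zero (by rw [show G = 0 from Matrix.ext h, Matrix.det_zero])

/-- An invertible symmetric matrix of odd size over a field of characteristic two is not alternating. -/
theorem diag_ne {d : ℕ} (hd : Odd d) (h20 : (2 : F) = 0) {G : Matrix (Fin d) (Fin d) F}
    (hG : IsUnit G.det) (hs : ∀ i j, G i j = G j i) : ∃ i, G i i ≠ 0 := by
  classical
  by_contra hd0
  push Not at hd0
  refine hG.ne_zero ?_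
  rw [Matrix.det_apply']
  refine Finset.sum_involution (fun p _ => p⁻¹) (fun p _ => ?_) (fun p _ hp e => hp ?_)
    (fun p _ => Finset.mem_univ _) fun p _ => inv_inv p
  · have e : ∏ i, G (p⁻¹ i) i = ∏ i, G (p i) i :=
      Fintype.prod_equiv p⁻¹ _ _ fun i => by
        show G (p⁻¹ i) i = G (p (p⁻¹ i)) (p⁻¹ i)
        rw [← Equiv.Perm.mul_apply, mul_inv_cancel, Equiv.Perm.one_apply, hs]
    rw [Equiv.Perm.sign_inv, e]
    linear_combination (((Equiv.Perm.sign p : ℤ) : F) * ∏ i, G (p i) i) * h20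
  · have h2 : p ^ 2 = 1 := by
      rw [pow_two]
      conv_lhs => arg 1; rw [← show p⁻¹ = p from e]
      exact inv_mul_cancel p
    haveI : Fact (Nat.Prime 2) := ⟨Nat.prime_two⟩
    have hnd : ¬ 2 ∣ Fintype.card (Fin d) := by
      rw [Fintype.card_fin]
      exact fun h => (Nat.not_even_iff_odd.mpr hd) (even_iff_two_dvd.mpr h)
    obtain ⟨i, hi⟩ := Equiv.Perm.exists_fixed_point_of_prime hnd (σ := p) (n := 1) (by simpa using h2)
    rw [Finset.prod_eq_zero (Finset.mem_univ i) (by rw [hi, hd0]), mul_zero]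

variable [Fintype F]

/-- A symmetric factor with a non-zero diagonal gives an invariant subspace in characteristic two. -/
theorem hyperplane {ι : Type} [Fintype ι] [DecidableEq ι] {B : Matrix ι ι F} {K : Subgroup (GL ι F)}
    (hK : ∀ g ∈ K, IsSim (RingEquiv.refl F) B g)
    (hirr : Irr ((fun g : (Module.End F (ι → F))ˣ => (g : Module.End F (ι → F))) '' (gu '' (K : Set _))))
    (h20 : (2 : F) = 0) {d e : ℕ} (he : 2 ≤ e) (b : Module.Basis (Fin d × Fin e) F (ι → F)) {c : F} (hc : c ≠ 0)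
    (GA : Matrix (Fin d) (Fin d) F) (GC : GL (Fin e) F) (hGA : ∃ i j, GA i j ≠ 0)
    (hsymm : ∀ i j, (GC : Matrix (Fin e) (Fin e) F) i j = (GC : Matrix (Fin e) (Fin e) F) j i)
    (hdiag : ∃ i, (GC : Matrix (Fin e) (Fin e) F) i i ≠ 0)
    (hf : ∀ x y, matForm (RingEquiv.refl F) B (b x) (b y) =
      c * (GA x.1 y.1 * (GC : Matrix (Fin e) (Fin e) F) x.2 y.2))
    (hcoord : ∀ g ∈ K, ∃ (c' : F) (a : GL (Fin d) F) (a' : GL (Fin e) F), c' ≠ 0 ∧
      (coordGL b g : Matrix (Fin d × Fin e) (Fin d × Fin e) F) =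
        c' • ((a : Matrix (Fin d) (Fin d) F) ⊗ₖ (a' : Matrix (Fin e) (Fin e) F))) : False := by
  classical
  set G := (GC : Matrix (Fin e) (Fin e) F)
  let q : (Fin e → F) → F := fun v => v ⬝ᵥ (G *ᵥ v)
  have hqadd : ∀ u v, q (u + v) = q u + q v := by
    intro u v
    simp only [q, Matrix.mulVec_add, add_dotProduct, dotProduct_add]
    have : u ⬝ᵥ (G *ᵥ v) = v ⬝ᵥ (G *ᵥ u) := by
      rw [Matrix.dotProduct_mulVec u, dotProduct_comm, ← Matrix.mulVec_transpose,
        show Gᵀ = G from Matrix.ext fun i j => hsymm j i]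
    rw [this]
    linear_combination (v ⬝ᵥ (G *ᵥ u)) * h20
  have hqsm : ∀ (s : F) v, q (s • v) = s * s * q v := fun s v => by
    simp only [q, Matrix.mulVec_smul, smul_dotProduct, dotProduct_smul, smul_eq_mul]; ring
  let Wc : Submodule F (Fin e → F) :=
    { carrier := {v | q v = 0}
      add_mem' := fun {u v} hu hv => by
        show q (u + v) = 0
        rw [hqadd, show q u = 0 from hu, show q v = 0 from hv, add_zero]
      zero_mem' := by simp [q]
      smul_mem' := fun s v hv => by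
        show q (s • v) = 0
        rw [hqsm, show q v = 0 from hv, mul_zero] }
  let col : Fin d → ((ι → F) →ₗ[F] (Fin e → F)) := fun i =>
    { toFun := fun v k => b.repr v (i, k)
      map_add' := fun u v => by funext k; simp
      map_smul' := fun s v => by funext k; simp }
  let W : Submodule F (ι → F) := ⨅ i, Wc.comap (col i)
  have hinv : ∀ g ∈ K, ∀ w ∈ W, (g : Matrix ι ι F) *ᵥ w ∈ W := by
    intro g hg w hw
    obtain ⟨c', a, a', hc', hga⟩ := hcoord g hg
    obtain ⟨μ, hμ0, hμ⟩ := hK g hg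
    set A := (a : Matrix (Fin d) (Fin d) F)
    set A' := (a' : Matrix (Fin e) (Fin e) F)
    have hprod : ∀ (y y' : Fin d × Fin e),
        c' * c' * ((Aᵀ * GA * A) y.1 y'.1 * (A'ᵀ * G * A') y.2 y'.2) = μ * (GA y.1 y'.1 * G y.2 y'.2) := by
      intro y y'
      refine mul_left_cancel₀ hc ?_
      have e1 := hμ (b y) (b y')
      rw [image_basis b g y, image_basis b g y', mf_sum_left] at e1
      simp only [mf_smul_left, mf_sum_right, mf_smul_right, hga, hf, RingEquiv.refl_apply, Matrix.smul_apply,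
        smul_eq_mul, Finset.mul_sum] at e1
      have ek : (Aᵀ * GA * A) y.1 y'.1 * (A'ᵀ * G * A') y.2 y'.2 =
          ((A ⊗ₖ A')ᵀ * (GA ⊗ₖ G) * (A ⊗ₖ A') : Matrix (Fin d × Fin e) (Fin d × Fin e) F) y y' := by
        rw [← Matrix.kroneckerMap_transpose, ← Matrix.mul_kronecker_mul, ← Matrix.mul_kronecker_mul,
          Matrix.kroneckerMap_apply]
      rw [ek]
      refine Eq.trans ?_ (e1.trans (by ring))
      simp only [Matrix.mul_apply, Matrix.transpose_apply, Finset.sum_mul, Finset.mul_sum]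
      rw [Finset.sum_comm]
      refine Finset.sum_congr rfl fun x _ => Finset.sum_congr rfl fun x' _ => ?_
      simp only [Matrix.kroneckerMap_apply]
      ring
    obtain ⟨i₀, j₀, hij⟩ := hGA
    obtain ⟨ν, hν⟩ : ∃ ν, A'ᵀ * G * A' = ν • G := by
      obtain ⟨k, hk⟩ := hdiag
      have h0 : c' * c' * (Aᵀ * GA * A) i₀ j₀ ≠ 0 := by
        intro h0
        have := hprod (i₀, k) (j₀, k)
        simp only [← mul_assoc] at this
        rw [h0, zero_mul] at this
        exact mul_ne_zero (mul_ne_zero hμ0 hij) hk this.symm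
      refine ⟨μ * GA i₀ j₀ / (c' * c' * (Aᵀ * GA * A) i₀ j₀), Matrix.ext fun k l => ?_⟩
      rw [Matrix.smul_apply, smul_eq_mul, div_mul_eq_mul_div, eq_div_iff h0]
      linear_combination hprod (i₀, k) (j₀, l)
    have hWc : ∀ v ∈ Wc, A' *ᵥ v ∈ Wc := by
      intro v hv
      show q (A' *ᵥ v) = 0
      simp only [q]
      rw [Matrix.mulVec_mulVec, ← Matrix.vecMul_transpose, ← Matrix.dotProduct_mulVec, Matrix.mulVec_mulVec,
        ← mul_assoc, hν, Matrix.smul_mulVec, dotProduct_smul, show v ⬝ᵥ (G *ᵥ v) = 0 from hv, smul_zero]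
    simp only [W, Submodule.mem_iInf, Submodule.mem_comap] at hw ⊢
    intro i
    have e : col i ((g : Matrix ι ι F) *ᵥ w) = ∑ j, (c' * A i j) • (A' *ᵥ col j w) := by
      funext k
      show b.repr ((g : Matrix ι ι F) *ᵥ w) (i, k) = _
      rw [image_coord, hga, Fintype.sum_prod_type, Finset.sum_apply]
      refine Finset.sum_congr rfl fun j _ => ?_
      rw [Pi.smul_apply, smul_eq_mul]
      show _ = c' * A i j * ∑ l, A' k l * b.repr w (j, l)
      rw [Finset.mul_sum]
      refine Finset.sum_congr rfl fun l _ => ?_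
      simp only [Matrix.smul_apply, Matrix.kroneckerMap_apply, smul_eq_mul, A, A']
      ring
    rw [e]
    exact Submodule.sum_mem _ fun j _ => Submodule.smul_mem _ _ (hWc _ (hw j))
  have hq1 : ∀ k, q (Pi.single k 1) = G k k := fun k => by simp [q]
  have hd : 0 < d := by obtain ⟨i, -⟩ := hGA; exact i.pos
  let i₁ : Fin d := ⟨0, hd⟩
  obtain ⟨k, hk⟩ := hdiag
  rcases hirr W (by
    rintro _ ⟨_, ⟨g, hg, rfl⟩, rfl⟩ w hw
    show (gu g : Module.End F (ι → F)) w ∈ W
    rw [gu_apply]; exact hinv g hg w hw) with h | h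
  · obtain ⟨l, hl⟩ : ∃ l : Fin e, l ≠ k := by
      haveI : Nontrivial (Fin e) := Fin.nontrivial_iff_two_le.mpr he
      exact exists_ne k
    have hc2 : ringChar F = 2 := by
      haveI : CharP F 2 := (CharP.charP_iff_prime_eq_zero Nat.prime_two).mpr (by exact_mod_cast h20)
      exact ringChar.eq F 2
    obtain ⟨s, hs⟩ := FiniteField.isSquare_of_char_two hc2 (G l l / G k k)
    set v : Fin e → F := s • Pi.single k 1 + Pi.single l 1
    have hv : v ∈ Wc := by
      show q _ = 0
      rw [hqadd, hqsm, hq1, hq1, ← hs, div_mul_cancel₀ _ hk]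
      linear_combination (G l l) * h20
    have hv0 : v ≠ 0 := fun h0 => by
      have := congrFun h0 l
      simp [v, hl] at this
    let z : ι → F := ∑ k, v k • b (i₁, k)
    have hz : z ∈ W := by
      simp only [W, Submodule.mem_iInf, Submodule.mem_comap]
      intro i
      by_cases hi : i = i₁
      · subst hi
        have : col i₁ z = v := by funext k; simp [col, z, Finsupp.single_apply, Prod.ext_iff]
        rw [this]; exact hv
      · have : col i z = 0 := by funext k; simp [col, z, Finsupp.single_apply, Prod.ext_iff, Ne.symm hi]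
        rw [this]; exact zero_mem _
    rw [h, Submodule.mem_bot] at hz
    apply hv0
    funext k
    have := congrArg (fun y => b.repr y (i₁, k)) hz
    simpa [z, Finsupp.single_apply, Prod.ext_iff] using this
  · have hb : b (i₁, k) ∈ W := by rw [h]; trivial
    simp only [W, Submodule.mem_iInf, Submodule.mem_comap] at hb
    have hb1 : q (col i₁ (b (i₁, k))) = 0 := hb i₁
    rw [show col i₁ (b (i₁, k)) = Pi.single k 1 by
      funext l; simp [col, Finsupp.single_apply, Prod.ext_iff, Pi.single_apply, eq_comm], hq1] at hb1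
    exact hk hb1

variable {Q : QuadraticForm F (Fin 10 → F)}

local notation "ι" => Fin 10
local notation "σr" => RingEquiv.refl F
local notation "Bq" => qgram Q
local notation "fq" => matForm (RingEquiv.refl F) (qgram Q)

/-- A factor of size two next to one of size five. -/
theorem two_five (hQ : (QuadraticMap.polarBilin Q).Nondegenerate) {K : Subgroup (GL ι F)}
    (hsim : ∀ g ∈ K, IsSim σr Bq g)
    (hirr : Irr ((fun g : (Module.End F (ι → F))ˣ => (g : Module.End F (ι → F))) '' (gu '' (K : Set _))))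
    (φA : Matrix (Fin 2) (Fin 2) F →ₐ[F] Module.End F (ι → F))
    (φC : Matrix (Fin 5) (Fin 5) F →ₐ[F] Module.End F (ι → F)) (hAC : ∀ X Y, Commute (φA X) (φC Y))
    (hirr2 : Irr (Set.range φA ∪ Set.range φC))
    (hA : ∀ g ∈ K, ∀ X, (gu g : Module.End F (ι → F)) * φA X * ((gu g)⁻¹).val ∈ Set.range φA)
    (hC : ∀ g ∈ K, ∀ X, (gu g : Module.End F (ι → F)) * φC X * ((gu g)⁻¹).val ∈ Set.range φC)
    (hclA : ∀ X, st σr Bq (φA X) ∈ Set.range φA) (hclC : ∀ X, st σr Bq (φC X) ∈ Set.range φC) :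
    ∃ E : Subalgebra F (Module.End F (ι → F)), (∀ x ∈ E, ∀ y ∈ E, x * y = y * x) ∧
      (∀ g ∈ K, Normalises E (gu g)) ∧ (∀ x ∈ E, st σr Bq x ∈ E) ∧ ∃ x ∈ E, ∀ c : F, x ≠ algebraMap F _ c := by
  classical
  have hB := formData Q hQ
  have hinjA : Function.Injective φA := RingHom.injective φA.toRingHom
  have hinjC : Function.Injective φC := RingHom.injective φC.toRingHom
  obtain ⟨GA, νA, -, hGA, hνA⟩ := exists_factor_gram hB (by omega) φA hinjA hclA
  obtain ⟨GC, νC, -, hGC, hνC⟩ := exists_factor_gram hB (by omega) φC hinjC hclC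
  set A := (GA : Matrix (Fin 2) (Fin 2) F)
  set C := (GC : Matrix (Fin 5) (Fin 5) F)
  have uA : IsUnit A.det := (Matrix.isUnit_iff_isUnit_det _).mp GA.isUnit
  have uC : IsUnit C.det := (Matrix.isUnit_iff_isUnit_det _).mp GC.isUnit
  have hCt : Cᵀ = C := gram_symm ⟨2, rfl⟩ uC hνC
  have hCsymm : ∀ i j, C i j = C j i := fun i j => (congrFun (congrFun hCt i) j).symm
  obtain ⟨b, c, hc, hf, hcoord⟩ :=
    pair_frame hB (K := K) (by omega) (by omega) φA φC hAC hirr2 hA hC GA GC hGA hGC
  obtain ⟨i₀, j₀, hij⟩ := entry_ne (by omega : 0 < 2) uA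
  obtain ⟨k₀, l₀, hkl⟩ := entry_ne (by omega : 0 < 5) uC
  have hAsymm : ∀ i j, A i j = A j i := by
    intro i j
    have h1 : fq (b (i, k₀)) (b (j, l₀)) = fq (b (j, l₀)) (b (i, k₀)) := by
      rw [← polar_eq, ← polar_eq]; exact QuadraticMap.polar_comm _ _ _
    rw [hf, hf] at h1
    replace h1 : c * (A i j * C k₀ l₀) = c * (A j i * C l₀ k₀) := h1
    rw [hCsymm l₀ k₀] at h1
    exact mul_right_cancel₀ hkl (mul_left_cancel₀ hc h1)
  by_cases h2 : (2 : F) = 0
  · exact (hyperplane hsim hirr h2 (by omega) b hc A GC ⟨i₀, j₀, hij⟩ hCsymm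
      (diag_ne ⟨2, rfl⟩ h2 uC hCsymm) hf hcoord).elim
  have hAt : Aᵀ = A := Matrix.ext fun i j => hAsymm j i
  have hmap : ∀ Z : Matrix (Fin 2) (Fin 2) F, Z.map σr = Z := fun Z => by ext i j; rfl
  let j2 : Matrix (Fin 2) (Fin 2) F := !![0, 1; -1, 0]
  set X₀ := A⁻¹ * j2
  have hst : stG σr A X₀ = -X₀ := by
    have hj : j2ᵀ = -j2 := by ext i j; fin_cases i <;> fin_cases j <;> simp [j2]
    rw [stG, hmap, Matrix.transpose_mul, Matrix.transpose_nonsing_inv, hAt, hj]
    simp only [X₀, Matrix.neg_mul, Matrix.mul_neg, mul_assoc, Matrix.nonsing_inv_mul _ uA, mul_one]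
  have huniq : ∀ Z, stG σr A Z = -Z → ∃ s : F, Z = s • X₀ := by
    intro Z hZ
    set W := A * Z
    have hW : Wᵀ = -W := by
      rw [stG, hmap] at hZ
      have := congrArg (A * ·) hZ
      simp only [← mul_assoc, Matrix.mul_nonsing_inv _ uA, one_mul, Matrix.mul_neg] at this
      rw [Matrix.transpose_mul, hAt, this]
    refine ⟨W 0 1, ?_⟩
    have hWj : W = W 0 1 • j2 := by
      have e : ∀ i j, W j i = -W i j := fun i j => congrFun (congrFun hW i) j
      have h00 : W 0 0 = 0 := by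
        have h' : (2 : F) * W 0 0 = 0 := by linear_combination e 0 0
        exact (mul_eq_zero.mp h').resolve_left h2
      have h11 : W 1 1 = 0 := by
        have h' : (2 : F) * W 1 1 = 0 := by linear_combination e 1 1
        exact (mul_eq_zero.mp h').resolve_left h2
      ext i j; fin_cases i <;> fin_cases j <;> simp [j2, h00, h11, e 0 1]
    calc Z = A⁻¹ * W := by rw [show W = A * Z from rfl, ← mul_assoc, Matrix.nonsing_inv_mul _ uA, one_mul]
      _ = _ := by rw [hWj, Matrix.mul_smul]; simp [j2, X₀]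
  set J := φA X₀
  set E := Algebra.adjoin F ({J} : Set (Module.End F (ι → F)))
  have hstJ : st σr Bq J = -J := by rw [hGA, hst, map_neg]
  have hone : ∀ g ∈ K, conjHom (gu g) J ∈ E := by
    intro g hg
    obtain ⟨Z, hZ⟩ : conjHom (gu g) J ∈ Set.range φA := hA g hg X₀
    have h1 : st σr Bq (conjHom (gu g) J) = -conjHom (gu g) J := by
      rw [st_conj hB (hsim g hg), hstJ, map_neg]
    rw [← hZ, hGA, ← map_neg] at h1
    obtain ⟨s, hs⟩ := huniq Z (hinjA h1)
    rw [← hZ, hs, map_smul]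
    exact E.smul_mem (Algebra.subset_adjoin rfl) s
  have hmapE : ∀ g ∈ K, ∀ x ∈ E, conjHom (gu g) x ∈ E := by
    intro g hg x hx
    induction hx using Algebra.adjoin_induction with
    | mem a ha => obtain rfl := ha; exact hone g hg
    | algebraMap c => rw [AlgHom.commutes]; exact Subalgebra.algebraMap_mem _ _
    | add x y _ _ hx hy => rw [map_add]; exact add_mem hx hy
    | mul x y _ _ hx hy => rw [map_mul]; exact mul_mem hx hy
  refine ⟨E, fun x hx y hy => ?_, fun g hg X => ⟨fun hX => hmapE g hg X hX, fun hX => ?_⟩, fun x hx => ?_,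
    J, Algebra.subset_adjoin rfl, fun s hs => ?_⟩
  · refine (Algebra.commute_of_mem_adjoin_of_forall_mem_commute hy ?_ : Commute x y).eq
    rintro _ rfl
    refine (Algebra.commute_of_mem_adjoin_of_forall_mem_commute hx ?_).symm
    rintro _ rfl
    exact Commute.refl _
  · have := hmapE g⁻¹ (inv_mem hg) _ hX
    rw [conjHom_apply, map_inv, inv_inv] at this
    simpa [mul_assoc] using this
  · induction hx using Algebra.adjoin_induction with
    | mem a ha => obtain rfl := ha; rw [hstJ]; exact neg_mem (Algebra.subset_adjoin rfl)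
    | algebraMap c => rw [st_algebraMap hB]; exact Subalgebra.algebraMap_mem _ _
    | add x y _ _ hx hy => rw [st_add hB]; exact add_mem hx hy
    | mul x y _ _ hx hy => rw [st_mul hB]; exact mul_mem hy hx
  · have h1 := hinjA (hs.trans (φA.commutes s).symm)
    have h3 : j2 = s • A := by
      have := congrArg (A * ·) h1
      simp only [X₀, ← mul_assoc, Matrix.mul_nonsing_inv _ uA, one_mul, Algebra.algebraMap_eq_smul_one,
        Matrix.mul_smul, mul_one] at this
      exact this
    have e01 := congrFun (congrFun h3 0) 1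
    have e10 := congrFun (congrFun h3 1) 0
    simp [j2] at e01 e10
    rw [hAsymm 1 0, ← e01] at e10
    exact h2 (by linear_combination -e10)

/-- A tensor decomposition yields a commutative invariant subalgebra. -/
theorem tensor_comm (hQ : (QuadraticMap.polarBilin Q).Nondegenerate) {H : Subgroup (GL ι F)}
    (hI : H ≤ isometryGroup F ⇑Q)
    (hirr : Irr ((fun g : (Module.End F (ι → F))ˣ => (g : Module.End F (ι → F))) ''
      (gu '' ((H ⊔ scalars ι F : Subgroup _) : Set _))))
    {d e : ℕ} (hd : 2 ≤ d) (he : 2 ≤ e) (hde : d * e = 10)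
    (φA : Matrix (Fin d) (Fin d) F →ₐ[F] Module.End F (ι → F))
    (φC : Matrix (Fin e) (Fin e) F →ₐ[F] Module.End F (ι → F)) (hAC : ∀ X Y, Commute (φA X) (φC Y))
    (hirr2 : Irr (Set.range φA ∪ Set.range φC))
    (hA : ∀ g ∈ H ⊔ scalars ι F, ∀ X, (gu g : Module.End F (ι → F)) * φA X * ((gu g)⁻¹).val ∈ Set.range φA)
    (hC : ∀ g ∈ H ⊔ scalars ι F, ∀ X, (gu g : Module.End F (ι → F)) * φC X * ((gu g)⁻¹).val ∈ Set.range φC)
    (hclA : ∀ X, st σr Bq (φA X) ∈ Set.range φA) (hclC : ∀ X, st σr Bq (φC X) ∈ Set.range φC) :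
    ∃ E : Subalgebra F (Module.End F (ι → F)), (∀ x ∈ E, ∀ y ∈ E, x * y = y * x) ∧
      (∀ g ∈ H ⊔ scalars ι F, Normalises E (gu g)) ∧ (∀ x ∈ E, st σr Bq x ∈ E) ∧
      ∃ x ∈ E, ∀ c : F, x ≠ algebraMap F _ c := by
  have hcases : (d = 2 ∧ e = 5) ∨ (d = 5 ∧ e = 2) := by
    have hd5 : d ≤ 5 := by nlinarith
    interval_cases d <;> omega
  rcases hcases with ⟨rfl, rfl⟩ | ⟨rfl, rfl⟩
  · exact two_five hQ (sim_sup Q hI) hirr φA φC hAC hirr2 hA hC hclA hclC
  · exact two_five hQ (sim_sup Q hI) hirr φC φA (fun X Y => (hAC Y X).symm) (by rwa [Set.union_comm]) hC hA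
      hclC hclA

end Cfsg.Agent.GeomClasses.EvenTen
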