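import Cfsg.Agent.GeomClasses.EvenTen.Field
import Cfsg.Agent.GeomClasses.EvenTen.Blocks
import Cfsg.Agent.GeomClasses.EvenTen.Tensor
import Cfsg.Agent.GeomClasses.EvenTen.FieldFive
import Cfsg.Agent.GeomClasses.EvenTen.NotContain
import Cfsg.Agent.GeomClasses.EvenTen.SubfieldClass
import Cfsg.Agent.GeomClasses.OrthEven.Exclusions
import Cfsg.Agent.GeomClasses.MaxList.NotContain

/-! # The kinds of maximal subgroups of the orthogonal group of minus type in dimension ten -/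

set_option autoImplicit false
set_option maxHeartbeats 800000

namespace Cfsg.Agent.GeomClasses.EvenTen

open Matrix Cfsg.Geo Module
open scoped commutatorElement
open Cfsg.Agent.GeomClasses.AschRel
open Cfsg.Agent.GeomClasses.Asch (Irr Normalises conjHom conjHom_apply)
open Cfsg.Agent.GeomClasses.MaxList (eq_of_le)

variable {F : Type*} [Field F] [Fintype F] {Q : QuadraticForm F (Fin 10 → F)}

local notation "ι" => Fin 10
local notation "Bq" => qgram Q
local notation "fq" => matForm (RingEquiv.refl F) (qgram Q)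
local notation "stq" => st (RingEquiv.refl F) (qgram Q)


variable (Q) in
/-- The geometric kinds of the list. -/
def Listed (H : Subgroup (GL ι F)) : Prop :=
    (∃ W : Submodule F (ι → F), W ≠ ⊥ ∧ IsTotallySingularQuad ⇑Q W ∧ H = subspaceStabilizer W ⊓ omegaGL ⇑Q) ∨
    (Odd (Fintype.card F) ∧ ∃ W : Submodule F (ι → F), W ≠ ⊥ ∧ W ≠ ⊤ ∧ Odd (Module.finrank F W) ∧
      2 * Module.finrank F W ≠ 10 ∧ IsNondegenerateOn (QuadraticMap.polar ⇑Q) W ∧
      H = subspaceStabilizer W ⊓ omegaGL ⇑Q) ∨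
    (∃ W : Submodule F (ι → F), Module.finrank F W = 2 ∧ IsNondegenerateOn (QuadraticMap.polar ⇑Q) W ∧
      ¬ IsPlusTypeOn ⇑Q W ∧ H = subspaceStabilizer W ⊓ omegaGL ⇑Q) ∨
    (4 ≤ Fintype.card F ∧ ∃ W : Submodule F (ι → F), Module.finrank F W = 2 ∧
      IsNondegenerateOn (QuadraticMap.polar ⇑Q) W ∧ IsPlusTypeOn ⇑Q W ∧ H = subspaceStabilizer W ⊓ omegaGL ⇑Q) ∨
    (∃ W : Submodule F (ι → F), Module.finrank F W = 4 ∧ IsNondegenerateOn (QuadraticMap.polar ⇑Q) W ∧
      H = subspaceStabilizer W ⊓ omegaGL ⇑Q) ∨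
    (¬ Odd (Fintype.card F) ∧ ∃ v : ι → F, Q v ≠ 0 ∧
      H = subspaceStabilizer (Submodule.span F {v}) ⊓ omegaGL ⇑Q) ∨
    ((∃ p : ℕ, p.Prime ∧ Fintype.card F = p ∧ (p % 4 = 3)) ∧ ∃ D : Fin 10 → Submodule F (ι → F),
      IsOrthogonalMDecomposition ⇑Q 1 D ∧ H = decompositionStabilizer D ⊓ omegaGL ⇑Q) ∨
    (Fintype.card F ≠ 3 ∧ ∃ D : Fin 5 → Submodule F (ι → F),
      IsOrthogonalMDecomposition ⇑Q 2 D ∧ H = decompositionStabilizer D ⊓ omegaGL ⇑Q) ∨
    (Fintype.card F % 4 = 3 ∧ ∃ D : Fin 2 → Submodule F (ι → F),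
      IsOrthogonalMDecomposition ⇑Q 5 D ∧ H = decompositionStabilizer D ⊓ omegaGL ⇑Q) ∨
    (Fintype.card F % 4 = 1 ∧ ∃ D : Fin 2 → Submodule F (ι → F),
      IsNondegenerateMDecomposition (QuadraticMap.polar ⇑Q) 5 D ∧ ¬ AreIsometricFor ⇑Q (D 0) (D 1) ∧
      H = decompositionStabilizer D ⊓ omegaGL ⇑Q) ∨
    (Odd (Fintype.card F) ∧ ∃ K : Subalgebra F (Matrix ι ι F), IsFieldSubalgebra 2 K ∧
      IsSelfAdjointFor (QuadraticMap.polar ⇑Q) K ∧ H = subalgebraNormalizer K ⊓ omegaGL ⇑Q) ∨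
    (∃ K : Subalgebra F (Matrix ι ι F), IsFieldSubalgebra 2 K ∧ IsAdjointClosedFor (QuadraticMap.polar ⇑Q) K ∧
      ¬ IsSelfAdjointFor (QuadraticMap.polar ⇑Q) K ∧
      (∀ k ∈ K, ∃ c : F, ∀ v : ι → F, Q (Matrix.mulVec k v) = c * Q v) ∧
      H = subalgebraNormalizer K ⊓ omegaGL ⇑Q) ∨
    (∃ (F₀ : Subfield F) (r : ℕ) (P : GL ι F) (ζ : F), r.Prime ∧ Odd r ∧ Fintype.card F = Nat.card F₀ ^ r ∧
      ζ ≠ 0 ∧ IsQuadFormRationalStructure (fun v : ι → F => ζ * Q v) F₀ P ∧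
      H = subfieldSubgroup F₀ P ⊓ omegaGL ⇑Q)

/-- Lines of equal value are not permuted by the derived group. -/
theorem not_le_lines (hQ : (QuadraticMap.polarBilin Q).Nondegenerate) (hq : Fintype.card F % 4 = 3)
    {D : Fin 10 → Submodule F (ι → F)} (hD : IsOrthogonalMDecomposition ⇑Q 1 D) :
    ¬ omegaGL ⇑Q ≤ decompositionStabilizer D :=
  OddMax.not_le_frame hQ (two_ne_of_odd (Nat.odd_iff.mpr (by omega))) (by simp) hD

theorem listed_reducible (hQ : (QuadraticMap.polarBilin Q).Nondegenerate) (hminus : ¬ IsPlusTypeOn ⇑Q ⊤)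
    {H : Subgroup (GL ι F)} (hH : IsMaximalIn (omegaGL ⇑Q) H)
    (hirr : ¬ Irr ((fun g : (Module.End F (ι → F))ˣ => (g : Module.End F (ι → F))) ''
      (gu '' ((H ⊔ scalars ι F : Subgroup _) : Set _)))) : Listed Q H := by
  classical
  have hn : 7 ≤ Fintype.card ι := by simp
  have hstab : ∀ W : Submodule F (ι → F), H ≤ subspaceStabilizer W → W ≠ ⊥ → W ≠ ⊤ →
      H = subspaceStabilizer W ⊓ omegaGL ⇑Q := fun W hle h0 h1 =>
    eq_of_le hH hle (OrthEven.not_le_subspace hQ hn h0 h1)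
  rcases reducible hQ (Fintype.card_fin 10) hminus (hH.1.le.trans (omega_le_isometry Q)) hirr with
    ⟨W, h0, h1, hW, hle⟩ | ⟨hq, v, hv, hle⟩ | ⟨hq, W, h0, h1, hodd, h5, hW, hle⟩ | ⟨W, hd, hW, hle⟩ |
    ⟨D, hD, hle, hcase⟩
  · exact Or.inl ⟨W, h0, hW, hstab W hle h0 h1⟩
  · refine Or.inr <| Or.inr <| Or.inr <| Or.inr <| Or.inr <| Or.inl ⟨hq, v, hv, hstab _ hle ?_ ?_⟩
    · rw [Ne, Submodule.span_singleton_eq_bot]
      rintro rfl; exact hv (QuadraticMap.map_zero Q)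
    · intro e
      have h1 : finrank F (Submodule.span F {v}) ≤ 1 := (finrank_span_le_card {v}).trans (by simp)
      rw [e, finrank_top, finrank_pi, Fintype.card_fin] at h1
      omega
  · exact Or.inr <| Or.inl ⟨hq, W, h0, h1, hodd, by omega, hW, hstab W hle h0 h1⟩
  · have h0 : W ≠ ⊥ := fun e => by rw [e, finrank_bot] at hd; omega
    have h1 : W ≠ ⊤ := fun e => by rw [e, finrank_top, finrank_pi, Fintype.card_fin] at hd; omega
    have hHeq := hstab W hle h0 h1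
    rcases hd with hd | hd
    · by_cases hp : IsPlusTypeOn ⇑Q W
      · by_cases h4 : 4 ≤ Fintype.card F
        · exact Or.inr <| Or.inr <| Or.inr <| Or.inl ⟨h4, W, hd, hW, hp, hHeq⟩
        · exfalso
          obtain ⟨K, hK1, hK2⟩ := exists_between_plane Q (by omega) hd hW hp (by omega) hQ
          rcases hH.2 K (hHeq ▸ hK1.le) hK2.le with h | h
          · exact hK1.ne (by rw [← hHeq, h])
          · exact hK2.ne h
      · exact Or.inr <| Or.inr <| Or.inl ⟨W, hd, hW, hp, hHeq⟩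
    · exact Or.inr <| Or.inr <| Or.inr <| Or.inr <| Or.inl ⟨W, hd, hW, hHeq⟩
  · have hHeq := eq_of_le hH hle (OrthEven.not_le_decomp hQ (by simp) hD.decomp (by norm_num))
    rcases hcase with ⟨h3, hiso⟩ | ⟨h1, hni⟩
    · exact Or.inr <| Or.inr <| Or.inr <| Or.inr <| Or.inr <| Or.inr <| Or.inr <| Or.inr <|
        Or.inl ⟨h3, D, hiso, hHeq⟩
    · exact Or.inr <| Or.inr <| Or.inr <| Or.inr <| Or.inr <| Or.inr <| Or.inr <| Or.inr <| Or.inr <|
        Or.inl ⟨h1, D, hD, hni, hHeq⟩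

theorem listed_subfield (hQ : (QuadraticMap.polarBilin Q).Nondegenerate)
    {H : Subgroup (GL ι F)} (hH : IsMaximalIn (omegaGL ⇑Q) H) {F₁ : Subfield F} {r : ℕ} {P : GL ι F} {ζ : F}
    (hr : r.Prime) (hodd : Odd r) (hcard : Fintype.card F = Nat.card F₁ ^ r) (hζ : ζ ≠ 0)
    (hrat : IsQuadFormRationalStructure (fun v => ζ * Q v) F₁ P) (hle : H ≤ subfieldSubgroup F₁ P) :
    Listed Q H := by
  iterate 12 right
  exact ⟨F₁, r, P, ζ, hr, hodd, hcard, hζ, hrat,
    eq_of_le hH hle (OrthEven.not_le_subfield hQ (by simp) hr hcard P)⟩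

theorem listed_comm (hQ : (QuadraticMap.polarBilin Q).Nondegenerate) (hminus : ¬ IsPlusTypeOn ⇑Q ⊤)
    {H : Subgroup (GL ι F)} (hH : IsMaximalIn (omegaGL ⇑Q) H)
    (hirr : Irr ((fun u : (Module.End F (ι → F))ˣ => (u : Module.End F (ι → F))) ''
      (gu '' ((H ⊔ scalars ι F : Subgroup _) : Set _))))
    {E : Subalgebra F (Module.End F (ι → F))} (hcomm : ∀ x ∈ E, ∀ y ∈ E, x * y = y * x)
    (hnorm : ∀ g ∈ H ⊔ scalars ι F, Normalises E (gu g)) (hcl : ∀ x ∈ E, stq x ∈ E)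
    (hbig : ∃ x ∈ E, ∀ c : F, x ≠ algebraMap F _ c) : Listed Q H := by
  classical
  have hn : 7 ≤ Fintype.card ι := by simp
  have hI := hH.1.le.trans (omega_le_isometry Q)
  have hB := formData Q hQ
  have hno : OrthEven.NoSingular Q 5 := fun U hU hUd =>
    hminus ⟨U, le_top, hU, by rw [hUd, finrank_top, finrank_pi, Fintype.card_fin]⟩
  rcases blocks_or_field hB (sim_sup Q hI) hirr hcomm hnorm hcl with
    ⟨t, k, D, hD, hKD, htr⟩ | ⟨k, D, hk, hD, hts, hKD⟩ | hinv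
  · rcases decomp_cases hQ hminus hH hD hKD htr with ⟨hp, D', hD', hle⟩ | ⟨h3, D', hD', hle⟩ | ⟨h4, D', hD', hle⟩ |
      ⟨F₁, r, P, ζ, hr, ho, hc, hζ, hrat, hle⟩
    · obtain ⟨p, hp1, hp2, hp3⟩ := hp
      exact Or.inr <| Or.inr <| Or.inr <| Or.inr <| Or.inr <| Or.inr <| Or.inl ⟨⟨p, hp1, hp2, hp3⟩, D', hD',
        eq_of_le hH hle (not_le_lines hQ (by omega) hD')⟩
    · exact Or.inr <| Or.inr <| Or.inr <| Or.inr <| Or.inr <| Or.inr <| Or.inr <| Or.inl ⟨h3, D', hD',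
        eq_of_le hH hle (not_le_decomp hQ hn le_rfl hD'.decomp)⟩
    · exact Or.inr <| Or.inr <| Or.inr <| Or.inr <| Or.inr <| Or.inr <| Or.inr <| Or.inr <| Or.inl ⟨h4, D', hD',
        eq_of_le hH hle (OrthEven.not_le_decomp hQ (by simp) hD'.decomp.decomp (by norm_num))⟩
    · exact listed_subfield hQ hH hr ho hc hζ hrat hle
  · exact (OrthEven.halves_false (Q := Q) (m := 5) (by simp) (by norm_num) hno (by norm_num)
      (fun g hg v => quad_of_mem Q (hI hg) v) (fun W hW => OrthEven.irred_of_irr hirr hW) hk hD hts hKD).elim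
  obtain ⟨r, L, hr, hLE, hfin, hLinv, hLN⟩ := Asch.exists_prime_subfield hcomm hinv hbig
  have hLcomm : ∀ x ∈ L, ∀ y ∈ L, x * y = y * x := fun x hx y hy => hcomm x (hLE hx) y (hLE hy)
  have hLnorm : ∀ g ∈ H ⊔ scalars ι F, Normalises L (gu g) := fun g hg => hLN _ (hnorm g hg)
  have hdvd : r ∣ 10 := by
    have := OddMax.field_dvd_card (opAlg_field hLcomm hLinv hfin) hr.two_le
    rwa [Fintype.card_fin] at this
  have hLcl := subfield_closed hB hcomm hinv hcl hLE hLinv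
  have hherm : ∀ M : Subalgebra F (Module.End F (ι → F)), (∀ x ∈ M, ∀ y ∈ M, x * y = y * x) →
      (∀ x ∈ M, x ≠ 0 → ∃ y ∈ M, x * y = 1) → finrank F M = 2 → (∀ x ∈ M, stq x ∈ M) → (∃ x ∈ M, stq x ≠ x) →
      (∀ g ∈ H ⊔ scalars ι F, Normalises M (gu g)) → Listed Q H := by
    intro M hc hi hf hcl hne hnm
    have hfix : ∀ x ∈ M, stq x = x → ∃ c : F, x = algebraMap F _ c := by
      rcases adjoint_dichotomy hB Nat.prime_two hf hc hi hcl with h | ⟨-, -, h⟩
      · obtain ⟨x, hx, hxne⟩ := hne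
        exact absurd (h x hx) hxne
      · exact h
    have hK := opAlg_field hc hi hf
    refine Or.inr <| Or.inr <| Or.inr <| Or.inr <| Or.inr <| Or.inr <| Or.inr <| Or.inr <| Or.inr <| Or.inr <| Or.inr <|
      Or.inl ⟨opAlg M, hK, ?_, ?_, ?_, eq_of_le hH (le_sup_left.trans (le_normalizer hnm))
        (OrthEven.not_le_field hQ hn le_rfl hK)⟩
    · intro k hk
      refine ⟨LinearMap.toMatrix' (stq (Matrix.toLin' k)), mem_opAlg.mpr (by
        rw [Matrix.toLin'_toMatrix']; exact hcl _ (mem_opAlg.mp hk)), fun u v => ?_⟩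
      rw [LinearMap.toMatrix'_mulVec, polar_eq, polar_eq, ← adjoint hB, Matrix.toLin'_apply]
    · intro hsa
      obtain ⟨x, hx, hxne⟩ := hne
      exact hxne ((opAlg_selfAdjoint hQ).mp hsa x hx)
    · intro k hk
      obtain ⟨c, hc'⟩ := similitudes hQ hI hirr hf hc hcl hne hfix hnm _ (mem_opAlg.mp hk)
      exact ⟨c, fun v => by rw [← hc' v, Matrix.toLin'_apply]⟩
  rcases show r = 2 ∨ r = 5 by
      have := Nat.le_of_dvd (by norm_num) hdvd
      interval_cases r <;> simp_all (config := { decide := true }) with rfl | rfl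
  · rcases adjoint_dichotomy hB hr hfin hLcomm hLinv hLcl with hself | ⟨-, hne, -⟩
    · by_cases hq : Odd (Fintype.card F)
      · have hK := opAlg_field hLcomm hLinv hfin
        exact Or.inr <| Or.inr <| Or.inr <| Or.inr <| Or.inr <| Or.inr <| Or.inr <| Or.inr <| Or.inr <| Or.inr <|
          Or.inl ⟨hq, opAlg L, hK, (opAlg_selfAdjoint hQ).mpr hself,
            eq_of_le hH (le_sup_left.trans (le_normalizer hLnorm)) (OrthEven.not_le_field hQ hn le_rfl hK)⟩
      · exact (no_selfAdjoint_two hQ (char_two_of_even hq) hfin hLcomm hLinv hself).elim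
    · exact hherm L hLcomm hLinv hfin hLcl hne hLnorm
  · rcases adjoint_dichotomy hB hr hfin hLcomm hLinv hLcl with hself | ⟨h, -, -⟩
    · obtain ⟨M, h1, h2, h3, h4, h5, h6⟩ := exists_quadratic_of_five hQ hI hirr hfin hLcomm hLinv hself
        (fun U _ hd hU => hminus ⟨U, le_top, hU, by rw [hd, finrank_top, finrank_pi, Fintype.card_fin]⟩) hLnorm
      exact hherm M h1 h2 h3 h4 h5 h6
    · omega

/-- The maximal subgroups of the orthogonal group of minus type in dimension ten, sorted. -/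
theorem ten_minus_cases (hQ : (QuadraticMap.polarBilin Q).Nondegenerate) (hminus : ¬ IsPlusTypeOn ⇑Q ⊤)
    {H : Subgroup (GL ι F)} (hH : IsMaximalIn (omegaGL ⇑Q) H) : Listed Q H ∨ InOrthogonalResidualClass H := by
  classical
  by_cases hgood : Listed Q H
  · exact Or.inl hgood
  right
  have hI := hH.1.le.trans (omega_le_isometry Q)
  by_cases hirr : Irr ((fun g : (Module.End F (ι → F))ˣ => (g : Module.End F (ι → F))) ''
      (gu '' ((H ⊔ scalars ι F : Subgroup _) : Set _)))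
  swap
  · exact absurd (listed_reducible hQ hminus hH hirr) hgood
  have hB := formData Q hQ
  set Z := scalars ι F
  set K := H ⊔ Z
  have hsim := sim_sup Q hI
  have hKnZ : ¬ K ≤ Z := by
    intro hle
    let W : Submodule F (ι → F) := Submodule.span F {Pi.single 0 1}
    have hfr : finrank F W = 1 := finrank_span_singleton (by simp)
    rcases OrthEven.irred_of_irr hirr (W := W) (fun g hg w hw => by
      obtain ⟨c, hc⟩ := (mem_scalars_iff g).mp (hle (Subgroup.mem_sup_left hg))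
      rw [hc, Matrix.smul_mulVec, Matrix.one_mulVec]
      exact W.smul_mem _ hw) with h | h
    · rw [h, finrank_bot] at hfr; omega
    · rw [h, finrank_top, finrank_pi, Fintype.card_fin] at hfr; omega
  have hfull : ∀ N, N ≤ K → NormalisedBy K N → ¬ N ≤ Z → AschRel.Full N := by
    intro N hNK hN hNZ
    rcases normal_cases hB hsim hNK hirr hN hNZ with ⟨E, hcomm, hnorm, hcl, hbig⟩ | hf |
      ⟨d, e, φA, φC, hd, he, hde, hAC, hirr2, hfA, hfC, hclA, hclC⟩
    · exact absurd (listed_comm hQ hminus hH hirr hcomm hnorm hcl hbig) hgood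
    · exact hf
    · rw [Fintype.card_fin] at hde
      obtain ⟨E, hcomm, hnorm, hcl, hbig⟩ :=
        tensor_comm hQ hI hirr hd he hde φA φC hAC hirr2 hfA hfC hclA hclC
      exact absurd (listed_comm hQ hminus hH hirr hcomm hnorm hcl hbig) hgood
  obtain ⟨M, ⟨hMn, hZM, hMK, hMne⟩, hmin⟩ := exists_minimal_of_wellFoundedLT
    (fun M : Subgroup (GL ι F) => NormalisedBy K M ∧ Z ≤ M ∧ M ≤ K ∧ M ≠ Z)
    ⟨K, fun g hg x hx => mul_mem (mul_mem hg hx) (inv_mem hg), le_sup_right, le_rfl, fun h => hKnZ h.le⟩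
  have hmin' : ∀ N, NormalisedBy K N → Z ≤ N → N ≤ M → N = Z ∨ N = M := fun N h1 h2 h3 => by
    by_cases h : N = Z
    · exact Or.inl h
    · exact Or.inr (le_antisymm h3 (hmin ⟨h1, h2, h3.trans hMK, h⟩ h3))
  have hMnZ : ¬ M ≤ Z := fun h => hMne (le_antisymm h hZM)
  have hKH : ⁅K, K⁆ ≤ H := (commutator_sup_scalars H H).trans (Subgroup.commutator_le_self H)
  by_cases hab : ⁅M, M⁆ ≤ Z
  · exact (abelian_false hQ hI hZM hMK (hfull M hMK hMn hMnZ) hab).elim
  rcases nonab_split inferInstance le_sup_left hKH hMK hMn hmin' hfull hab hZM with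
    ⟨P, hPM, hPH, hPfull, hnormH, hcore⟩ | ⟨t, d, N, φA, g, ht, hd, hNM, hNp, hrange, hgK, hcom, hirr2, hperm⟩
  swap
  · exfalso
    obtain ⟨b, -⟩ := Asch.exists_tensor_basis (fun i => (conjHom (gu (g i))).comp φA) hcom (fun _ => by omega) hirr2
    have hcard := (Module.finrank_eq_card_basis b).symm
    rw [Module.finrank_fintype_fun_eq_card, Fintype.card_fin, Fintype.card_fun, Fintype.card_fin, Fintype.card_fin] at hcard
    have h1 : d ^ 2 ≤ 10 := hcard ▸ Nat.pow_le_pow_right (by omega) ht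
    have hd3 : d ≤ 3 := by nlinarith
    have h5 : 5 ∣ d ^ t := hcard ▸ (by norm_num : 5 ∣ 10)
    have := Nat.le_of_dvd (by omega) (Nat.Prime.dvd_of_dvd_pow (by norm_num : Nat.Prime 5) h5)
    omega
  have hnsub : ∀ F₀ : Subfield F, F₀ ≠ ⊤ → ¬ RealisableOver F₀ (matrixSet P) := by
    intro F₀ h1 h3
    obtain ⟨F₁, r, Pc, ζ, hr, hodd, hcard, hζ, hrat, hle⟩ :=
      subfield_class hQ hminus hI hPfull hPH hnormH h1 h3
    exact hgood (listed_subfield hQ hH hr hodd hcard hζ hrat hle)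
  refine ⟨P, hcore hnsub, ?_⟩
  rintro ⟨σ, f, hf, hfix⟩
  have h3 : ∀ v x y, f v (x + y) = f v x + f v y := fun v x y => by
    rw [hf.herm, hf.add_left, map_add, ← hf.herm, ← hf.herm]
  have h4 : ∀ (c : F) v x, f v (c • x) = σ c * f v x := fun c v x => by
    rw [hf.herm, hf.smul_left, map_mul, ← hf.herm]
  have he := eq_matForm hf.add_left hf.smul_left h3 h4
  have hu : IsUnit (gram f).det := isUnit_of_nondeg (σ := σ) (by
    rw [show matForm σ (gram f) = f from funext fun u => funext fun v => (he u v).symm]; exact hf.nondegenerate)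
  refine hnsub _ (fixedBy_ne_top hf.ne_refl) (realisable_of_two_forms hPfull hf.ne_refl hf.involutive hB.unit hu
    (fun x hx => ?_) fun x hx => fix_gram fun u v => by rw [← he, ← he]; exact hfix _ ⟨x, hx, rfl⟩ u v)
  have e := matrix_eq_of_iso (iso_of_mem Q (hI (hPH hx)))
  rwa [show (x : Matrix ι ι F).map (RingEquiv.refl F) = (x : Matrix ι ι F) by ext u v; rfl] at e

end Cfsg.Agent.GeomClasses.EvenTen
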