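import Cfsg.Agent.GeomClasses.EvenTen.Basic
import Cfsg.Agent.Forms.Siegel

/-! # Five anisotropic planes do not give plus type; no Hermitian structure in plus type -/

set_option autoImplicit false
set_option maxHeartbeats 600000

namespace Cfsg.Agent.GeomClasses.EvenTen

open Module Matrix Cfsg.Geo Cfsg.Agent.Forms
open Cfsg.Agent.GeomClasses.AschRel

variable {F : Type*} [Field F] [Fintype F]

section Planes

variable {ι : Type} [Fintype ι] [DecidableEq ι] {Q : QuadraticForm F (ι → F)}

set_option quotPrecheck false in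
local notation "BQ" => QuadraticMap.polar ⇑Q

/-- An anisotropic plane takes every value. -/
theorem plane_value {W : Submodule F (ι → F)} (hd : finrank F W = 2) (ha : ∀ v ∈ W, Q v = 0 → v = 0) (c : F) :
    ∃ v ∈ W, Q v = c := by
  let R : QuadraticForm F (W × F) :=
    QuadraticMap.prod (Q.comp W.subtype) ((-c) • QuadraticMap.sq)
  obtain ⟨⟨w, x⟩, hne, hR⟩ := exists_singular_of_three_le R (by rw [Module.finrank_prod, hd, finrank_self])
  have hR' : Q (w : ι → F) = c * (x * x) := by
    simp [R] at hR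
    linear_combination hR
  have hx : x ≠ 0 := by
    rintro rfl
    refine hne (Prod.ext (Subtype.ext (ha _ w.2 ?_)) rfl)
    rw [hR']; ring
  refine ⟨x⁻¹ • (w : ι → F), W.smul_mem _ w.2, ?_⟩
  rw [QuadraticMap.map_smul, hR', smul_eq_mul]
  field_simp

/-- A companion of a vector in an anisotropic non-degenerate plane. -/
theorem plane_companion {W : Submodule F (ι → F)} (hd : finrank F W = 2) (hn : IsNondegenerateOn (BQ) W)
    (ha : ∀ v ∈ W, Q v = 0 → v = 0) {v : ι → F} (hv : v ∈ W) (hv0 : v ≠ 0) :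
    ∃ w ∈ W, (∀ x y : F, x • v + y • w = 0 → x = 0 ∧ y = 0) ∧
      ((2 : F) ≠ 0 → BQ v w = 0) ∧ ((2 : F) = 0 → BQ v w = 1) := by
  have key : ∀ w, w ∉ Submodule.span F {v} → ∀ x y : F, x • v + y • w = 0 → x = 0 ∧ y = 0 := by
    intro w hw x y h
    by_cases hy : y = 0
    · subst hy
      rw [zero_smul, add_zero] at h
      exact ⟨(smul_eq_zero.mp h).resolve_right hv0, rfl⟩
    · refine absurd (Submodule.mem_span_singleton.mpr ⟨-(y⁻¹ * x), ?_⟩) hw
      have h' : y • w = -(x • v) := eq_neg_of_add_eq_zero_right h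
      have h'' := congrArg (y⁻¹ • ·) h'
      simp only [smul_smul, inv_mul_cancel₀ hy, one_smul, smul_neg] at h''
      rw [h'', neg_smul]
  by_cases h2 : (2 : F) = 0
  · obtain ⟨-, x, hx, hne⟩ := hn v hv hv0
    refine ⟨(BQ v x)⁻¹ • x, W.smul_mem _ hx, key _ (fun h => ?_), fun h => absurd h2 h, fun _ => ?_⟩
    · obtain ⟨c, hc⟩ := Submodule.mem_span_singleton.mp h
      have h1 : BQ v ((BQ v x)⁻¹ • x) = 1 := by
        rw [QuadraticMap.polar_smul_right, smul_eq_mul, inv_mul_cancel₀ hne]
      rw [← hc, QuadraticMap.polar_smul_right, polar_self_two_mul, h2, zero_mul, smul_zero] at h1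
      exact zero_ne_one h1
    · rw [QuadraticMap.polar_smul_right, smul_eq_mul, inv_mul_cancel₀ hne]
  · let f : W →ₗ[F] F := (QuadraticMap.polarBilin Q v).comp W.subtype
    have h1 := f.finrank_range_add_finrank_ker
    have h3 : finrank F (LinearMap.range f) ≤ 1 := (Submodule.finrank_le _).trans_eq (finrank_self F)
    obtain ⟨w, hw, hw0⟩ := Submodule.exists_mem_ne_zero_of_ne_bot (p := LinearMap.ker f) (fun h => by
      rw [h, finrank_bot] at h1; omega)
    have hvw : BQ v (w : ι → F) = 0 := hw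
    refine ⟨w, w.2, key _ (fun h => ?_), fun _ => hvw, fun h => absurd h h2⟩
    obtain ⟨c, hc⟩ := Submodule.mem_span_singleton.mp h
    rw [← hc, QuadraticMap.polar_smul_right, polar_self_two_mul, smul_eq_mul] at hvw
    rcases mul_eq_zero.mp hvw with h0 | h0
    · exact hw0 (Subtype.ext (by rw [← hc, h0, zero_smul]; rfl))
    · exact hv0 (ha v hv ((mul_eq_zero.mp h0).resolve_left h2))

/-- Artin-Schreier: two non-values of `u² + u` sum to a value. -/
theorem artin_schreier_add (h2 : (2 : F) = 0) {a b : F} (ha : ∀ u : F, u ^ 2 + u ≠ a) (hb : ∀ u : F, u ^ 2 + u ≠ b) :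
    ∃ u : F, u ^ 2 + u = a + b := by
  classical
  haveI : CharP F 2 := CharTwo.of_one_ne_zero_of_two_eq_zero one_ne_zero h2
  let φ : F →+ F :=
    { toFun := fun u => u ^ 2 + u
      map_zero' := by ring
      map_add' := fun x y => by rw [CharTwo.add_sq]; ring }
  have hker : Nat.card φ.ker = 2 := by
    have hset : (φ.ker : Set F) = {0, 1} := by
      ext u
      simp only [SetLike.mem_coe, AddMonoidHom.mem_ker, Set.mem_insert_iff, Set.mem_singleton_iff, φ,
        AddMonoidHom.coe_mk, ZeroHom.coe_mk]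
      constructor
      · intro h
        have h' : u * (u + 1) = 0 := by linear_combination h
        rcases mul_eq_zero.mp h' with h0 | h0
        · exact Or.inl h0
        · exact Or.inr (by linear_combination h0 - h2)
      · rintro (rfl | rfl)
        · ring
        · linear_combination h2
    rw [show Nat.card φ.ker = (φ.ker : Set F).ncard from Nat.card_coe_set_eq _, hset, Set.ncard_pair zero_ne_one]
  have hidx : φ.range.index = 2 := by
    have h1 := AddSubgroup.index_mul_card φ.range
    have h3 := AddSubgroup.index_mul_card φ.ker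
    rw [AddSubgroup.index_ker, hker] at h3
    have hpos : 0 < Nat.card φ.range := Nat.card_pos
    nlinarith
  have hab := AddSubgroup.add_mem_iff_of_index_two hidx (a := a) (b := b)
  have hna : a ∉ φ.range := fun ⟨u, hu⟩ => ha u hu
  have hnb : b ∉ φ.range := fun ⟨u, hu⟩ => hb u hu
  exact hab.mpr (iff_of_false hna hnb)

/-- Two orthogonal anisotropic planes contain a totally singular plane. -/
theorem planes_singular {W W' : Submodule F (ι → F)} (hd : finrank F W = 2) (hd' : finrank F W' = 2)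
    (hn : IsNondegenerateOn (BQ) W) (hn' : IsNondegenerateOn (BQ) W')
    (ha : ∀ v ∈ W, Q v = 0 → v = 0) (ha' : ∀ v ∈ W', Q v = 0 → v = 0)
    (hdis : W ⊓ W' = ⊥) (ho : ∀ a ∈ W, ∀ b ∈ W', BQ a b = 0) :
    ∃ T : Submodule F (ι → F), T ≤ W ⊔ W' ∧ IsTotallySingularQuad (⇑Q) T ∧ finrank F T = 2 := by
  classical
  obtain ⟨v, hv, hv0⟩ := (Submodule.ne_bot_iff W).mp fun h => by rw [h, finrank_bot] at hd; omega
  obtain ⟨v', hv', hQv'⟩ := plane_value hd' ha' (-Q v)
  have ha0 : Q v ≠ 0 := fun h => hv0 (ha v hv h)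
  have hv'0 : v' ≠ 0 := fun h => ha0 (by rw [h, QuadraticMap.map_zero] at hQv'; linear_combination hQv')
  obtain ⟨w, hw, hind, hw1, hw2⟩ := plane_companion hd hn ha hv hv0
  obtain ⟨u, hu, hind', hu1, hu2⟩ := plane_companion hd' hn' ha' hv' hv'0
  obtain ⟨w', hw', hQw', hpw'⟩ : ∃ w' ∈ W', Q w' = -Q w ∧ BQ v' w' = -BQ v w := by
    have hne : ∀ x : F, Q (x • v + (1 : F) • w) ≠ 0 := fun x h =>
      one_ne_zero (hind x 1 (ha _ (W.add_mem (W.smul_mem _ hv) (W.smul_mem _ hw)) h)).2
    have hne' : ∀ x : F, Q (x • v' + (1 : F) • u) ≠ 0 := fun x h =>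
      one_ne_zero (hind' x 1 (ha' _ (W'.add_mem (W'.smul_mem _ hv') (W'.smul_mem _ hu)) h)).2
    simp only [map_smul_add_smul, hQv'] at hne hne'
    by_cases h2 : (2 : F) = 0
    · have hneg : ∀ x : F, -x = x := fun x => by linear_combination (-x) * h2
      rw [hw2 h2] at hne
      rw [hu2 h2] at hne'
      obtain ⟨r, hr⟩ := artin_schreier_add h2 (a := Q v * Q w) (b := Q v * Q u)
        (fun r hr => hne (r / Q v) (by field_simp; linear_combination hr + (Q v * Q w) * h2))
        (fun r hr => hne' (r / Q v) (by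
          field_simp
          linear_combination hr + (Q v * Q u - r ^ 2) * h2))
      refine ⟨(r / Q v) • v' + (1 : F) • u, W'.add_mem (W'.smul_mem _ hv') (W'.smul_mem _ hu), ?_, ?_⟩
      · rw [map_smul_add_smul, hu2 h2, hQv']
        field_simp
        linear_combination hr + (Q v * Q w + Q v * Q u - r ^ 2) * h2
      · rw [QuadraticMap.polar_add_right, QuadraticMap.polar_smul_right, QuadraticMap.polar_smul_right,
          polar_self_two_mul, h2, hu2 h2, hw2 h2, hneg]
        simp
    · rw [hw1 h2] at hne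
      rw [hu1 h2] at hne'
      have hc : ¬ IsSquare (-Q w / Q v) := fun ⟨s, hs⟩ => hne s (by
        field_simp at hs
        linear_combination -hs)
      have hd0 : ¬ IsSquare (Q u / Q v) := fun ⟨s, hs⟩ => hne' s (by
        field_simp at hs
        linear_combination hs)
      have hu0 : Q u ≠ 0 := fun h => hd0 ⟨0, by rw [h]; simp⟩
      have hw0 : Q w ≠ 0 := fun h => hc ⟨0, by rw [h]; simp⟩
      have hsq : IsSquare ((-Q w / Q v) * (Q u / Q v)) := by
        rw [← quadraticChar_one_iff_isSquare (mul_ne_zero (div_ne_zero (neg_ne_zero.mpr hw0) ha0) (div_ne_zero hu0 ha0)),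
          map_mul, quadraticChar_neg_one_iff_not_isSquare.mpr hc, quadraticChar_neg_one_iff_not_isSquare.mpr hd0]
        norm_num
      obtain ⟨s, hs⟩ := hsq
      refine ⟨(s * Q v / Q u) • u, W'.smul_mem _ hu, ?_, ?_⟩
      · rw [QuadraticMap.map_smul, smul_eq_mul]
        field_simp at hs ⊢
        linear_combination -hs
      · rw [QuadraticMap.polar_smul_right, hu1 h2, hw1 h2, smul_zero, neg_zero]
  have hs : ∀ x y : F, Q (x • (v + v') + y • (w + w')) = 0 := by
    intro x y
    rw [map_smul_add_smul, QuadraticMap.map_add (⇑Q) v v', QuadraticMap.map_add (⇑Q) w w', ho v hv v' hv',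
      ho w hw w' hw', QuadraticMap.polar_add_left, QuadraticMap.polar_add_right, QuadraticMap.polar_add_right,
      ho v hv w' hw', QuadraticMap.polar_comm (⇑Q) v' w, ho w hw v' hv', hQv', hQw', hpw']
    ring
  have hli : LinearIndependent F ![v + v', w + w'] := by
    rw [LinearIndependent.pair_iff]
    intro x y h
    refine hind x y ?_
    have hm : x • v + y • w ∈ W ⊓ W' := by
      refine ⟨W.add_mem (W.smul_mem _ hv) (W.smul_mem _ hw), ?_⟩
      have e : x • v + y • w = -(x • v' + y • w') := by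
        linear_combination (norm := module) h
      show x • v + y • w ∈ W'
      rw [e]
      exact W'.neg_mem (W'.add_mem (W'.smul_mem _ hv') (W'.smul_mem _ hw'))
    rwa [hdis, Submodule.mem_bot] at hm
  refine ⟨Submodule.span F (Set.range ![v + v', w + w']), ?_, ?_, by
    rw [finrank_span_eq_card hli, Fintype.card_fin]⟩
  · rw [Submodule.span_le]
    rintro _ ⟨i, rfl⟩
    fin_cases i
    · exact Submodule.add_mem_sup hv hv'
    · exact Submodule.add_mem_sup hw hw'
  · intro z hz
    rw [Matrix.range_cons_cons_empty] at hz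
    obtain ⟨x, y, rfl⟩ := Submodule.mem_span_pair.mp hz
    exact hs x y

end Planes

variable {Q : QuadraticForm F (Fin 10 → F)}

set_option quotPrecheck false in
local notation "BQ" => QuadraticMap.polar ⇑Q

/-- Five anisotropic orthogonal planes do not give plus type. -/
theorem not_plus_of_planes (hQ : (QuadraticMap.polarBilin Q).Nondegenerate)
    {D : Fin 5 → Submodule F (Fin 10 → F)} (hD : IsNondegenerateMDecomposition (BQ) 2 D)
    (haniso : ∀ i, ∀ v ∈ D i, Q v = 0 → v = 0) : ¬ IsPlusTypeOn (⇑Q) ⊤ := by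
  classical
  rintro ⟨U, -, hU, hUd⟩
  rw [finrank_top, finrank_pi, Fintype.card_fin] at hUd
  have hd := hD.decomp
  have hdis : ∀ i j, i ≠ j → D i ⊓ D j = ⊥ := fun i j h => (hd.indep.pairwiseDisjoint h).eq_bot
  obtain ⟨T₁, hT₁, hS₁, hd₁⟩ := planes_singular (hd.finrank_eq 0) (hd.finrank_eq 1) (hD.nondegenerate 0)
    (hD.nondegenerate 1) (haniso 0) (haniso 1) (hdis 0 1 (by decide)) (hD.orthogonal 0 1 (by decide))
  obtain ⟨T₂, hT₂, hS₂, hd₂⟩ := planes_singular (hd.finrank_eq 2) (hd.finrank_eq 3) (hD.nondegenerate 2)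
    (hD.nondegenerate 3) (haniso 2) (haniso 3) (hdis 2 3 (by decide)) (hD.orthogonal 2 3 (by decide))
  set B := QuadraticMap.polarBilin Q with hB
  have hI := isForm_quadratic Q hQ
  have hole : ∀ i j, i ≠ j → D i ≤ perp B (D j) := fun i j h a ha b hb =>
    hD.orthogonal j i h.symm b hb a ha
  have hsym : ∀ X Y : Submodule F (Fin 10 → F), X ≤ perp B Y → Y ≤ perp B X := fun X Y h y hy x hx => by
    rw [hB, QuadraticMap.polarBilin_apply_apply, QuadraticMap.polar_comm]
    exact h hx y hy
  have hsup : ∀ X Y Z : Submodule F (Fin 10 → F), X ≤ perp B Y → X ≤ perp B Z → X ≤ perp B (Y ⊔ Z) :=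
    fun X Y Z h h' => hsym _ _ (sup_le (hsym _ _ h) (hsym _ _ h'))
  have h12 : T₁ ≤ perp B T₂ := hT₁.trans ((sup_le (hsup _ _ _ (hole 0 2 (by decide)) (hole 0 3 (by decide)))
      (hsup _ _ _ (hole 1 2 (by decide)) (hole 1 3 (by decide)))).trans (perp_antitone hT₂))
  set T := T₁ ⊔ T₂ with hT
  have hTS : IsTotallySingularQuad (⇑Q) T := by
    intro z hz
    obtain ⟨a, ha, b, hb, rfl⟩ := Submodule.mem_sup.mp hz
    have hab : BQ b a = 0 := h12 ha b hb
    rw [QuadraticMap.map_add (⇑Q), hS₁ a ha, hS₂ b hb, QuadraticMap.polar_comm, hab, add_zero, add_zero]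
  have hrest : ∀ s : Finset (Fin 5), ∀ i ∉ s, (D i) ⊓ s.sup D = ⊥ := fun s i hi => by
    refine le_bot_iff.mp ((inf_le_inf_left _ ?_).trans (hd.indep i).eq_bot.le)
    exact Finset.sup_le fun j hj => le_iSup₂_of_le j (fun h => hi (h ▸ hj)) le_rfl
  have hindep4 : (T₁ ⊔ T₂) ⊓ D 4 = ⊥ := by
    refine le_bot_iff.mp (le_trans ?_ (hrest {0, 1, 2, 3} 4 (by decide)).le)
    rw [inf_comm]
    refine inf_le_inf_left _ ?_
    simp only [Finset.sup_insert, Finset.sup_singleton]
    exact (sup_le_sup hT₁ hT₂).trans_eq (by simp only [sup_assoc])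
  have h4 : finrank F T₁ + finrank F T₂ = finrank F T := by
    have h := Submodule.finrank_sup_add_finrank_inf_eq T₁ T₂
    have h0 : T₁ ⊓ T₂ = ⊥ := by
      refine le_bot_iff.mp fun x hx => ?_
      have hx1 : x ∈ D 0 ⊔ D 1 := hT₁ hx.1
      have hx2 : x ∈ D 2 ⊔ D 3 := hT₂ hx.2
      rw [Submodule.mem_bot]
      obtain ⟨a, ha, b, hb, rfl⟩ := Submodule.mem_sup.mp hx1
      have ha' : a ∈ D 0 ⊓ ({1, 2, 3} : Finset (Fin 5)).sup D := by
        refine ⟨ha, ?_⟩
        simp only [Finset.sup_insert, Finset.sup_singleton]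
        have := Submodule.sub_mem _ (Submodule.mem_sup_right (S := D 1) hx2) (Submodule.mem_sup_left (T := D 2 ⊔ D 3) hb)
        simpa using this
      rw [hrest _ _ (by decide), Submodule.mem_bot] at ha'
      subst ha'
      rw [zero_add] at hx2 ⊢
      have hb' : b ∈ D 1 ⊓ ({2, 3} : Finset (Fin 5)).sup D := by
        refine ⟨hb, ?_⟩
        simp only [Finset.sup_insert, Finset.sup_singleton]
        exact hx2
      rwa [hrest _ _ (by decide), Submodule.mem_bot] at hb'
    rw [h0, finrank_bot] at h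
    rw [hT]; omega
  -- the perpendicular space of T
  have hT4 : T ≤ perp B (D 4) := sup_le
    (hT₁.trans (sup_le (hole 0 4 (by decide)) (hole 1 4 (by decide))))
    (hT₂.trans (sup_le (hole 2 4 (by decide)) (hole 3 4 (by decide))))
  have hTT : ∀ X : Submodule F (Fin 10 → F), IsTotallySingularQuad (⇑Q) X → X ≤ perp B X := fun X hX a ha b hb => by
    show BQ b a = 0
    rw [QuadraticMap.polar, hX _ (X.add_mem hb ha), hX b hb, hX a ha]; ring
  have hperpT : perp B T = T ⊔ D 4 := by
    refine (Submodule.eq_of_le_of_finrank_le (sup_le (hTT T hTS) (hsym _ _ hT4)) ?_).symm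
    have h1 := hI.finrank_perp T
    have h2 := Submodule.finrank_sup_add_finrank_inf_eq T (D 4)
    rw [show T ⊓ D 4 = ⊥ from hindep4, finrank_bot, hd.finrank_eq 4] at h2
    rw [← hB, finrank_pi, Fintype.card_fin] at h1
    omega
  have hUperp : perp B U = U := by
    refine (Submodule.eq_of_le_of_finrank_le (hTT U hU) ?_).symm
    have h1 := hI.finrank_perp U
    rw [← hB, finrank_pi, Fintype.card_fin] at h1
    omega
  obtain ⟨u, ⟨huU, huT⟩, huT'⟩ : ∃ u ∈ U ⊓ perp B T, u ∉ T := by
    by_contra hcon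
    push Not at hcon
    have h1 : finrank F ↥(U ⊓ perp B T) ≤ finrank F ↥(U ⊓ T) :=
      Submodule.finrank_mono fun x hx => ⟨hx.1, hcon x hx⟩
    have h2 : finrank F ↥(perp B (U ⊔ T)) ≤ finrank F ↥(U ⊓ perp B T) :=
      Submodule.finrank_mono (le_inf ((perp_antitone le_sup_left).trans hUperp.le) (perp_antitone le_sup_right))
    have h3 := hI.finrank_perp (U ⊔ T)
    have h5 := Submodule.finrank_sup_add_finrank_inf_eq U T
    rw [← hB, finrank_pi, Fintype.card_fin] at h3
    omega
  rw [hperpT] at huT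
  obtain ⟨a, ha, b, hb, rfl⟩ := Submodule.mem_sup.mp huT
  have hQb : Q b = 0 := by
    have hab : BQ b a = 0 := hT4 ha b hb
    have h := hU _ huU
    rw [QuadraticMap.map_add (⇑Q), hTS a ha, QuadraticMap.polar_comm, hab] at h
    simpa using h
  rw [haniso 4 b hb hQb, add_zero] at huT'
  exact huT' ha

/-- In plus type no quadratic field acts by similitudes. -/
theorem no_hermitian (hQ : (QuadraticMap.polarBilin Q).Nondegenerate) (hplus : IsPlusTypeOn (⇑Q) ⊤)
    {L : Subalgebra F (Module.End F (Fin 10 → F))} (hfin : finrank F L = 2)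
    (hcomm : ∀ x ∈ L, ∀ y ∈ L, x * y = y * x) (hinv : ∀ x ∈ L, x ≠ 0 → ∃ y ∈ L, x * y = 1)
    (hsimil : ∀ k ∈ L, ∃ c : F, ∀ v, Q (k v) = c * Q v) : False := by
  classical
  have hinv' : ∀ k ∈ L, k ≠ 0 → ∃ y ∈ L, ∀ x, y (k x) = x ∧ k (y x) = x := fun k hk h0 => by
    obtain ⟨y, hy, hky⟩ := hinv k hk h0
    refine ⟨y, hy, fun x => ⟨?_, ?_⟩⟩
    · rw [← Module.End.mul_apply, hcomm y hy k hk, hky, Module.End.one_apply]
    · rw [← Module.End.mul_apply, hky, Module.End.one_apply]
  have haniso : ∀ k ∈ L, k ≠ 0 → ∀ x, Q x ≠ 0 → Q (k x) ≠ 0 := fun k hk h0 x hx h => by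
    obtain ⟨y, hy, hyk⟩ := hinv' k hk h0
    obtain ⟨c, hc⟩ := hsimil y hy
    exact hx (by rw [← (hyk x).1, hc, h, mul_zero])
  have hzero : ∀ x y, (∀ n ∈ L, BQ x (n y) = 0) → ∀ l ∈ L, ∀ m ∈ L, BQ (l x) (m y) = 0 := by
    intro x y h l hl m hm
    by_cases h0 : l = 0
    · rw [h0, LinearMap.zero_apply]; exact QuadraticMap.polar_zero_left Q _
    obtain ⟨k, hk, hkl⟩ := hinv' l hl h0
    obtain ⟨c, hc⟩ := hsimil l hl
    have e : m y = l ((k * m) y) := by rw [Module.End.mul_apply, (hkl (m y)).2]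
    rw [e, show BQ (l x) (l ((k * m) y)) = c * BQ x ((k * m) y) by
      simp only [QuadraticMap.polar, ← map_add, hc]; ring, h _ (L.mul_mem hk hm), mul_zero]
  haveI : Finite L := Module.finite_of_finite F
  haveI : Fintype L := Fintype.ofFinite _
  haveI hfree : Module.Free F L := Module.Free.of_divisionRing F L
  have hline : ∀ x, Q x ≠ 0 → ∃ l ∈ L, BQ x (l x) ≠ 0 := by
    intro x hx
    by_contra hcon
    push Not at hcon
    have hinj : Function.Injective (fun l : L => Q ((l : Module.End F (Fin 10 → F)) x)) := by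
      intro a b hab
      by_contra hne
      have e : Q ((a : Module.End F (Fin 10 → F)) x) = Q (((a - b : L) : Module.End F (Fin 10 → F)) x) +
          Q ((b : Module.End F (Fin 10 → F)) x) := by
        have h := QuadraticMap.map_add (⇑Q) (((a - b : L) : Module.End F (Fin 10 → F)) x) ((b : Module.End F (Fin 10 → F)) x)
        rw [hzero x x hcon _ (a - b : L).2 _ b.2, add_zero] at h
        rw [← h]
        congr 1
        simp
      refine haniso _ (a - b : L).2 (fun h0 => hne (sub_eq_zero.mp (Subtype.ext h0))) x hx ?_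
      linear_combination -e + hab
    have h := Fintype.card_le_of_injective _ hinj
    rw [Module.card_eq_pow_finrank (K := F) (V := L), hfin] at h
    nlinarith [Fintype.one_lt_card (α := F)]
  have hnd : ∀ x, Q x ≠ 0 → ∀ k ∈ L, (∀ l ∈ L, BQ (k x) (l x) = 0) → k = 0 := by
    intro x hx k hk h
    by_contra h0
    obtain ⟨l, hl, hne⟩ := hline (k x) (haniso k hk h0 x hx)
    exact hne (h (l * k) (L.mul_mem hl hk))
  let b : Basis (Fin 2) F L := finBasisOfFinrankEq F L hfin
  let ev : (Fin 10 → F) → L →ₗ[F] (Fin 10 → F) := fun x =>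
    { toFun := fun l => (l : Module.End F (Fin 10 → F)) x
      map_add' := fun _ _ => rfl
      map_smul' := fun _ _ => rfl }
  have horth : ∀ n (v : Fin n → Fin 10 → F), (∀ i j, i ≠ j → ∀ l ∈ L, BQ (v i) (l (v j)) = 0) →
      ∀ (a : Fin n → L) (i : Fin n) (m : L),
        BQ (∑ j, ev (v j) (a j)) (ev (v i) m) = BQ (ev (v i) (a i)) (ev (v i) m) := by
    intro n v hv a i m
    rw [← QuadraticMap.polarBilin_apply_apply, map_sum, LinearMap.sum_apply]
    simp only [QuadraticMap.polarBilin_apply_apply]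
    exact Finset.sum_eq_single i (fun j _ hji => hzero _ _ (hv j i hji) _ (a j).2 _ m.2)
      fun h => absurd (Finset.mem_univ i) h
  have hsys : ∀ n, n ≤ 5 → ∃ v : Fin n → Fin 10 → F, (∀ i, Q (v i) ≠ 0) ∧
      ∀ i j, i ≠ j → ∀ l ∈ L, BQ (v i) (l (v j)) = 0 := by
    intro n
    induction n with
    | zero => exact fun _ => ⟨Fin.elim0, fun i => i.elim0, fun i => i.elim0⟩
    | succ n ih =>
      intro hn
      obtain ⟨v, hQv, hv⟩ := ih (by omega)
      let f : (Fin n → L) →ₗ[F] (Fin 10 → F) := ∑ i, (ev (v i)).comp (LinearMap.proj i)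
      have hf : ∀ a, f a = ∑ i, ev (v i) (a i) := fun a => by simp [f]
      set W := LinearMap.range f with hW
      have hWd : finrank F W ≤ 2 * n := by
        refine (LinearMap.finrank_range_le f).trans ?_
        rw [Module.finrank_pi_fintype]; simp [hfin, mul_comm]
      set X := perp (QuadraticMap.polarBilin Q) W with hX
      have hI := isForm_quadratic Q hQ
      have hXd : 0 < finrank F X := by
        have h := hI.finrank_perp W
        rw [← hX, finrank_pi, Fintype.card_fin] at h
        omega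
      have hmemW : ∀ (i : Fin n) (m : L), ev (v i) m ∈ W := fun i m => by
        refine ⟨Pi.single i m, ?_⟩
        rw [hf, Finset.sum_eq_single i (fun j _ hji => by rw [Pi.single_eq_of_ne hji, map_zero])
          fun h => absurd (Finset.mem_univ i) h, Pi.single_eq_same]
      have hWX : W ⊓ X = ⊥ := by
        refine le_bot_iff.mp ?_
        rintro _ ⟨⟨a, rfl⟩, hax⟩
        rw [Submodule.mem_bot, hf]
        refine Finset.sum_eq_zero fun i _ => ?_
        have h0 : (a i : Module.End F (Fin 10 → F)) = 0 := hnd (v i) (hQv i) _ (a i).2 fun l hl => by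
          have h := hax _ (hmemW i ⟨l, hl⟩)
          rw [QuadraticMap.polarBilin_apply_apply, QuadraticMap.polar_comm, hf, horth n v hv] at h
          exact h
        show (a i : Module.End F (Fin 10 → F)) (v i) = 0
        rw [h0]; rfl
      obtain ⟨x, hxX, hQx⟩ : ∃ x ∈ X, Q x ≠ 0 := by
        by_contra hcon
        push Not at hcon
        have hle : X ≤ W := by
          rw [← hI.perp_perp W]
          intro a ha c hc
          show BQ c a = 0
          rw [QuadraticMap.polar, hcon _ (X.add_mem hc ha), hcon c hc, hcon a ha]; ring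
        rw [inf_eq_right.mpr hle] at hWX
        rw [hWX, finrank_bot] at hXd
        omega
      refine ⟨Fin.snoc v x, fun i => ?_, fun i j hij l hl => ?_⟩
      · induction i using Fin.lastCases with
        | last => simpa using hQx
        | cast i => simpa using hQv i
      · induction i using Fin.lastCases with
        | last =>
          induction j using Fin.lastCases with
          | last => exact absurd rfl hij
          | cast j =>
            simp only [Fin.snoc_last, Fin.snoc_castSucc]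
            rw [QuadraticMap.polar_comm]
            exact hxX _ (hmemW j ⟨l, hl⟩)
        | cast i =>
          induction j using Fin.lastCases with
          | last =>
            simp only [Fin.snoc_last, Fin.snoc_castSucc]
            have hp : ∀ m ∈ L, BQ x (m (v i)) = 0 := fun m hm => by
              rw [QuadraticMap.polar_comm]; exact hxX _ (hmemW i ⟨m, hm⟩)
            have h := hzero x (v i) hp l hl 1 L.one_mem
            rw [QuadraticMap.polar_comm]
            simpa using h
          | cast j => simpa using hv i j (fun e => hij (by rw [e])) l hl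
  obtain ⟨v, hQv, hv⟩ := hsys 5 le_rfl
  let w : Fin 5 × Fin 2 → Fin 10 → F := fun p => ev (v p.1) (b p.2)
  have hli : LinearIndependent F w := by
    rw [Fintype.linearIndependent_iff]
    intro c hc p
    let a : Fin 5 → L := fun i => ∑ k, c (i, k) • b k
    have hsum : ∑ i, ev (v i) (a i) = 0 := by
      rw [← hc, Fintype.sum_prod_type]
      simp [a, w]
    have h0 : a p.1 = 0 := Subtype.ext (hnd (v p.1) (hQv p.1) _ (a p.1).2 fun l hl => by
      have h := horth 5 v hv a p.1 ⟨l, hl⟩
      rw [hsum, QuadraticMap.polar_zero_left] at h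
      exact h.symm)
    have h1 : b.repr (a p.1) p.2 = 0 := by rw [h0, map_zero, Finsupp.zero_apply]
    rwa [show a p.1 = ∑ k, c (p.1, k) • b k from rfl, Module.Basis.repr_sum_self] at h1
  let D : Fin 5 → Submodule F (Fin 10 → F) := fun i => LinearMap.range (ev (v i))
  have hinj : ∀ i, Function.Injective (ev (v i)) := fun i => (injective_iff_map_eq_zero _).mpr fun l hl => by
    refine Subtype.ext (hnd (v i) (hQv i) _ l.2 fun m _ => ?_)
    rw [show (l : Module.End F (Fin 10 → F)) (v i) = 0 from hl]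
    exact QuadraticMap.polar_zero_left Q _
  refine not_plus_of_planes hQ (D := D) ⟨⟨by omega, by omega, fun i => ?_, ?_, ?_⟩, ?_, ?_⟩ ?_ hplus
  · rw [LinearMap.finrank_range_of_inj (hinj i), hfin]
  · intro i
    rw [disjoint_iff]
    refine le_bot_iff.mp ?_
    rintro _ ⟨⟨l, rfl⟩, hl⟩
    rw [Submodule.mem_bot]
    have hle : (⨆ (j) (_ : j ≠ i), D j) ≤ perp (QuadraticMap.polarBilin Q) (D i) := by
      refine iSup₂_le fun j hji => ?_
      rintro _ ⟨m, rfl⟩ _ ⟨n, rfl⟩
      exact hzero _ _ (hv i j hji.symm) _ n.2 _ m.2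
    have h0 : (l : Module.End F (Fin 10 → F)) = 0 := hnd (v i) (hQv i) _ l.2 fun m hm => by
      rw [QuadraticMap.polar_comm]
      exact hle hl _ ⟨⟨m, hm⟩, rfl⟩
    show (l : Module.End F (Fin 10 → F)) (v i) = 0
    rw [h0]; rfl
  · refine eq_top_iff.mpr ?_
    rw [← hli.span_eq_top_of_card_eq_finrank (by rw [finrank_pi]; simp), Submodule.span_le]
    rintro _ ⟨⟨i, k⟩, rfl⟩
    exact le_iSup D i ⟨b k, rfl⟩
  · rintro i _ ⟨l, rfl⟩ h0
    have hl : (l : Module.End F (Fin 10 → F)) ≠ 0 := fun h => h0 (by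
      show (l : Module.End F (Fin 10 → F)) (v i) = 0
      rw [h]; rfl)
    obtain ⟨m, hm, hne⟩ := not_forall₂.mp fun h => hl (hnd (v i) (hQv i) _ l.2 h)
    exact ⟨⟨_, ⟨⟨m, hm⟩, rfl⟩, by rw [QuadraticMap.polar_comm]; exact hne⟩, ⟨_, ⟨⟨m, hm⟩, rfl⟩, hne⟩⟩
  · rintro i j hij _ ⟨l, rfl⟩ _ ⟨m, rfl⟩
    exact hzero _ _ (hv i j hij) _ l.2 _ m.2
  · rintro i _ ⟨l, rfl⟩ h
    by_contra h0
    exact haniso _ l.2 (fun e => h0 (by
      show (l : Module.End F (Fin 10 → F)) (v i) = 0
      rw [e]; rfl)) (v i) (hQv i) h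

end Cfsg.Agent.GeomClasses.EvenTen
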