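import Cfsg.Agent.GeomClasses.EvenTen.Basic
import Cfsg.Agent.GeomClasses.Aschbacher.Rel.Sp
import Cfsg.Agent.Forms.FormTransfer

/-! # Reducible groups of isometries in dimension ten, minus type -/

set_option autoImplicit false

namespace Cfsg.Agent.GeomClasses.EvenTen

open Matrix Cfsg.Geo Module
open Cfsg.Agent.GeomClasses.AschRel
open Cfsg.Agent.GeomClasses.Asch (Irr Normalises)

variable {ι : Type} [Fintype ι] [DecidableEq ι] {F : Type*} [Field F] {Q : QuadraticForm F (ι → F)}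

local notation "fq" => matForm (RingEquiv.refl F) (qgram Q)

/-- Anti-isometric complementary orthogonal halves give plus type. -/
theorem plus_of_anti {W W' : Submodule F (ι → F)} (hdisj : W ⊓ W' = ⊥)
    (hd : 2 * finrank F W = Fintype.card ι)
    (ho : ∀ a ∈ W, ∀ b ∈ W', QuadraticMap.polar (⇑Q) a b = 0) (e : W ≃ₗ[F] W')
    (he : ∀ w : W, Q (e w : ι → F) = -Q (w : ι → F)) : IsPlusTypeOn ⇑Q ⊤ := by
  let φ : W →ₗ[F] (ι → F) :=
    { toFun := fun w => (w : ι → F) + (e w : ι → F)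
      map_add' := fun a b => by simp only [Submodule.coe_add, map_add]; abel
      map_smul' := fun c a => by simp [smul_add] }
  refine ⟨LinearMap.range φ, le_top, ?_, ?_⟩
  · rintro _ ⟨w, rfl⟩
    show Q ((w : ι → F) + (e w : ι → F)) = 0
    rw [QuadraticMap.map_add (⇑Q), ho _ w.2 _ (e w).2, he]; ring
  · have hinj : Function.Injective φ := by
      refine (injective_iff_map_eq_zero φ).mpr fun w hw => ?_
      have h1 : (w : ι → F) = -(e w : ι → F) := eq_neg_of_add_eq_zero_left hw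
      have h2 : (w : ι → F) ∈ W ⊓ W' := ⟨w.2, h1 ▸ W'.neg_mem (e w).2⟩
      rw [hdisj, Submodule.mem_bot] at h2
      exact Subtype.ext h2
    rw [LinearMap.finrank_range_of_inj hinj, finrank_top, finrank_pi, hd]

/-- The kernel of a function that is additive and squares scalars. -/
def sqKer (f : (ι → F) → F) (hadd : ∀ u v, f (u + v) = f u + f v)
    (hsm : ∀ (c : F) v, f (c • v) = c ^ 2 * f v) : Submodule F (ι → F) where
  carrier := {v | f v = 0}
  add_mem' {u v} hu hv := by
    show f (u + v) = 0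
    rw [hadd, show f u = 0 from hu, show f v = 0 from hv, add_zero]
  zero_mem' := by
    show f 0 = 0
    rw [← zero_smul F (0 : ι → F), hsm]; ring
  smul_mem' c v hv := by
    show f (c • v) = 0
    rw [hsm, show f v = 0 from hv, mul_zero]

variable [Fintype F]

theorem finrank_sqKer (h2 : (2 : F) = 0) (f : (ι → F) → F) (hadd : ∀ u v, f (u + v) = f u + f v)
    (hsm : ∀ (c : F) v, f (c • v) = c ^ 2 * f v) (W : Submodule F (ι → F)) :
    finrank F W ≤ finrank F ↥(W ⊓ sqKer f hadd hsm) + 1 := by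
  classical
  haveI : CharP F 2 := CharTwo.of_one_ne_zero_of_two_eq_zero one_ne_zero h2
  haveI : Fact (Nat.Prime 2) := ⟨Nat.prime_two⟩
  let s : F ≃+* F := frobeniusEquiv F 2
  have hs : ∀ x, s x = x ^ 2 := fun x => by simp [s, frobeniusEquiv_apply, frobenius_def]
  let φ : W →ₗ[F] F :=
    { toFun := fun w => s.symm (f w)
      map_add' := fun a b => by rw [Submodule.coe_add, hadd, map_add]
      map_smul' := fun c a => by
        rw [Submodule.coe_smul, hsm, map_mul, ← hs, RingEquiv.symm_apply_apply, RingHom.id_apply, smul_eq_mul] }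
  have h1 := φ.finrank_range_add_finrank_ker
  have h3 : finrank F (LinearMap.range φ) ≤ 1 := (Submodule.finrank_le _).trans_eq (finrank_self F)
  let ψ : LinearMap.ker φ →ₗ[F] ↥(W ⊓ sqKer f hadd hsm) :=
    { toFun := fun w => ⟨((w : W) : ι → F), (w : W).2, by
        have := w.2
        rw [LinearMap.mem_ker] at this
        show f _ = 0
        exact s.symm.map_eq_zero_iff.mp this⟩
      map_add' := fun _ _ => rfl
      map_smul' := fun _ _ => rfl }
  have h4 : finrank F (LinearMap.ker φ) ≤ finrank F ↥(W ⊓ sqKer f hadd hsm) :=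
    LinearMap.finrank_le_finrank_of_injective (f := ψ) fun a b h =>
      Subtype.ext (Subtype.ext (congrArg (fun x : ↥(W ⊓ sqKer f hadd hsm) => (x : ι → F)) h))
  omega

/-- On a totally isotropic subspace in characteristic two the form is semilinear; its kernel. -/
theorem exists_singular_sub (h2 : (2 : F) = 0) {W : Submodule F (ι → F)}
    (hW : ∀ a ∈ W, ∀ b ∈ W, QuadraticMap.polar (⇑Q) a b = 0) :
    ∃ U : Submodule F (ι → F), U ≤ W ∧ IsTotallySingularQuad ⇑Q U ∧ finrank F W ≤ finrank F U + 1 ∧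
      ∀ v ∈ W, Q v = 0 → v ∈ U := by
  classical
  let U : Submodule F (ι → F) :=
    { carrier := {v | v ∈ W ∧ Q v = 0}
      add_mem' := fun {a b} ha hb => ⟨W.add_mem ha.1 hb.1, by
        rw [QuadraticMap.map_add (⇑Q), ha.2, hb.2, hW a ha.1 b hb.1]; ring⟩
      zero_mem' := ⟨W.zero_mem, QuadraticMap.map_zero Q⟩
      smul_mem' := fun c a ha => ⟨W.smul_mem c ha.1, by rw [QuadraticMap.map_smul, ha.2, smul_zero]⟩ }
  refine ⟨U, fun v hv => hv.1, fun v hv => hv.2, ?_, fun v hv h => ⟨hv, h⟩⟩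
  haveI : CharP F 2 := CharTwo.of_one_ne_zero_of_two_eq_zero one_ne_zero h2
  haveI : Fact (Nat.Prime 2) := ⟨Nat.prime_two⟩
  let s : F ≃+* F := frobeniusEquiv F 2
  have hs : ∀ x, s x = x ^ 2 := fun x => by simp [s, frobeniusEquiv_apply, frobenius_def]
  let φ : W →ₗ[F] F :=
    { toFun := fun w => s.symm (Q w)
      map_add' := fun a b => by
        rw [Submodule.coe_add, QuadraticMap.map_add (⇑Q), hW _ a.2 _ b.2, add_zero, map_add]
      map_smul' := fun c a => by
        rw [Submodule.coe_smul, QuadraticMap.map_smul, smul_eq_mul, map_mul, ← pow_two, ← hs,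
          RingEquiv.symm_apply_apply, RingHom.id_apply, smul_eq_mul] }
  have h1 := φ.finrank_range_add_finrank_ker
  have h3 : finrank F (LinearMap.range φ) ≤ 1 := (Submodule.finrank_le _).trans_eq (finrank_self F)
  let ψ : LinearMap.ker φ →ₗ[F] U :=
    { toFun := fun w => ⟨((w : W) : ι → F), (w : W).2, s.symm.map_eq_zero_iff.mp (LinearMap.mem_ker.mp w.2)⟩
      map_add' := fun _ _ => rfl
      map_smul' := fun _ _ => rfl }
  have h4 : finrank F (LinearMap.ker φ) ≤ finrank F U :=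
    LinearMap.finrank_le_finrank_of_injective (f := ψ) fun a b h =>
      Subtype.ext (Subtype.ext (congrArg (fun x : U => (x : ι → F)) h))
  omega

/-- In characteristic two non-degenerate subspaces have even dimension. -/
theorem even_finrank_nondeg (h2 : (2 : F) = 0) {W : Submodule F (ι → F)}
    (hW : IsNondegenerateOn (QuadraticMap.polar ⇑Q) W) : Even (finrank F W) := by
  refine Cfsg.Agent.Forms.alt_finrank_even (B := LinearMap.BilinForm.restrict (QuadraticMap.polarBilin Q) W) (fun w => ?_) ?_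
  · show QuadraticMap.polar (⇑Q) (w : ι → F) w = 0
    rw [QuadraticMap.polar_self, two_smul]
    linear_combination (Q (w : ι → F)) * h2
  · have hl : ∀ w : W, (∀ x : W, QuadraticMap.polar (⇑Q) (w : ι → F) x = 0) → w = 0 := fun w hw => by
      by_contra h0
      obtain ⟨-, x, hx, hne⟩ := hW w w.2 fun e => h0 (Subtype.ext e)
      exact hne (hw ⟨x, hx⟩)
    exact hl

omit [DecidableEq ι] in
/-- Non-squares multiply to a square. -/
theorem isSquare_mul_of_not {a b : F} (ha : ¬ IsSquare a) (hb : ¬ IsSquare b) : IsSquare (a * b) := by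
  classical
  have ha0 : a ≠ 0 := fun h => ha (h ▸ IsSquare.zero)
  have hb0 : b ≠ 0 := fun h => hb (h ▸ IsSquare.zero)
  rw [← quadraticChar_one_iff_isSquare (mul_ne_zero ha0 hb0), map_mul, quadraticChar_neg_one_iff_not_isSquare.mpr ha,
    quadraticChar_neg_one_iff_not_isSquare.mpr hb]
  norm_num

/-- Two five-dimensional non-degenerate subspaces are similar. -/
theorem five_similar (h2 : (2 : F) ≠ 0) {W W' : Submodule F (ι → F)} (hd : finrank F W = 5) (hd' : finrank F W' = 5)
    (hW : IsNondegenerateOn (QuadraticMap.polar ⇑Q) W) (hW' : IsNondegenerateOn (QuadraticMap.polar ⇑Q) W') :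
    ∃ (a : F) (e : W ≃ₗ[F] W'), a ≠ 0 ∧ ∀ w : W, Q (e w : ι → F) = a * Q (w : ι → F) := by
  classical
  let b := Module.finBasisOfFinrankEq F W hd
  let b' := Module.finBasisOfFinrankEq F W' hd'
  have key : ∀ (U : Submodule F (ι → F)) (c : Module.Basis (Fin 5) F U),
      IsNondegenerateOn (QuadraticMap.polar ⇑Q) U →
      IsUnit (LinearMap.BilinForm.toMatrix c (LinearMap.BilinForm.restrict (QuadraticMap.polarBilin Q) U)).det ∧
      (LinearMap.BilinForm.toMatrix c (LinearMap.BilinForm.restrict (QuadraticMap.polarBilin Q) U))ᵀ =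
        LinearMap.BilinForm.toMatrix c (LinearMap.BilinForm.restrict (QuadraticMap.polarBilin Q) U) := by
    intro U c hU
    refine ⟨isUnit_iff_ne_zero.mpr ((LinearMap.BilinForm.nondegenerate_iff_det_ne_zero c).mp ?_), ?_⟩
    · have hl : ∀ w : U, (∀ x : U, QuadraticMap.polar (⇑Q) (w : ι → F) x = 0) → w = 0 := fun w hw => by
        by_contra h0
        obtain ⟨-, x, hx, hne⟩ := hU w w.2 fun e => h0 (Subtype.ext e)
        exact hne (hw ⟨x, hx⟩)
      exact ⟨hl, fun w hw => hl w fun x => by rw [QuadraticMap.polar_comm]; exact hw x⟩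
    · ext i j
      simp only [Matrix.transpose_apply, LinearMap.BilinForm.toMatrix_apply]
      exact QuadraticMap.polar_comm _ _ _
  obtain ⟨hG, hGs⟩ := key W b hW
  obtain ⟨hG', hGs'⟩ := key W' b' hW'
  obtain ⟨S, a, ha, hS⟩ := exists_similar h2 (d := 5) (by decide) hG' hGs' hG hGs
  let e : W ≃ₗ[F] W' := (b.equivFun.trans (Matrix.GeneralLinearGroup.toLin S).toLinearEquiv).trans b'.equivFun.symm
  refine ⟨a, e, ha, fun w => ?_⟩
  set G := LinearMap.BilinForm.toMatrix b (LinearMap.BilinForm.restrict (QuadraticMap.polarBilin Q) W)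
  set G' := LinearMap.BilinForm.toMatrix b' (LinearMap.BilinForm.restrict (QuadraticMap.polarBilin Q) W')
  have he : b'.equivFun (e w) = (S : Matrix (Fin 5) (Fin 5) F) *ᵥ b.equivFun w := by
    simp only [e, LinearEquiv.trans_apply, LinearEquiv.apply_symm_apply]
    rfl
  have h1 : QuadraticMap.polar (⇑Q) (e w : ι → F) (e w) = a * QuadraticMap.polar (⇑Q) (w : ι → F) w := by
    have q1 : QuadraticMap.polar (⇑Q) (e w : ι → F) (e w) = b'.equivFun (e w) ⬝ᵥ G' *ᵥ b'.equivFun (e w) :=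
      LinearMap.BilinForm.apply_eq_dotProduct_toMatrix_mulVec b' (LinearMap.BilinForm.restrict (QuadraticMap.polarBilin Q) W') (e w) (e w)
    have q2 : QuadraticMap.polar (⇑Q) (w : ι → F) w = b.equivFun w ⬝ᵥ G *ᵥ b.equivFun w :=
      LinearMap.BilinForm.apply_eq_dotProduct_toMatrix_mulVec b (LinearMap.BilinForm.restrict (QuadraticMap.polarBilin Q) W) w w
    rw [q1, q2, he, Matrix.mulVec_mulVec, Matrix.dotProduct_mulVec, Matrix.vecMul_mulVec, ← mul_assoc,
      ← Matrix.dotProduct_mulVec, hS, Matrix.smul_mulVec, dotProduct_smul, smul_eq_mul]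
  rw [QuadraticMap.polar_self, QuadraticMap.polar_self, two_smul, two_smul] at h1
  exact mul_left_cancel₀ h2 (by linear_combination h1)

/-- A group of isometries in dimension ten acting reducibly. -/
theorem reducible_core (hQ : (QuadraticMap.polarBilin Q).Nondegenerate) (hn : Fintype.card ι = 10)
    {H : Subgroup (GL ι F)} (hI : H ≤ isometryGroup F ⇑Q)
    (hirr : ¬ Irr ((fun g : (Module.End F (ι → F))ˣ => (g : Module.End F (ι → F))) ''
      (gu '' ((H ⊔ scalars ι F : Subgroup _) : Set _)))) :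
    (∃ W, W ≠ ⊥ ∧ W ≠ ⊤ ∧ IsTotallySingularQuad ⇑Q W ∧ H ≤ subspaceStabilizer W) ∨
    (¬ Odd (Fintype.card F) ∧ ∃ v, Q v ≠ 0 ∧ H ≤ subspaceStabilizer (Submodule.span F {v})) ∨
    (Odd (Fintype.card F) ∧ ∃ W : Submodule F (ι → F), W ≠ ⊥ ∧ W ≠ ⊤ ∧ Odd (finrank F W) ∧ finrank F W ≠ 5 ∧
      IsNondegenerateOn (QuadraticMap.polar ⇑Q) W ∧ H ≤ subspaceStabilizer W) ∨
    (∃ W : Submodule F (ι → F), (finrank F W = 2 ∨ finrank F W = 4) ∧
      IsNondegenerateOn (QuadraticMap.polar ⇑Q) W ∧ H ≤ subspaceStabilizer W) ∨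
    (Odd (Fintype.card F) ∧ ∃ D : Fin 2 → Submodule F (ι → F),
      IsNondegenerateMDecomposition (QuadraticMap.polar ⇑Q) 5 D ∧ H ≤ decompositionStabilizer D) := by
  classical
  have hB := formData Q hQ
  haveI : Nonempty ι := Fintype.card_pos_iff.mp (by omega)
  rcases reducible_cases hB (sim_sup Q hI) hirr with ⟨W, hW0, hW, hKW⟩ |
    ⟨W, W', hW0, hW1, hW'0, hW'1, hW, hW', ho, hdisj, hsup, hKW, hKW'⟩
  · have hle : H ≤ subspaceStabilizer W := le_sup_left.trans hKW
    have hpol : ∀ a ∈ W, ∀ b ∈ W, QuadraticMap.polar (⇑Q) a b = 0 := fun a ha b hb => by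
      rw [polar_eq]; exact hW a ha b hb
    have htop : ∀ U : Submodule F (ι → F), U ≤ W → U ≠ ⊤ := fun U hU e => by
      obtain ⟨v, -, hv0⟩ := Submodule.exists_mem_ne_zero_of_ne_bot hW0
      obtain ⟨⟨x, hx⟩, -⟩ := nondeg_matForm (σ := RingEquiv.refl F) hB.unit v hv0
      exact hx (hW x (hU (e ▸ Submodule.mem_top)) v (hU (e ▸ Submodule.mem_top)))
    by_cases hq : Odd (Fintype.card F)
    · refine Or.inl ⟨W, hW0, htop W le_rfl, fun w hw => ?_, hle⟩
      have h := hpol w hw w hw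
      rw [QuadraticMap.polar_self, two_smul] at h
      exact (mul_eq_zero.mp (by linear_combination h : (2 : F) * Q w = 0)).resolve_left (two_ne_of_odd hq)
    obtain ⟨U, hUW, hUs, hUd, hUm⟩ := exists_singular_sub (char_two_of_even hq) hpol
    by_cases hU : U = ⊥
    · right; left
      refine ⟨hq, ?_⟩
      have hW1 : finrank F W = 1 := by
        rw [hU, finrank_bot] at hUd
        have : finrank F W ≠ 0 := fun h => hW0 (Submodule.finrank_eq_zero.mp h)
        omega
      obtain ⟨v, hv, hv0⟩ := Submodule.exists_mem_ne_zero_of_ne_bot hW0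
      refine ⟨v, fun h => ?_, ?_⟩
      · have := hUm v hv h
        rw [hU, Submodule.mem_bot] at this
        exact hv0 this
      · rwa [Submodule.eq_of_le_of_finrank_eq ((Submodule.span_singleton_le_iff_mem v W).mpr hv)
          (by rw [finrank_span_singleton hv0, hW1])]
    · refine Or.inl ⟨U, hU, htop U hUW, hUs, fun g hg => ?_⟩
      rw [mem_subspaceStabilizer_iff]
      intro v hv
      refine hUm _ (mem_subspaceStabilizer_iff.mp (hle hg) v (hUW hv)) ?_
      rw [quad_of_mem Q (hI hg)]; exact hUs v hv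
  -- a non-degenerate pair
  have hWn : IsNondegenerateOn (QuadraticMap.polar ⇑Q) W := by
    intro w hw h0; simpa only [polar_eq] using hW w hw h0
  have hWn' : IsNondegenerateOn (QuadraticMap.polar ⇑Q) W' := by
    intro w hw h0; simpa only [polar_eq] using hW' w hw h0
  have ho' : ∀ a ∈ W, ∀ b ∈ W', QuadraticMap.polar (⇑Q) a b = 0 := fun a ha b hb => by
    rw [QuadraticMap.polar_comm, polar_eq]; exact ho b hb a ha
  have hdim : finrank F W + finrank F W' = 10 := by
    have := Submodule.finrank_sup_add_finrank_inf_eq W W'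
    rw [hdisj, hsup, finrank_bot, add_zero, finrank_top, finrank_pi, hn] at this
    exact this.symm
  have hpos : finrank F W ≠ 0 ∧ finrank F W' ≠ 0 :=
    ⟨fun h => hW0 (Submodule.finrank_eq_zero.mp h), fun h => hW'0 (Submodule.finrank_eq_zero.mp h)⟩
  have hle := le_sup_left.trans hKW
  have hle' := le_sup_left.trans hKW'
  have heven : ¬ Odd (Fintype.card F) → Even (finrank F W) ∧ Even (finrank F W') := fun hq =>
    ⟨even_finrank_nondeg (char_two_of_even hq) hWn, even_finrank_nondeg (char_two_of_even hq) hWn'⟩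
  rcases Nat.even_or_odd (finrank F W) with hev | hodd
  · rw [Nat.even_iff] at hev
    right; right; right; left
    by_cases h4 : finrank F W ≤ 4
    · exact ⟨W, by omega, hWn, hle⟩
    · exact ⟨W', by omega, hWn', hle'⟩
  have hq : Odd (Fintype.card F) := by
    by_contra hq
    exact Nat.not_even_iff_odd.mpr hodd (heven hq).1
  by_cases h5 : finrank F W ≠ 5
  · exact Or.inr (Or.inr (Or.inl ⟨hq, W, hW0, hW1, hodd, h5, hWn, hle⟩))
  push Not at h5
  iterate 4 right
  have h5' : finrank F W' = 5 := by omega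
  have h2 := two_ne_of_odd hq
  have hD : IsNondegenerateMDecomposition (QuadraticMap.polar ⇑Q) 5 ![W, W'] := by
    refine ⟨⟨le_rfl, by norm_num, ?_, ?_, ?_⟩, ?_, ?_⟩
    · rw [Fin.forall_fin_two]; exact ⟨h5, h5'⟩
    · rw [iSupIndep_pair (i := (0 : Fin 2)) (j := 1) (by decide) (fun k => by fin_cases k <;> simp)]
      exact disjoint_iff.mpr hdisj
    · rw [eq_top_iff, ← hsup]
      exact sup_le (le_iSup ![W, W'] 0) (le_iSup ![W, W'] 1)
    · rw [Fin.forall_fin_two]; exact ⟨hWn, hWn'⟩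
    · simp only [Fin.forall_fin_two, ne_eq, not_true_eq_false, IsEmpty.forall_iff, true_and, and_true]
      exact ⟨fun _ a ha b hb => ho' a ha b hb, fun _ a ha b hb => by rw [QuadraticMap.polar_comm]; exact ho' b hb a ha⟩
  refine ⟨hq, ![W, W'], hD, fun g hg => ⟨1, ?_⟩⟩
  have hm : ∀ U : Submodule F (ι → F), H ≤ subspaceStabilizer U → ∀ g ∈ H,
      U.map (Matrix.toLin' (g : Matrix ι ι F)) = U := fun U hU g hg => by
    refine le_antisymm ?_ fun v hv => ⟨((g⁻¹ : GL ι F) : Matrix ι ι F) *ᵥ v,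
      mem_subspaceStabilizer_iff.mp (hU (inv_mem hg)) v hv, ?_⟩
    · rintro _ ⟨v, hv, rfl⟩
      rw [Matrix.toLin'_apply]
      exact mem_subspaceStabilizer_iff.mp (hU hg) v hv
    · rw [Matrix.toLin'_apply, Matrix.mulVec_mulVec, ← Units.val_mul, mul_inv_cancel, Units.val_one, Matrix.one_mulVec]
  rw [Fin.forall_fin_two]
  exact ⟨hm W hle g hg, hm W' hle' g hg⟩

/-- A group of isometries of a form of minus type in dimension ten acting reducibly. -/
theorem reducible (hQ : (QuadraticMap.polarBilin Q).Nondegenerate) (hn : Fintype.card ι = 10)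
    (hminus : ¬ IsPlusTypeOn ⇑Q ⊤) {H : Subgroup (GL ι F)} (hI : H ≤ isometryGroup F ⇑Q)
    (hirr : ¬ Irr ((fun g : (Module.End F (ι → F))ˣ => (g : Module.End F (ι → F))) ''
      (gu '' ((H ⊔ scalars ι F : Subgroup _) : Set _)))) :
    (∃ W, W ≠ ⊥ ∧ W ≠ ⊤ ∧ IsTotallySingularQuad ⇑Q W ∧ H ≤ subspaceStabilizer W) ∨
    (¬ Odd (Fintype.card F) ∧ ∃ v, Q v ≠ 0 ∧ H ≤ subspaceStabilizer (Submodule.span F {v})) ∨
    (Odd (Fintype.card F) ∧ ∃ W : Submodule F (ι → F), W ≠ ⊥ ∧ W ≠ ⊤ ∧ Odd (finrank F W) ∧ finrank F W ≠ 5 ∧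
      IsNondegenerateOn (QuadraticMap.polar ⇑Q) W ∧ H ≤ subspaceStabilizer W) ∨
    (∃ W : Submodule F (ι → F), (finrank F W = 2 ∨ finrank F W = 4) ∧
      IsNondegenerateOn (QuadraticMap.polar ⇑Q) W ∧ H ≤ subspaceStabilizer W) ∨
    ∃ D : Fin 2 → Submodule F (ι → F), IsNondegenerateMDecomposition (QuadraticMap.polar ⇑Q) 5 D ∧
      H ≤ decompositionStabilizer D ∧
      ((Fintype.card F % 4 = 3 ∧ IsOrthogonalMDecomposition ⇑Q 5 D) ∨
        (Fintype.card F % 4 = 1 ∧ ¬ AreIsometricFor ⇑Q (D 0) (D 1))) := by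
  classical
  rcases reducible_core hQ hn hI hirr with h | h | h | h | ⟨hq, D, hD, hle⟩
  · exact Or.inl h
  · exact Or.inr <| Or.inl h
  · exact Or.inr <| Or.inr <| Or.inl h
  · exact Or.inr <| Or.inr <| Or.inr <| Or.inl h
  iterate 4 right
  refine ⟨D, hD, hle, ?_⟩
  have h2 := two_ne_of_odd hq
  set W := D 0
  set W' := D 1
  have h5 : finrank F W = 5 := hD.decomp.finrank_eq 0
  have h5' : finrank F W' = 5 := hD.decomp.finrank_eq 1
  have hWn := hD.nondegenerate 0
  have hWn' := hD.nondegenerate 1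
  have ho' : ∀ a ∈ W, ∀ b ∈ W', QuadraticMap.polar (⇑Q) a b = 0 := hD.orthogonal 0 1 (by decide)
  have hdisj : W ⊓ W' = ⊥ := disjoint_iff.mp (hD.decomp.indep.pairwiseDisjoint (by decide : (0 : Fin 2) ≠ 1))
  obtain ⟨a, e, ha, he⟩ := five_similar h2 h5 h5' hWn hWn'
  have hscale : ∀ c : F, IsSquare (c * a) → c ≠ 0 →
      ∃ e' : W ≃ₗ[F] W', ∀ w : W, Q (e' w : ι → F) = c⁻¹ * Q (w : ι → F) := by
    rintro c ⟨s, hs⟩ hc
    have hs0 : s ≠ 0 := fun h => mul_ne_zero hc ha (by rw [hs, h, mul_zero])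
    refine ⟨e.trans (LinearEquiv.smulOfUnit (Units.mk0 s⁻¹ (inv_ne_zero hs0))), fun w => ?_⟩
    show Q (s⁻¹ • (e w : ι → F)) = _
    rw [QuadraticMap.map_smul, he, smul_eq_mul]
    field_simp
    linear_combination (Q (w : ι → F)) * hs
  have hnoanti : ¬ IsSquare (-a) := fun h => by
    obtain ⟨e', he'⟩ := hscale (-1) (by simpa using h) (by simp)
    exact hminus (plus_of_anti hdisj (by rw [h5, hn]) ho' e' fun w => by rw [he']; field_simp)
  have hq4 : Fintype.card F % 4 = 3 ∨ Fintype.card F % 4 = 1 := by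
    rw [Nat.odd_iff] at hq; omega
  rcases hq4 with h3 | h1
  · refine Or.inl ⟨h3, ?_⟩
    have hneg : ¬ IsSquare (-1 : F) := fun h => FiniteField.isSquare_neg_one_iff.mp h h3
    have hsq : IsSquare ((1 : F) * a) := by
      simpa using isSquare_mul_of_not hneg hnoanti
    obtain ⟨e', he'⟩ := hscale 1 hsq one_ne_zero
    have hQ1 : ∀ w : W, Q (e' w : ι → F) = Q (w : ι → F) := fun w => by rw [he', inv_one, one_mul]
    have hQ2 : ∀ w : W', Q (e'.symm w : ι → F) = Q (w : ι → F) := fun w => by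
      rw [← hQ1, LinearEquiv.apply_symm_apply]
    refine ⟨hD, ?_⟩
    simp only [Fin.forall_fin_two]
    exact ⟨⟨⟨LinearEquiv.refl F W, fun _ => rfl⟩, ⟨e', hQ1⟩⟩,
      ⟨⟨e'.symm, hQ2⟩, ⟨LinearEquiv.refl F W', fun _ => rfl⟩⟩⟩
  · refine Or.inr ⟨h1, ?_⟩
    show ¬ AreIsometricFor ⇑Q W W'
    rintro ⟨f, hf⟩
    obtain ⟨i, hi⟩ := FiniteField.isSquare_neg_one_iff.mpr (show Fintype.card F % 4 ≠ 3 by omega)
    have hi0 : i ≠ 0 := fun h => by rw [h, mul_zero] at hi; exact neg_ne_zero.mpr one_ne_zero hi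
    refine hminus (plus_of_anti hdisj (by rw [h5, hn]) ho'
      (f.trans (LinearEquiv.smulOfUnit (Units.mk0 i hi0))) fun w => ?_)
    show Q (i • ((f w : W') : ι → F)) = _
    rw [QuadraticMap.map_smul, smul_eq_mul, hf, ← hi]; ring

end Cfsg.Agent.GeomClasses.EvenTen
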