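import Cfsg.Agent.GeomClasses.EvenTen.Blocks
import Cfsg.Agent.GeomClasses.EvenTen.Reduce
import Cfsg.Agent.GeomClasses.FrameRefinePlus
import Cfsg.Agent.GeomClasses.EvenTen.PlusPlanes
import Cfsg.Agent.Forms.Discr

/-! # Transitive orthogonal decompositions in dimension ten, plus type -/

set_option autoImplicit false
set_option maxHeartbeats 800000

namespace Cfsg.Agent.GeomClasses.EvenTen

open Matrix Cfsg.Geo Module
open Cfsg.Agent.GeomClasses.AschRel
open scoped Kronecker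

variable {F : Type*} [Field F] [Fintype F] {Q : QuadraticForm F (Fin 10 → F)}

local notation "fq" => matForm (RingEquiv.refl F) (qgram Q)

theorem fq_eq_polar : fq = QuadraticMap.polar ⇑Q := funext fun u => funext fun v => (polar_eq Q u v).symm

/-- Similar orthogonal blocks in even number: the discriminant condition of plus type. -/
theorem isSquare_neg_prod (hQ : (QuadraticMap.polarBilin Q).Nondegenerate) (h2 : (2 : F) ≠ 0)
    (hplus : IsPlusTypeOn (⇑Q) ⊤) {t k : ℕ} {D : Fin t → Submodule F (Fin 10 → F)}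
    (hD : IsNondegenerateMDecomposition (QuadraticMap.polar ⇑Q) k D) (i₀ : Fin t) (e : ∀ i, D i₀ ≃ₗ[F] D i)
    (c : Fin t → F) (he : ∀ i (w : D i₀), Q (e i w : Fin 10 → F) = c i * Q (w : Fin 10 → F)) (ht : Even t) :
    IsSquare (-(∏ i, c i) ^ k) := by
  classical
  obtain ⟨U, -, hU, hUd⟩ := hplus
  rw [finrank_top, finrank_fin_fun] at hUd
  have hd := hD.decomp
  let b₀ := Module.finBasisOfFinrankEq F (D i₀) (hd.finrank_eq i₀)
  have hint := DirectSum.isInternal_submodule_of_iSupIndep_of_iSup_eq_top hd.indep hd.iSup_eq_top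
  let b : Basis (Fin t × Fin k) F (Fin 10 → F) :=
    (hint.collectedBasis fun i => b₀.map (e i)).reindex (Equiv.sigmaEquivProd _ _)
  have hb : ∀ i j, b (i, j) = (e i (b₀ j) : Fin 10 → F) := fun i j => by
    simp [b, DirectSum.IsInternal.collectedBasis_coe]
    rfl
  have hpol : ∀ i (u w : D i₀), QuadraticMap.polar (⇑Q) (e i u : Fin 10 → F) (e i w) =
      c i * QuadraticMap.polar (⇑Q) (u : Fin 10 → F) w := fun i u w => by
    have h := he i (u + w)
    simp only [map_add, Submodule.coe_add] at h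
    simp only [QuadraticMap.polar, h, he]
    ring
  let G : Matrix (Fin k) (Fin k) F := Matrix.of fun j l => QuadraticMap.polar (⇑Q) (b₀ j : Fin 10 → F) (b₀ l)
  have hM : LinearMap.BilinForm.toMatrix b (QuadraticMap.polarBilin Q) = Matrix.diagonal c ⊗ₖ G := by
    ext ⟨i, j⟩ ⟨i', l⟩
    rw [LinearMap.BilinForm.toMatrix_apply, QuadraticMap.polarBilin_apply_apply, hb, hb, Matrix.kroneckerMap_apply]
    by_cases h : i = i'
    · subst h; rw [Matrix.diagonal_apply_eq, hpol]; rfl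
    · rw [Matrix.diagonal_apply_ne _ h, zero_mul]
      exact hD.orthogonal i i' h _ (e i (b₀ j)).2 _ (e i' (b₀ l)).2
  have hsq := (Forms.isotropic_iff (B := QuadraticMap.polarBilin Q) h2
    ⟨fun x y => QuadraticMap.polar_comm (⇑Q) x y⟩ hQ (r := 5) (by norm_num) (by rw [finrank_fin_fun]) b).mp
    ⟨U, by omega, fun x hx y hy => by
      show QuadraticMap.polar (⇑Q) x y = 0
      rw [QuadraticMap.polar, hU _ (U.add_mem hx hy), hU _ hx, hU _ hy, sub_zero, sub_zero]⟩
  have hdet : (LinearMap.BilinForm.toMatrix b (QuadraticMap.polarBilin Q)).det ≠ 0 :=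
    (LinearMap.BilinForm.nondegenerate_iff_det_ne_zero b).mp hQ
  rw [hM, Matrix.det_kronecker, Matrix.det_diagonal, Fintype.card_fin, Fintype.card_fin] at hdet hsq
  obtain ⟨s, rfl⟩ := ht
  obtain ⟨r, hr⟩ := hsq
  have hG : G.det ^ s ≠ 0 := fun h => hdet (by rw [pow_add, h, mul_zero, mul_zero])
  refine ⟨r / G.det ^ s, ?_⟩
  rw [div_mul_div_comm, eq_div_iff (mul_ne_zero hG hG), ← hr]
  ring

/-- Two orthogonal halves of dimension five. -/
theorem five_pair_cases (hQ : (QuadraticMap.polarBilin Q).Nondegenerate) (hplus : IsPlusTypeOn (⇑Q) ⊤)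
    (hodd : Odd (Fintype.card F)) {D : Fin 2 → Submodule F (Fin 10 → F)}
    (hD : IsNondegenerateMDecomposition (QuadraticMap.polar ⇑Q) 5 D) :
    (Fintype.card F % 4 = 1 ∧ IsOrthogonalMDecomposition (⇑Q) 5 D) ∨
    (Fintype.card F % 4 = 3 ∧ ¬ AreIsometricFor (⇑Q) (D 0) (D 1)) := by
  classical
  have h2 : (2 : F) ≠ 0 := two_ne_of_odd hodd
  have key : ∀ (a : F), a ≠ 0 → ∀ e : D 0 ≃ₗ[F] D 1,
      (∀ w : D 0, Q (e w : Fin 10 → F) = a * Q (w : Fin 10 → F)) → IsSquare (-a) := by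
    intro a ha e he
    let e' : ∀ i, D 0 ≃ₗ[F] D i := Fin.cons (LinearEquiv.refl F _) (Fin.cons e finZeroElim)
    obtain ⟨s, hs⟩ := isSquare_neg_prod hQ h2 hplus hD 0 e' ![1, a]
      (Fin.forall_fin_two.mpr ⟨fun w => (one_mul _).symm, fun w => he w⟩) even_two
    refine ⟨s / (a * a), ?_⟩
    rw [Fin.prod_univ_two] at hs
    simp only [Matrix.cons_val_zero, Matrix.cons_val_one] at hs
    rw [div_mul_div_comm, ← hs, eq_div_iff (by simp [ha])]
    ring
  obtain ⟨a, e, ha, he⟩ := five_similar h2 (hD.decomp.finrank_eq 0) (hD.decomp.finrank_eq 1)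
    (hD.nondegenerate 0) (hD.nondegenerate 1)
  have hq4 : Fintype.card F % 4 = 3 ∨ Fintype.card F % 4 = 1 := by
    rw [Nat.odd_iff] at hodd; omega
  have hneg : AreIsometricFor (⇑Q) (D 0) (D 1) → IsSquare (-1 : F) := by
    rintro ⟨f, hf⟩
    exact key 1 one_ne_zero f fun w => by rw [one_mul, hf]
  by_cases hsq : IsSquare a
  · obtain ⟨s, rfl⟩ := hsq
    have hs0 : s ≠ 0 := fun h => ha (by rw [h, mul_zero])
    let e₁ : D 0 ≃ₗ[F] D 1 := e.trans (LinearEquiv.smulOfUnit (Units.mk0 s⁻¹ (inv_ne_zero hs0)))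
    have h1 : ∀ w : D 0, Q (e₁ w : Fin 10 → F) = Q (w : Fin 10 → F) := fun w => by
      show Q (s⁻¹ • (e w : Fin 10 → F)) = _
      rw [QuadraticMap.map_smul, he, smul_eq_mul]
      field_simp
    have h1' : ∀ w : D 1, Q (e₁.symm w : Fin 10 → F) = Q (w : Fin 10 → F) := fun w => by
      rw [← h1, LinearEquiv.apply_symm_apply]
    have hne := FiniteField.isSquare_neg_one_iff.mp (hneg ⟨e₁, h1⟩)
    refine Or.inl ⟨by omega, hD, ?_⟩
    simp only [Fin.forall_fin_two]
    exact ⟨⟨⟨LinearEquiv.refl F _, fun _ => rfl⟩, ⟨e₁, h1⟩⟩, ⟨⟨e₁.symm, h1'⟩, ⟨LinearEquiv.refl F _, fun _ => rfl⟩⟩⟩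
  · have hna := key a ha e he
    have hnn : ¬ IsSquare (-1 : F) := fun h => hsq (by simpa using h.mul hna)
    refine Or.inr ⟨?_, fun h => hnn (hneg h)⟩
    by_contra h3
    exact hnn (FiniteField.isSquare_neg_one_iff.mpr h3)

/-- The imprimitive outcome, plus type. -/
theorem decomp_cases_plus (hQ : (QuadraticMap.polarBilin Q).Nondegenerate) (hplus : IsPlusTypeOn (⇑Q) ⊤)
    {H : Subgroup (GL (Fin 10) F)} (hH : IsMaximalIn (omegaGL ⇑Q) H) {t k : ℕ}
    {D : Fin t → Submodule F (Fin 10 → F)} (hD : IsNondegenerateMDecomposition fq k D)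
    (hK : H ⊔ scalars (Fin 10) F ≤ decompositionStabilizer D)
    (htr : ∀ i j, ∃ g ∈ H ⊔ scalars (Fin 10) F, ∀ v ∈ D i, (g : Matrix (Fin 10) (Fin 10) F) *ᵥ v ∈ D j) :
    ((∃ p : ℕ, p.Prime ∧ Fintype.card F = p ∧ p % 4 = 1) ∧ ∃ D : Fin 10 → Submodule F (Fin 10 → F),
        IsOrthogonalMDecomposition (⇑Q) 1 D ∧ H ≤ decompositionStabilizer D) ∨
    (7 ≤ Fintype.card F ∧ ∃ D : Fin 5 → Submodule F (Fin 10 → F),
        IsOrthogonalMDecomposition (⇑Q) 2 D ∧ H ≤ decompositionStabilizer D) ∨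
    (Fintype.card F % 4 = 1 ∧ ∃ D : Fin 2 → Submodule F (Fin 10 → F),
        IsOrthogonalMDecomposition (⇑Q) 5 D ∧ H ≤ decompositionStabilizer D) ∨
    (∃ (F₁ : Subfield F) (r : ℕ) (P : GL (Fin 10) F) (z : F), r.Prime ∧ Fintype.card F = Nat.card F₁ ^ r ∧
      z ≠ 0 ∧ IsQuadFormRationalStructure (fun v : Fin 10 → F => z * Q v) F₁ P ∧ H ≤ subfieldSubgroup F₁ P) := by
  classical
  have hI : H ≤ isometryGroup F ⇑Q := hH.1.le.trans (omega_le_isometry Q)
  have hKH : H ≤ decompositionStabilizer D := le_sup_left.trans hK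
  have htr' : ∀ i j, ∃ g ∈ H, ∀ v ∈ D i, (g : Matrix (Fin 10) (Fin 10) F) *ᵥ v ∈ D j := by
    intro i j
    obtain ⟨g, hg, hgij⟩ := htr i j
    rw [← SetLike.mem_coe, Subgroup.mul_normal] at hg
    obtain ⟨a, ha, z, hz, rfl⟩ := hg
    refine ⟨a, ha, fun v hv => ?_⟩
    obtain ⟨c, hc⟩ := (mem_scalars_iff z).mp hz
    have := hgij v hv
    rw [Units.val_mul, ← Matrix.mulVec_mulVec, hc, Matrix.smul_mulVec, Matrix.one_mulVec, Matrix.mulVec_smul] at this
    have h' := (D j).smul_mem (c : F)⁻¹ this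
    rwa [smul_smul, inv_mul_cancel₀ c.ne_zero, one_smul] at h'
  have hiso : ∀ i j, AreIsometricFor (⇑Q) (D i) (D j) := by
    intro i j
    obtain ⟨g, hg, hgij⟩ := htr' i j
    let L : D i →ₗ[F] D j :=
      { toFun := fun v => ⟨(g : Matrix (Fin 10) (Fin 10) F) *ᵥ (v : Fin 10 → F), hgij v v.2⟩
        map_add' := fun a b => Subtype.ext (by simp [Matrix.mulVec_add])
        map_smul' := fun c a => Subtype.ext (by simp [Matrix.mulVec_smul]) }
    have hinj : Function.Injective L := fun a b hab => by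
      have := congrArg ((g⁻¹ : GL (Fin 10) F).val *ᵥ ·) (congrArg Subtype.val hab)
      exact Subtype.ext (by simpa [L, Matrix.mulVec_mulVec] using this)
    exact ⟨LinearEquiv.ofBijective L ⟨hinj, (LinearMap.injective_iff_surjective_of_finrank_eq_finrank
      (by rw [hD.decomp.finrank_eq, hD.decomp.finrank_eq])).mp hinj⟩, fun w => quad_of_mem Q (hI hg) _⟩
  have hD' : IsNondegenerateMDecomposition (QuadraticMap.polar ⇑Q) k D := fq_eq_polar (Q := Q) ▸ hD
  have hOD : IsOrthogonalMDecomposition (⇑Q) k D := ⟨hD', hiso⟩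
  have htk : t * k = 10 := by
    have hd := hD.decomp
    have hint := DirectSum.isInternal_submodule_of_iSupIndep_of_iSup_eq_top hd.indep hd.iSup_eq_top
    have := Module.finrank_eq_card_basis
      (hint.collectedBasis fun i => Module.finBasisOfFinrankEq F (D i) (hd.finrank_eq i))
    rw [finrank_fin_fun, Fintype.card_sigma] at this
    simp at this
    omega
  have ht2 := hD.decomp.two_le
  by_cases hk2 : k = 2
  · subst hk2
    obtain rfl : t = 5 := by omega
    by_cases hq : 7 ≤ Fintype.card F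
    · exact Or.inr (Or.inl ⟨hq, D, hOD, hKH⟩)
    exfalso
    by_cases hall : ∀ i, IsPlusTypeOn (⇑Q) (D i)
    · have hcard : (Fintype.card F = 2 ∨ Fintype.card F = 4) ∨ (Fintype.card F = 3 ∨ Fintype.card F = 5) := by
        have h1 := Fintype.one_lt_card (α := F)
        have h6 : Fintype.card F ≠ 6 := fun h => by
          have hp := FiniteField.isPrimePow_card F
          rw [h] at hp
          revert hp
          decide
        omega
      obtain ⟨K, hK1, hK2⟩ : ∃ K : Subgroup (GL (Fin 10) F),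
          decompositionStabilizer D ⊓ omegaGL ⇑Q < K ∧ K < omegaGL ⇑Q := by
        rcases hcard with h | h
        · exact FrameRefinePlus.exists_between_plane_char_two Q h hOD hQ hall (by simp) le_rfl
        · exact FrameRefinePlus.exists_between_plane_odd Q h hOD hall le_rfl
      have hHD : H ≤ decompositionStabilizer D ⊓ omegaGL ⇑Q := le_inf hKH hH.1.le
      rcases hH.2 K (hHD.trans hK1.le) hK2.le with h | h
      · exact hK1.not_ge (h ▸ hHD)
      · exact hK2.ne h
    refine not_plus_of_planes hQ hD' (fun i v hv hv0 => ?_) hplus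
    by_contra hne
    refine hall fun j => ?_
    obtain ⟨e, he⟩ := hiso i j
    have hw0 : (e ⟨v, hv⟩ : Fin 10 → F) ≠ 0 := fun h => hne (by
      have h' : e ⟨v, hv⟩ = 0 := Subtype.ext h
      exact congrArg Subtype.val (e.map_eq_zero_iff.mp h'))
    refine ⟨Submodule.span F {(e ⟨v, hv⟩ : Fin 10 → F)},
      (Submodule.span_singleton_le_iff_mem _ _).mpr (e ⟨v, hv⟩).2, fun w hw => ?_, ?_⟩
    · obtain ⟨c, rfl⟩ := Submodule.mem_span_singleton.mp hw
      rw [QuadraticMap.map_smul, he, hv0, smul_zero]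
    · rw [finrank_span_singleton hw0, hD.decomp.finrank_eq]
  have hk15 : (k = 1 ∧ t = 10) ∨ (k = 5 ∧ t = 2) := by
    have h5 : k ≤ 5 := by nlinarith
    interval_cases k <;> omega
  have h2 : (2 : F) ≠ 0 := fun h20 => by
    have := EvenTen.even_finrank_of_two_eq_zero h20 (hD.nondegenerate ⟨0, by omega⟩)
    rw [hD.decomp.finrank_eq] at this
    rcases hk15 with ⟨rfl, -⟩ | ⟨rfl, -⟩ <;> exact absurd this (by decide)
  have hodd : Fintype.card F % 2 = 1 := by
    refine FiniteField.odd_card_of_char_ne_two fun hc => h2 ?_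
    haveI : CharP F 2 := ringChar.of_eq hc
    exact CharTwo.two_eq_zero
  have hq4 : Fintype.card F % 4 = 1 := by
    let i₀ : Fin t := ⟨0, by omega⟩
    choose e he using fun i => hiso i₀ i
    have hs := isSquare_neg_prod hQ h2 hplus hD' i₀ e (fun _ => 1) (fun i w => by rw [he, one_mul])
      (by rcases hk15 with ⟨-, rfl⟩ | ⟨-, rfl⟩ <;> decide)
    simp only [Finset.prod_const_one, one_pow] at hs
    have := FiniteField.isSquare_neg_one_iff.mp hs
    omega
  rcases hk15 with ⟨rfl, rfl⟩ | ⟨rfl, rfl⟩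
  swap
  · exact Or.inr (Or.inr (Or.inl ⟨hq4, D, hOD, hKH⟩))
  by_cases hp : (Fintype.card F).Prime
  · exact Or.inl ⟨⟨_, hp, rfl, hq4⟩, D, hOD, hKH⟩
  have hbot : (⊥ : Subfield F) ≠ ⊤ := by
    intro e'
    obtain ⟨p, hp'⟩ := CharP.exists F
    haveI := hp'
    haveI : Fact p.Prime := ⟨CharP.char_is_prime F p⟩
    have hbij : Function.Bijective (ZMod.castHom (dvd_refl p) F) := by
      refine ⟨RingHom.injective _, fun x => ?_⟩
      have hx : x ∈ (⊥ : Subfield F) := e' ▸ trivial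
      exact (bot_le : (⊥ : Subfield F) ≤ (ZMod.castHom (dvd_refl p) F).fieldRange) hx
    exact hp (by rw [← Fintype.card_of_bijective hbij, ZMod.card]; exact Fact.out)
  obtain ⟨F₁, r, hr, -, hcard⟩ := exists_prime_index hbot
  obtain ⟨P, z, hz, hrat, hle⟩ := rational_of_lines hI h2 hD hKH htr' F₁
  exact Or.inr (Or.inr (Or.inr ⟨F₁, r, P, z, hr, hcard, hz, hrat, hle⟩))

end Cfsg.Agent.GeomClasses.EvenTen
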