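import Cfsg.Agent.GeomClasses.HalfParity
import Cfsg.Agent.GeomClasses.TwoHalves
import Cfsg.Agent.GeomClasses.EvenTen.Basic

/-! # Maximal totally singular subspaces of a plus-type space of dimension ten -/

set_option autoImplicit false

namespace Cfsg.Agent.GeomClasses.EvenTen

open Module Matrix Cfsg.Geo

variable {F : Type*} [Field F] [Fintype F] {Q : QuadraticForm F (Fin 10 → F)}

/-- A subgroup of Ω preserving a decomposition into two totally singular halves fixes each half. -/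
theorem halves_fixed (hQ : (QuadraticMap.polarBilin Q).Nondegenerate) {H : Subgroup (GL (Fin 10) F)}
    (hH : H ≤ omegaGL ⇑Q) {D : Fin 2 → Submodule F (Fin 10 → F)} (hD : IsMDecomposition 5 D)
    (hts : ∀ i, IsTotallySingularQuad (⇑Q) (D i)) (hle : H ≤ decompositionStabilizer D) :
    H ≤ subspaceStabilizer (D 0) := by
  intro g hg
  obtain ⟨g', hg', rfl⟩ := Subgroup.mem_map.mp (GeomClasses.omegaGL_eq_map Q ▸ hH hg)
  obtain ⟨σ, hσ⟩ := hle hg
  have hk' : ∀ i, finrank F (D i) = 5 := hD.finrank_eq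
  have hd0 : 2 * finrank F (D 0) = finrank F (Fin 10 → F) := by rw [hk', Module.finrank_fin_fun]
  have hn : 5 ≤ finrank F (Fin 10 → F) := by rw [Module.finrank_fin_fun]; norm_num
  have hm : ∀ x ∈ D 0, (g' : (Fin 10 → F) ≃ₗ[F] (Fin 10 → F)) x ∈ D (σ 0) := fun x hx => by
    rw [← hσ 0, ← GeomClasses.orthToGL_mulVec]; exact ⟨x, hx, by simp⟩
  rcases eq_or_ne (σ 0) 0 with h0 | h0
  · exact (GeomClasses.mem_stab_iff Q _ g').mpr (by rwa [h0] at hm)
  · exfalso
    have h1 : σ 0 = 1 := by omega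
    rw [h1] at hm
    have hmap : (D 0).map ((g' : (Fin 10 → F) ≃ₗ[F] (Fin 10 → F)) : (Fin 10 → F) →ₗ[F] (Fin 10 → F)) = D 1 :=
      Submodule.eq_of_le_of_finrank_eq (Submodule.map_le_iff_le_comap.mpr fun x hx => hm x hx)
        (by rw [LinearEquiv.finrank_map_eq, hk', hk'])
    have hd := GeomClasses.dickson_of_image hQ hn (hts 0) hd0 5 g' (D 1) hmap (by
      rw [(GeomClasses.decomp_two_isCompl hD).inf_eq_bot, finrank_bot, hk', zero_add])
    rw [GeomClasses.dickson_commutator hQ hn hg', eq_comm, ZMod.natCast_eq_zero_iff_even] at hd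
    exact absurd hd (by decide)

/-- A subgroup of Ω fixing a totally singular 4-space fixes a totally singular 5-space. -/
theorem ts_four (hQ : (QuadraticMap.polarBilin Q).Nondegenerate) (hplus : IsPlusTypeOn (⇑Q) ⊤)
    {H : Subgroup (GL (Fin 10) F)} (hH : H ≤ omegaGL ⇑Q) {W : Submodule F (Fin 10 → F)}
    (hW : IsTotallySingularQuad (⇑Q) W) (hd : finrank F W = 4) (hle : H ≤ subspaceStabilizer W) :
    ∃ U : Submodule F (Fin 10 → F), finrank F U = 5 ∧ IsTotallySingularQuad (⇑Q) U ∧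
      H ≤ subspaceStabilizer U := by
  have hN : finrank F (Fin 10 → F) = 10 := Module.finrank_fin_fun F
  have hI := Forms.isForm_quadratic Q hQ
  obtain ⟨T0, -, hT0, hd0⟩ := hplus
  rw [finrank_top] at hd0
  obtain ⟨t, ⟨htW, ht0⟩, htn⟩ : ∃ t, t ∈ Forms.perp (QuadraticMap.polarBilin Q) W ⊓ T0 ∧ t ∉ W := by
    refine SetLike.not_le_iff_exists.mp fun hle : Forms.perp (QuadraticMap.polarBilin Q) W ⊓ T0 ≤ W => ?_
    have h1 := Submodule.finrank_mono (le_inf hle inf_le_right)
    have h2 : Forms.perp (QuadraticMap.polarBilin Q) (W ⊔ T0) ≤ Forms.perp (QuadraticMap.polarBilin Q) W ⊓ T0 :=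
      le_inf (Forms.perp_antitone le_sup_left)
        ((Forms.perp_antitone le_sup_right).trans (GeomClasses.half_perp hQ hT0 hd0).le)
    have h3 := Submodule.finrank_mono h2
    have h4 : finrank F (Forms.perp (QuadraticMap.polarBilin Q) (W ⊔ T0)) + finrank F ↥(W ⊔ T0) =
        finrank F (Fin 10 → F) := hI.finrank_perp _
    have h5 := Submodule.finrank_sup_add_finrank_inf_eq W T0
    omega
  set T := W ⊔ Submodule.span F {t} with hT
  have hQt : Q t = 0 := hT0 t ht0
  have hTs : ∀ x ∈ T, Q x = 0 := fun x hx => by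
    obtain ⟨y, hy, z, hz, rfl⟩ := Submodule.mem_sup.mp hx
    obtain ⟨c, rfl⟩ := Submodule.mem_span_singleton.mp hz
    rw [QuadraticMap.map_add Q, QuadraticMap.map_smul, hW y hy, hQt, QuadraticMap.polar_smul_right]
    simp [show QuadraticMap.polar Q y t = 0 from htW y hy]
  have htne : t ≠ 0 := fun h => htn (by rw [h]; exact zero_mem W)
  have hTdim : finrank F T = 5 := by
    have h := Submodule.finrank_sup_add_finrank_inf_eq W (Submodule.span F {t})
    have h0 : W ⊓ Submodule.span F {t} = ⊥ := (Submodule.eq_bot_iff _).mpr fun x hx => by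
      obtain ⟨c, rfl⟩ := Submodule.mem_span_singleton.mp hx.2
      by_contra hc
      have hc0 : c ≠ 0 := fun h0 => hc (by rw [h0, zero_smul])
      exact htn (by simpa [smul_smul, inv_mul_cancel₀ hc0] using W.smul_mem c⁻¹ hx.1)
    rw [h0, finrank_bot, finrank_span_singleton htne] at h
    change finrank F ↥(W ⊔ Submodule.span F {t}) = _
    omega
  have hT2 : 2 * finrank F T = finrank F (Fin 10 → F) := by rw [hTdim, hN]
  refine ⟨T, hTdim, hTs, fun g hg => ?_⟩
  obtain ⟨g', hg', rfl⟩ := Subgroup.mem_map.mp (GeomClasses.omegaGL_eq_map Q ▸ hH hg)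
  have hst := (GeomClasses.mem_stab_iff Q W g').mp (hle hg)
  refine (GeomClasses.mem_stab_iff Q T g').mpr ?_
  set T' := T.map ((g' : (Fin 10 → F) ≃ₗ[F] (Fin 10 → F)) : (Fin 10 → F) →ₗ[F] (Fin 10 → F))
  have hWT' : W ≤ T ⊓ T' := le_inf le_sup_left fun w hw => by
    obtain ⟨z, hz, rfl⟩ : w ∈ W.map ((g' : (Fin 10 → F) ≃ₗ[F] (Fin 10 → F)) :
        (Fin 10 → F) →ₗ[F] (Fin 10 → F)) := by
      rwa [Submodule.eq_of_le_of_finrank_eq (Submodule.map_le_iff_le_comap.mpr fun x hx => hst x hx)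
        (LinearEquiv.finrank_map_eq _ _)]
    exact ⟨z, Submodule.mem_sup_left hz, rfl⟩
  have h1 := Submodule.finrank_mono hWT'
  have h2 := Submodule.finrank_mono (inf_le_left : T ⊓ T' ≤ T)
  rcases Nat.lt_or_ge (finrank F ↥(T ⊓ T')) (finrank F T) with hlt | hge
  · exfalso
    have hd' := GeomClasses.dickson_of_image hQ (by omega) hTs hT2 1 g' T' rfl (by omega)
    rw [GeomClasses.dickson_commutator hQ (by omega) hg'] at hd'
    exact absurd hd' (by decide)
  · have h3 : T ⊓ T' = T := Submodule.eq_of_le_of_finrank_eq inf_le_left (by omega)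
    have h4 : T = T' := Submodule.eq_of_le_of_finrank_eq (inf_eq_left.mp h3) (LinearEquiv.finrank_map_eq _ _).symm
    exact fun x hx => h4 ▸ (⟨x, hx, rfl⟩ : (g' : (Fin 10 → F) ≃ₗ[F] (Fin 10 → F)) x ∈ T')

end Cfsg.Agent.GeomClasses.EvenTen
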