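import Cfsg.Agent.GeomClasses.EvenTen.Field
import Cfsg.Agent.GeomClasses.EvenTen.Blocks
import Cfsg.Agent.GeomClasses.EvenTen.Tensor
import Cfsg.Agent.GeomClasses.EvenTen.NotContain
import Cfsg.Agent.GeomClasses.EvenTen.PlusHalves
import Cfsg.Agent.GeomClasses.EvenTen.PlusBlocks
import Cfsg.Agent.GeomClasses.EvenTen.PlusPlanes
import Cfsg.Agent.GeomClasses.EvenTen.FieldFive
import Cfsg.Agent.GeomClasses.EvenTen.FiveLines
import Cfsg.Agent.GeomClasses.OrthEven.Exclusions
import Cfsg.Agent.GeomClasses.MaxList.NotContain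

/-! # The kinds of maximal subgroups of the orthogonal group of plus type in dimension ten -/

set_option autoImplicit false
set_option maxHeartbeats 800000

namespace Cfsg.Agent.GeomClasses.EvenTen

open Matrix Cfsg.Geo Module
open scoped commutatorElement
open Cfsg.Agent.GeomClasses.AschRel
open Cfsg.Agent.GeomClasses.Asch (Irr Normalises conjHom conjHom_apply)
open Cfsg.Agent.GeomClasses.MaxList (eq_of_le)

variable {F : Type*} [Field F] [Fintype F] {Q : QuadraticForm F (Fin 10 → F)}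

local notation "ι" => Fin 10
local notation "Bq" => qgram Q
local notation "fq" => matForm (RingEquiv.refl F) (qgram Q)
local notation "stq" => st (RingEquiv.refl F) (qgram Q)


variable (Q) in
/-- The geometric kinds of the list for plus type. -/
def PlusListed (H : Subgroup (GL ι F)) : Prop :=
    (∃ W : Submodule F (ι → F), W ≠ ⊥ ∧ IsTotallySingularQuad ⇑Q W ∧ Module.finrank F W ≠ 4 ∧
      H = subspaceStabilizer W ⊓ omegaGL ⇑Q) ∨
    (Odd (Fintype.card F) ∧ ∃ W : Submodule F (ι → F), W ≠ ⊥ ∧ W ≠ ⊤ ∧ Odd (Module.finrank F W) ∧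
      2 * Module.finrank F W ≠ 10 ∧ IsNondegenerateOn (QuadraticMap.polar ⇑Q) W ∧
      H = subspaceStabilizer W ⊓ omegaGL ⇑Q) ∨
    (∃ W : Submodule F (ι → F), Module.finrank F W = 2 ∧ IsNondegenerateOn (QuadraticMap.polar ⇑Q) W ∧
      ¬ IsPlusTypeOn ⇑Q W ∧ H = subspaceStabilizer W ⊓ omegaGL ⇑Q) ∨
    (4 ≤ Fintype.card F ∧ ∃ W : Submodule F (ι → F), Module.finrank F W = 2 ∧
      IsNondegenerateOn (QuadraticMap.polar ⇑Q) W ∧ IsPlusTypeOn ⇑Q W ∧ H = subspaceStabilizer W ⊓ omegaGL ⇑Q) ∨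
    (∃ W : Submodule F (ι → F), Module.finrank F W = 4 ∧ IsNondegenerateOn (QuadraticMap.polar ⇑Q) W ∧
      H = subspaceStabilizer W ⊓ omegaGL ⇑Q) ∨
    (¬ Odd (Fintype.card F) ∧ ∃ v : ι → F, Q v ≠ 0 ∧
      H = subspaceStabilizer (Submodule.span F {v}) ⊓ omegaGL ⇑Q) ∨
    ((∃ p : ℕ, p.Prime ∧ Fintype.card F = p ∧ (p % 4 = 1)) ∧ ∃ D : Fin 10 → Submodule F (ι → F),
      IsOrthogonalMDecomposition ⇑Q 1 D ∧ H = decompositionStabilizer D ⊓ omegaGL ⇑Q) ∨
    (7 ≤ Fintype.card F ∧ ∃ D : Fin 5 → Submodule F (ι → F),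
      IsOrthogonalMDecomposition ⇑Q 2 D ∧ H = decompositionStabilizer D ⊓ omegaGL ⇑Q) ∨
    (Fintype.card F % 4 = 1 ∧ ∃ D : Fin 2 → Submodule F (ι → F),
      IsOrthogonalMDecomposition ⇑Q 5 D ∧ H = decompositionStabilizer D ⊓ omegaGL ⇑Q) ∨
    (Fintype.card F % 4 = 3 ∧ ∃ D : Fin 2 → Submodule F (ι → F),
      IsNondegenerateMDecomposition (QuadraticMap.polar ⇑Q) 5 D ∧ ¬ AreIsometricFor ⇑Q (D 0) (D 1) ∧
      H = decompositionStabilizer D ⊓ omegaGL ⇑Q) ∨
    (Odd (Fintype.card F) ∧ ∃ K : Subalgebra F (Matrix ι ι F), IsFieldSubalgebra 2 K ∧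
      IsSelfAdjointFor (QuadraticMap.polar ⇑Q) K ∧ H = subalgebraNormalizer K ⊓ omegaGL ⇑Q) ∨
    (∃ (F₀ : Subfield F) (r : ℕ) (P : GL ι F) (ζ : F), r.Prime ∧ Fintype.card F = Nat.card F₀ ^ r ∧
      ζ ≠ 0 ∧ IsQuadFormRationalStructure (fun v : ι → F => ζ * Q v) F₀ P ∧
      H = subfieldSubgroup F₀ P ⊓ omegaGL ⇑Q)

theorem plus_lines_not_le (hQ : (QuadraticMap.polarBilin Q).Nondegenerate) (hq : Fintype.card F % 4 = 1)
    {D : Fin 10 → Submodule F (ι → F)} (hD : IsOrthogonalMDecomposition ⇑Q 1 D) :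
    ¬ omegaGL ⇑Q ≤ decompositionStabilizer D :=
  OddMax.not_le_frame hQ (two_ne_of_odd (Nat.odd_iff.mpr (by omega))) (by simp) hD

theorem plus_reducible (hQ : (QuadraticMap.polarBilin Q).Nondegenerate) (hplus : IsPlusTypeOn ⇑Q ⊤)
    {H : Subgroup (GL ι F)} (hH : IsMaximalIn (omegaGL ⇑Q) H)
    (hirr : ¬ Irr ((fun g : (Module.End F (ι → F))ˣ => (g : Module.End F (ι → F))) ''
      (gu '' ((H ⊔ scalars ι F : Subgroup _) : Set _)))) : PlusListed Q H := by
  classical
  have hn : 7 ≤ Fintype.card ι := by simp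
  have hstab : ∀ W : Submodule F (ι → F), H ≤ subspaceStabilizer W → W ≠ ⊥ → W ≠ ⊤ →
      H = subspaceStabilizer W ⊓ omegaGL ⇑Q := fun W hle h0 h1 =>
    eq_of_le hH hle (OrthEven.not_le_subspace hQ hn h0 h1)
  rcases reducible_core hQ (Fintype.card_fin 10) (hH.1.le.trans (omega_le_isometry Q)) hirr with
    ⟨W, h0, h1, hW, hle⟩ | ⟨hq, v, hv, hle⟩ | ⟨hq, W, h0, h1, hodd, h5, hW, hle⟩ | ⟨W, hd, hW, hle⟩ |
    ⟨hq, D, hD, hle⟩
  · by_cases h4 : finrank F W = 4
    · obtain ⟨U, hUd, hU, hUle⟩ := ts_four hQ hplus hH.1.le hW h4 hle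
      have hU0 : U ≠ ⊥ := fun e => by rw [e, finrank_bot] at hUd; omega
      have hU1 : U ≠ ⊤ := fun e => by rw [e, finrank_top, finrank_pi, Fintype.card_fin] at hUd; omega
      exact Or.inl ⟨U, hU0, hU, by omega, hstab U hUle hU0 hU1⟩
    · exact Or.inl ⟨W, h0, hW, h4, hstab W hle h0 h1⟩
  · refine Or.inr <| Or.inr <| Or.inr <| Or.inr <| Or.inr <| Or.inl ⟨hq, v, hv, hstab _ hle ?_ ?_⟩
    · rw [Ne, Submodule.span_singleton_eq_bot]
      rintro rfl; exact hv (QuadraticMap.map_zero Q)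
    · intro e
      have h1 : finrank F (Submodule.span F {v}) ≤ 1 := (finrank_span_le_card {v}).trans (by simp)
      rw [e, finrank_top, finrank_pi, Fintype.card_fin] at h1
      omega
  · exact Or.inr <| Or.inl ⟨hq, W, h0, h1, hodd, by omega, hW, hstab W hle h0 h1⟩
  · have h0 : W ≠ ⊥ := fun e => by rw [e, finrank_bot] at hd; omega
    have h1 : W ≠ ⊤ := fun e => by rw [e, finrank_top, finrank_pi, Fintype.card_fin] at hd; omega
    have hHeq := hstab W hle h0 h1
    rcases hd with hd | hd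
    · by_cases hp : IsPlusTypeOn ⇑Q W
      · by_cases h4 : 4 ≤ Fintype.card F
        · exact Or.inr <| Or.inr <| Or.inr <| Or.inl ⟨h4, W, hd, hW, hp, hHeq⟩
        · exfalso
          obtain ⟨K, hK1, hK2⟩ := exists_between_plane Q (by omega) hd hW hp (by omega) hQ
          rcases hH.2 K (hHeq ▸ hK1.le) hK2.le with h | h
          · exact hK1.ne (by rw [← hHeq, h])
          · exact hK2.ne h
      · exact Or.inr <| Or.inr <| Or.inl ⟨W, hd, hW, hp, hHeq⟩
    · exact Or.inr <| Or.inr <| Or.inr <| Or.inr <| Or.inl ⟨W, hd, hW, hHeq⟩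
  · have hHeq := eq_of_le hH hle (OrthEven.not_le_decomp hQ hn hD.decomp (by norm_num))
    rcases five_pair_cases hQ hplus hq hD with ⟨h1, hiso⟩ | ⟨h3, hni⟩
    · exact Or.inr <| Or.inr <| Or.inr <| Or.inr <| Or.inr <| Or.inr <| Or.inr <| Or.inr <|
        Or.inl ⟨h1, D, hiso, hHeq⟩
    · exact Or.inr <| Or.inr <| Or.inr <| Or.inr <| Or.inr <| Or.inr <| Or.inr <| Or.inr <| Or.inr <|
        Or.inl ⟨h3, D, hD, hni, hHeq⟩

theorem plus_subfield (hQ : (QuadraticMap.polarBilin Q).Nondegenerate)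
    {H : Subgroup (GL ι F)} (hH : IsMaximalIn (omegaGL ⇑Q) H) {F₁ : Subfield F} {r : ℕ} {P : GL ι F} {ζ : F}
    (hr : r.Prime) (hcard : Fintype.card F = Nat.card F₁ ^ r) (hζ : ζ ≠ 0)
    (hrat : IsQuadFormRationalStructure (fun v => ζ * Q v) F₁ P) (hle : H ≤ subfieldSubgroup F₁ P) :
    PlusListed Q H := by
  iterate 11 right
  exact ⟨F₁, r, P, ζ, hr, hcard, hζ, hrat,
    eq_of_le hH hle (OrthEven.not_le_subfield hQ (by simp) hr hcard P)⟩

theorem plus_comm (hQ : (QuadraticMap.polarBilin Q).Nondegenerate) (hplus : IsPlusTypeOn ⇑Q ⊤)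
    {H : Subgroup (GL ι F)} (hH : IsMaximalIn (omegaGL ⇑Q) H)
    (hirr : Irr ((fun u : (Module.End F (ι → F))ˣ => (u : Module.End F (ι → F))) ''
      (gu '' ((H ⊔ scalars ι F : Subgroup _) : Set _))))
    {E : Subalgebra F (Module.End F (ι → F))} (hcomm : ∀ x ∈ E, ∀ y ∈ E, x * y = y * x)
    (hnorm : ∀ g ∈ H ⊔ scalars ι F, Normalises E (gu g)) (hcl : ∀ x ∈ E, stq x ∈ E)
    (hbig : ∃ x ∈ E, ∀ c : F, x ≠ algebraMap F _ c) : PlusListed Q H := by
  classical
  have hn : 7 ≤ Fintype.card ι := by simp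
  have hI := hH.1.le.trans (omega_le_isometry Q)
  have hB := formData Q hQ
  have hirr' : ∀ W : Submodule F (ι → F), (∀ g ∈ H, ∀ w ∈ W, (g : Matrix ι ι F) *ᵥ w ∈ W) → W = ⊥ ∨ W = ⊤ :=
    fun W hW => OrthEven.irred_of_irr hirr hW
  have hhalves : ∀ D : Fin 2 → Submodule F (ι → F), IsMDecomposition 5 D → (∀ i, IsTotallySingularQuad ⇑Q (D i)) →
      H ≤ decompositionStabilizer D → False := by
    intro D hD hts hle
    have hfix := halves_fixed hQ hH.1.le hD hts hle
    have hd := hD.finrank_eq 0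
    rcases hirr' (D 0) (fun g hg w hw => mem_subspaceStabilizer_iff.mp (hfix hg) w hw) with h | h
    · rw [h, finrank_bot] at hd; omega
    · rw [h, finrank_top, finrank_pi, Fintype.card_fin] at hd; omega
  rcases blocks_or_field hB (sim_sup Q hI) hirr hcomm hnorm hcl with
    ⟨t, k, D, hD, hKD, htr⟩ | ⟨k, D, hk, hD, hts, hKD⟩ | hinv
  · rcases decomp_cases_plus hQ hplus hH hD hKD htr with ⟨hp, D', hD', hle⟩ | ⟨h7, D', hD', hle⟩ | ⟨h4, D', hD', hle⟩ |
      ⟨F₁, r, P, ζ, hr, hc, hζ, hrat, hle⟩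
    · obtain ⟨p, hp1, hp2, hp3⟩ := hp
      exact Or.inr <| Or.inr <| Or.inr <| Or.inr <| Or.inr <| Or.inr <| Or.inl ⟨⟨p, hp1, hp2, hp3⟩, D', hD',
        eq_of_le hH hle (plus_lines_not_le hQ (by omega) hD')⟩
    · exact Or.inr <| Or.inr <| Or.inr <| Or.inr <| Or.inr <| Or.inr <| Or.inr <| Or.inl ⟨h7, D', hD',
        eq_of_le hH hle (not_le_decomp hQ hn le_rfl hD'.decomp)⟩
    · exact Or.inr <| Or.inr <| Or.inr <| Or.inr <| Or.inr <| Or.inr <| Or.inr <| Or.inr <| Or.inl ⟨h4, D', hD',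
        eq_of_le hH hle (OrthEven.not_le_decomp hQ hn hD'.decomp.decomp (by norm_num))⟩
    · exact plus_subfield hQ hH hr hc hζ hrat hle
  · exfalso
    obtain rfl : k = 5 := by rw [Fintype.card_fin] at hk; omega
    have hle : H ≤ decompositionStabilizer D := le_sup_left.trans hKD
    have hpol : ∀ i, ∀ a ∈ D i, ∀ b ∈ D i, QuadraticMap.polar (⇑Q) a b = 0 := fun i a ha b hb => by
      rw [polar_eq]; exact hts i a ha b hb
    by_cases h2 : (2 : F) = 0
    swap
    · refine hhalves D hD (fun i w hw => ?_) hle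
      have h := hpol i w hw w hw
      rw [QuadraticMap.polar_self, two_smul] at h
      exact (mul_eq_zero.mp (by linear_combination h : (2 : F) * Q w = 0)).resolve_left h2
    choose U hUD hUs hUd hUm using fun i => exists_singular_sub h2 (hpol i)
    rcases hirr' (⨆ i, U i) (fun g hg w hw => by
      obtain ⟨π, hπ⟩ := hle hg
      refine Submodule.iSup_induction U (motive := fun w => (g : Matrix ι ι F) *ᵥ w ∈ ⨆ i, U i) hw
        (fun i x hx => Submodule.mem_iSup_of_mem (π i) (hUm (π i) _ ?_ ?_)) (by simp) fun a c ha hc => by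
          rw [Matrix.mulVec_add]; exact add_mem ha hc
      · rw [← hπ i]; exact ⟨x, hUD i hx, Matrix.toLin'_apply _ _⟩
      · rw [quad_of_mem Q (hI hg)]; exact hUs i x hx) with h | h
    · have h1 := hUd 0
      have h3 : U 0 = ⊥ := le_bot_iff.mp (h ▸ le_iSup U 0)
      rw [h3, finrank_bot, hD.finrank_eq] at h1
      omega
    · refine hhalves D hD (fun i => ?_) hle
      have hsum : finrank F (U 0) + finrank F (U 1) ≥ 10 := by
        have h1 := Submodule.finrank_add_le_finrank_add_finrank (U 0) (U 1)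
        have h3 : U 0 ⊔ U 1 = ⊤ := by
          rw [← h]
          refine le_antisymm (sup_le (le_iSup U 0) (le_iSup U 1)) (iSup_le ?_)
          rw [Fin.forall_fin_two]
          exact ⟨le_sup_left, le_sup_right⟩
        rw [h3, finrank_top, finrank_pi, Fintype.card_fin] at h1
        exact h1
      have h4 : ∀ j, finrank F (U j) ≤ 5 := fun j => (Submodule.finrank_mono (hUD j)).trans_eq (hD.finrank_eq j)
      have h5 : U i = D i := Submodule.eq_of_le_of_finrank_le (hUD i) (by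
        rw [hD.finrank_eq i]
        have := h4 0; have := h4 1
        fin_cases i <;> simp <;> omega)
      intro w hw
      rw [← h5] at hw
      exact hUs i w hw
  obtain ⟨r, L, hr, hLE, hfin, hLinv, hLN⟩ := Asch.exists_prime_subfield hcomm hinv hbig
  have hLcomm : ∀ x ∈ L, ∀ y ∈ L, x * y = y * x := fun x hx y hy => hcomm x (hLE hx) y (hLE hy)
  have hLnorm : ∀ g ∈ H ⊔ scalars ι F, Normalises L (gu g) := fun g hg => hLN _ (hnorm g hg)
  have hdvd : r ∣ 10 := by
    have := OddMax.field_dvd_card (opAlg_field hLcomm hLinv hfin) hr.two_le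
    rwa [Fintype.card_fin] at this
  have hLcl := subfield_closed hB hcomm hinv hcl hLE hLinv
  have hherm : ∀ M : Subalgebra F (Module.End F (ι → F)), (∀ x ∈ M, ∀ y ∈ M, x * y = y * x) →
      (∀ x ∈ M, x ≠ 0 → ∃ y ∈ M, x * y = 1) → finrank F M = 2 → (∀ x ∈ M, stq x ∈ M) → (∃ x ∈ M, stq x ≠ x) →
      (∀ g ∈ H ⊔ scalars ι F, Normalises M (gu g)) → False := by
    intro M hc hi hf hcl hne hnm
    refine no_hermitian hQ hplus hf hc hi (similitudes hQ hI hirr hf hc hcl hne ?_ hnm)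
    rcases adjoint_dichotomy hB Nat.prime_two hf hc hi hcl with h | ⟨-, -, h⟩
    · obtain ⟨x, hx, hxne⟩ := hne
      exact absurd (h x hx) hxne
    · exact h
  rcases (show r = 2 ∨ r = 5 by
      have := Nat.le_of_dvd (by norm_num) hdvd
      interval_cases r <;> simp_all (config := { decide := true })) with rfl | rfl
  · rcases adjoint_dichotomy hB hr hfin hLcomm hLinv hLcl with hself | ⟨-, hne, -⟩
    · by_cases hq : Odd (Fintype.card F)
      · have hK := opAlg_field hLcomm hLinv hfin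
        exact Or.inr <| Or.inr <| Or.inr <| Or.inr <| Or.inr <| Or.inr <| Or.inr <| Or.inr <| Or.inr <| Or.inr <|
          Or.inl ⟨hq, opAlg L, hK, (opAlg_selfAdjoint hQ).mpr hself,
            eq_of_le hH (le_sup_left.trans (le_normalizer hLnorm)) (OrthEven.not_le_field hQ hn le_rfl hK)⟩
      · exact (no_selfAdjoint_two hQ (char_two_of_even hq) hfin hLcomm hLinv hself).elim
    · exact (hherm L hLcomm hLinv hfin hLcl hne hLnorm).elim
  · exfalso
    rcases adjoint_dichotomy hB hr hfin hLcomm hLinv hLcl with hself | ⟨h, -, -⟩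
    · by_cases hno : ∀ U : Submodule F (ι → F), (∀ l ∈ L, ∀ u ∈ U, l u ∈ U) → finrank F U = 5 →
          ¬ IsTotallySingularQuad ⇑Q U
      · obtain ⟨M, h1, h2, h3, h4, h5, h6⟩ :=
          exists_quadratic_of_five hQ hI hirr hfin hLcomm hLinv hself hno hLnorm
        exact hherm M h1 h2 h3 h4 h5 h6
      · push Not at hno
        obtain ⟨U, hUL, hUd, hUs⟩ := hno
        obtain ⟨D, hD, hts, hle⟩ := five_lines hQ hI hirr hfin hLcomm hLinv hself hLnorm hUd hUL hUs
        exact hhalves D hD hts hle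
    · omega

/-- The maximal subgroups of the orthogonal group of plus type in dimension ten, sorted. -/
theorem ten_plus_cases (hQ : (QuadraticMap.polarBilin Q).Nondegenerate) (hplus : IsPlusTypeOn ⇑Q ⊤)
    {H : Subgroup (GL ι F)} (hH : IsMaximalIn (omegaGL ⇑Q) H) :
    PlusListed Q H ∨ InOrthogonalResidualClass H := by
  classical
  by_cases hgood : PlusListed Q H
  · exact Or.inl hgood
  right
  have hI := hH.1.le.trans (omega_le_isometry Q)
  by_cases hirr : Irr ((fun g : (Module.End F (ι → F))ˣ => (g : Module.End F (ι → F))) ''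
      (gu '' ((H ⊔ scalars ι F : Subgroup _) : Set _)))
  swap
  · exact absurd (plus_reducible hQ hplus hH hirr) hgood
  have hB := formData Q hQ
  set Z := scalars ι F
  set K := H ⊔ Z
  have hsim := sim_sup Q hI
  have hKnZ : ¬ K ≤ Z := by
    intro hle
    let W : Submodule F (ι → F) := Submodule.span F {Pi.single 0 1}
    have hfr : finrank F W = 1 := finrank_span_singleton (by simp)
    rcases OrthEven.irred_of_irr hirr (W := W) (fun g hg w hw => by
      obtain ⟨c, hc⟩ := (mem_scalars_iff g).mp (hle (Subgroup.mem_sup_left hg))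
      rw [hc, Matrix.smul_mulVec, Matrix.one_mulVec]
      exact W.smul_mem _ hw) with h | h
    · rw [h, finrank_bot] at hfr; omega
    · rw [h, finrank_top, finrank_pi, Fintype.card_fin] at hfr; omega
  have hfull : ∀ N, N ≤ K → NormalisedBy K N → ¬ N ≤ Z → AschRel.Full N := by
    intro N hNK hN hNZ
    rcases normal_cases hB hsim hNK hirr hN hNZ with ⟨E, hcomm, hnorm, hcl, hbig⟩ | hf |
      ⟨d, e, φA, φC, hd, he, hde, hAC, hirr2, hfA, hfC, hclA, hclC⟩
    · exact absurd (plus_comm hQ hplus hH hirr hcomm hnorm hcl hbig) hgood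
    · exact hf
    · rw [Fintype.card_fin] at hde
      obtain ⟨E, hcomm, hnorm, hcl, hbig⟩ :=
        tensor_comm hQ hI hirr hd he hde φA φC hAC hirr2 hfA hfC hclA hclC
      exact absurd (plus_comm hQ hplus hH hirr hcomm hnorm hcl hbig) hgood
  obtain ⟨M, ⟨hMn, hZM, hMK, hMne⟩, hmin⟩ := exists_minimal_of_wellFoundedLT
    (fun M : Subgroup (GL ι F) => NormalisedBy K M ∧ Z ≤ M ∧ M ≤ K ∧ M ≠ Z)
    ⟨K, fun g hg x hx => mul_mem (mul_mem hg hx) (inv_mem hg), le_sup_right, le_rfl, fun h => hKnZ h.le⟩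
  have hmin' : ∀ N, NormalisedBy K N → Z ≤ N → N ≤ M → N = Z ∨ N = M := fun N h1 h2 h3 => by
    by_cases h : N = Z
    · exact Or.inl h
    · exact Or.inr (le_antisymm h3 (hmin ⟨h1, h2, h3.trans hMK, h⟩ h3))
  have hMnZ : ¬ M ≤ Z := fun h => hMne (le_antisymm h hZM)
  have hKH : ⁅K, K⁆ ≤ H := (commutator_sup_scalars H H).trans (Subgroup.commutator_le_self H)
  by_cases hab : ⁅M, M⁆ ≤ Z
  · exact (abelian_false hQ hI hZM hMK (hfull M hMK hMn hMnZ) hab).elim
  rcases nonab_split inferInstance le_sup_left hKH hMK hMn hmin' hfull hab hZM with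
    ⟨P, hPM, hPH, hPfull, hnormH, hcore⟩ | ⟨t, d, N, φA, g, ht, hd, hNM, hNp, hrange, hgK, hcom, hirr2, hperm⟩
  swap
  · exfalso
    obtain ⟨b, -⟩ := Asch.exists_tensor_basis (fun i => (conjHom (gu (g i))).comp φA) hcom (fun _ => by omega) hirr2
    have hcard := (Module.finrank_eq_card_basis b).symm
    rw [Module.finrank_fintype_fun_eq_card, Fintype.card_fin, Fintype.card_fun, Fintype.card_fin, Fintype.card_fin] at hcard
    have h1 : d ^ 2 ≤ 10 := hcard ▸ Nat.pow_le_pow_right (by omega) ht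
    have hd3 : d ≤ 3 := by nlinarith
    have h5 : 5 ∣ d ^ t := hcard ▸ (by norm_num : 5 ∣ 10)
    have := Nat.le_of_dvd (by omega) (Nat.Prime.dvd_of_dvd_pow (by norm_num : Nat.Prime 5) h5)
    omega
  have hnsub : ∀ F₀ : Subfield F, F₀ ≠ ⊤ → ¬ RealisableOver F₀ (matrixSet P) := by
    intro F₀ h1 h3
    obtain ⟨F₁, r, Pc, hr, hcard, hHle, hent⟩ := subfield_of_realisable hPfull hnormH h1 h3
    obtain ⟨ζ, hζ, hrat⟩ := OrthEven.quad_rational Q hQ hPfull (fun x hx => quad_of_mem Q (hI (hPH hx))) Pc hent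
    exact hgood (plus_subfield hQ hH hr hcard hζ hrat hHle)
  refine ⟨P, hcore hnsub, ?_⟩
  rintro ⟨σ, f, hf, hfix⟩
  have h3 : ∀ v x y, f v (x + y) = f v x + f v y := fun v x y => by
    rw [hf.herm, hf.add_left, map_add, ← hf.herm, ← hf.herm]
  have h4 : ∀ (c : F) v x, f v (c • x) = σ c * f v x := fun c v x => by
    rw [hf.herm, hf.smul_left, map_mul, ← hf.herm]
  have he := eq_matForm hf.add_left hf.smul_left h3 h4
  have hu : IsUnit (gram f).det := isUnit_of_nondeg (σ := σ) (by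
    rw [show matForm σ (gram f) = f from funext fun u => funext fun v => (he u v).symm]; exact hf.nondegenerate)
  refine hnsub _ (fixedBy_ne_top hf.ne_refl) (realisable_of_two_forms hPfull hf.ne_refl hf.involutive hB.unit hu
    (fun x hx => ?_) fun x hx => fix_gram fun u v => by rw [← he, ← he]; exact hfix _ ⟨x, hx, rfl⟩ u v)
  have e := matrix_eq_of_iso (iso_of_mem Q (hI (hPH hx)))
  rwa [show (x : Matrix ι ι F).map (RingEquiv.refl F) = (x : Matrix ι ι F) by ext u v; rfl] at e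

end Cfsg.Agent.GeomClasses.EvenTen
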